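import Mathlib
import Cfsg.Agent.Helper13.TLDefs

set_option autoImplicit false

namespace Cfsg.Agent.Helper26.TI5954

open Module Polynomial
open Cfsg.Agent.Helper13.TIu Cfsg.Agent.Helper13.TIsp

section geom

variable {F : Type*} [Field F] {σ : F →+* F} {V : Type*} [AddCommGroup V] [Module F V]
  [FiniteDimensional F V] (B : V →ₛₗ[σ] V →ₗ[F] F)

/-- USMUL: scaling an isometry by a scalar of norm one. -/
theorem u_smul_pres (T : Module.End F V) (hT : UPres B T) (c : F) (hc : σ c * c = 1) :
    UPres B (c • T) := by
  intro u v
  have h := hT u v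
  simp only [LinearMap.smul_apply, map_smulₛₗ, smul_eq_mul, RingHom.id_apply]
  rw [h]
  linear_combination (B u v) * hc

end geom

end Cfsg.Agent.Helper26.TI5954
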