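import Mathlib
import Cfsg.Agent.Helper13.TLDefs

set_option autoImplicit false

namespace Cfsg.Agent.Helper26.TI5954

open Module Polynomial
open Cfsg.Agent.Helper13.TIu Cfsg.Agent.Helper13.TIsp

section geom

variable {F : Type*} [Field F] {σ : F →+* F} {V : Type*} [AddCommGroup V] [Module F V]
  [FiniteDimensional F V] (B : V →ₛₗ[σ] V →ₗ[F] F)

/-- UISO: a nonzero nondegenerate subspace has a nonisotropic vector.  (Else `B u v + B v u = 0` on
`W`; with `c • u`: `σ c * B u v + c * σ (B u v) = 0` and `σ (B u v) = - B u v`, so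
`(σ c - c) * B u v = 0`; pick `c` with `σ c ≠ c`.) -/
theorem u_noniso (hσ2 : ∀ a, σ (σ a) = a) (hσne : σ ≠ RingHom.id F) (hS : B.IsSymm)
    (W : Submodule F V) (hW : UNd B W) (hW0 : W ≠ ⊥) : ∃ v ∈ W, B v v ≠ 0 := by
  by_contra hcon
  have hcon' : ∀ v ∈ W, B v v = 0 := by
    intro v hv
    by_contra h
    exact hcon ⟨v, hv, h⟩
  have hc : ∃ c, σ c ≠ c := by
    by_contra h
    apply hσne
    apply RingHom.ext
    intro x
    by_contra hx
    exact h ⟨x, hx⟩
  obtain ⟨c, hc⟩ := hc
  have h1 : ∀ u ∈ W, ∀ v ∈ W, B u v + B v u = 0 := by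
    intro u hu v hv
    have h := hcon' (u + v) (W.add_mem hu hv)
    simp only [map_add, LinearMap.add_apply] at h
    linear_combination h - hcon' u hu - hcon' v hv
  have h2 : ∀ u ∈ W, ∀ v ∈ W, B u v = 0 := by
    intro u hu v hv
    have e1 := h1 u hu v hv
    have e2 := h1 (c • u) (W.smul_mem c hu) v hv
    rw [map_smulₛₗ, LinearMap.smul_apply, map_smul, smul_eq_mul, smul_eq_mul] at e2
    have e3 : B v u = - B u v := by
      rw [eq_neg_iff_add_eq_zero, add_comm]; exact e1
    rw [e3] at e2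
    have e4 : (σ c - c) * B u v = 0 := by rw [← e2]; ring
    rcases mul_eq_zero.mp e4 with h | h
    · exact absurd (sub_eq_zero.mp h) hc
    · exact h
  apply hW0
  rw [eq_bot_iff]
  intro v hv
  exact (Submodule.mem_bot F).mpr (hW v hv (fun w hw => h2 v hv w hw))

end geom

end Cfsg.Agent.Helper26.TI5954
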