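import Mathlib
import Cfsg.Agent.Helper13.TLDefs

set_option autoImplicit false

namespace Cfsg.Agent.Helper26.TI5954

open Module Polynomial
open Cfsg.Agent.Helper13.TIu Cfsg.Agent.Helper13.TIsp

section geom

variable {F : Type*} [Field F] {σ : F →+* F} {V : Type*} [AddCommGroup V] [Module F V]
  [FiniteDimensional F V] (B : V →ₛₗ[σ] V →ₗ[F] F)

/-- USUM: orthogonal sums of nondegenerate subspaces (mirror `nd_sum`). -/
theorem u_sum (X Y : Submodule F V) (hX : UNd B X) (hY : UNd B Y)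
    (hXY : ∀ u ∈ X, ∀ v ∈ Y, B u v = 0) (hYX : ∀ u ∈ Y, ∀ v ∈ X, B u v = 0) :
    UNd B (X ⊔ Y) ∧ X ⊓ Y = ⊥ ∧ finrank F ↥(X ⊔ Y) = finrank F X + finrank F Y := by
  have hdisj : X ⊓ Y = ⊥ := by
    rw [eq_bot_iff]
    rintro v ⟨hv1, hv2⟩
    exact (Submodule.mem_bot F).mpr (hX v hv1 (fun w hw => hYX v hv2 w hw))
  refine ⟨?_, hdisj, ?_⟩
  · intro v hv h
    obtain ⟨x, hx, y, hy, rfl⟩ := Submodule.mem_sup.mp hv
    have hx0 : x = 0 := hX x hx (fun w hw => by
      have h1 := h w (Submodule.mem_sup_left hw)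
      rw [map_add, LinearMap.add_apply, hYX y hy w hw, add_zero] at h1
      exact h1)
    have hy0 : y = 0 := hY y hy (fun w hw => by
      have h1 := h w (Submodule.mem_sup_right hw)
      rw [map_add, LinearMap.add_apply, hXY x hx w hw, zero_add] at h1
      exact h1)
    rw [hx0, hy0, add_zero]
  · have h := Submodule.finrank_sup_add_finrank_inf_eq X Y
    rw [hdisj, finrank_bot] at h
    omega

end geom

end Cfsg.Agent.Helper26.TI5954
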