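import Mathlib
import Cfsg.Agent.Helper96.OHDefs
import Cfsg.Agent.Helper31.OHOPAIR
import Cfsg.Agent.Helper37.OHONOODD
import Cfsg.Agent.Helper3.OHOAEA

set_option autoImplicit false
set_option linter.unusedSectionVars false
set_option linter.unusedVariables false

namespace Cfsg.Agent.Helper26.OH5992

open Module Polynomial Cfsg Cfsg.Geo
open Cfsg.Agent.Helper13.TIu Cfsg.Agent.Helper96.OH

variable {ι : Type} [Fintype ι] [DecidableEq ι] {F : Type*} [Field F] (Q : (ι → F) → F)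

/-- OATOM (uses OPAIR, ONOODD, OAEA; mirror `atom_d` in Helper13/TJDec.lean): OPAIR gives a
nondegenerate invariant `i`-space `U₁` or `2i`-space `E₂`.  `i` odd: `U₁` is impossible by ONOODD
(`U₁ ⊓ ker (T - 1) ≤ N ⊓ ker (T - 1) = ⊥`), so `E₂`, `c = 2i`.  `i` even: `U₁`, or OAEA inside `E₂`. -/
theorem o_atom [Fintype F] (hQ : IsNondegenerateQuadraticForm Q) (h2 : (2 : F) ≠ 0)
    (T : Module.End F (ι → F)) (hT : OPres Q T) (r : ℕ) [Fact r.Prime] (hr2 : 2 < r)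
    (hrF : (r : F) ≠ 0) (hTr : T ^ r = 1) (i c : ℕ)
    (hi : i = orderOf ((Fintype.card F : ℕ) : ZMod r)) (hc : c = if Even i then i else 2 * i)
    (N : Submodule F (ι → F)) (hNT : N.map T ≤ N) (hN : ONd Q N) (hN0 : N ≠ ⊥)
    (hNk : N ⊓ LinearMap.ker (T - 1) = ⊥) :
    ∃ E : Submodule F (ι → F), E ≤ N ∧ E.map T ≤ E ∧ ONd Q E ∧ finrank F E = c := by
  rcases Cfsg.Agent.Helper31.OH5992.o_hyp_pair Q hQ T hT r hrF hTr N hNT hN hN0 hNk with
    ⟨U₁, hU₁N, hU₁T, hU₁nd, hU₁dim⟩ | ⟨E₂, hE₂N, hE₂T, hE₂nd, hE₂dim⟩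
  · by_cases he : Even i
    · exact ⟨U₁, hU₁N, hU₁T, hU₁nd, by rw [hU₁dim, hc, if_pos he, hi]⟩
    · exfalso
      have hodd : Odd (finrank F U₁) := by
        rw [hU₁dim, ← hi]; exact Nat.not_even_iff_odd.mp he
      have hrodd : Odd r := (Fact.out : r.Prime).odd_of_ne_two (by omega)
      have h := Cfsg.Agent.Helper37.OH5992.o_no_odd Q hQ h2 T hT r hrodd hTr U₁ hU₁T hU₁nd hodd
      apply h
      rw [eq_bot_iff, ← hNk]; exact inf_le_inf_right _ hU₁N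
  · by_cases he : Even i
    · have hE₂k : E₂ ⊓ LinearMap.ker (T - 1) = ⊥ := by
        rw [eq_bot_iff, ← hNk]; exact inf_le_inf_right _ hE₂N
      obtain ⟨E, hEE₂, hET, hEnd, hEdim⟩ := Cfsg.Agent.Helper3.OH5992.o_atom_even Q hQ h2 T hT r hr2 hrF hTr
        (by rw [← hi]; exact he) E₂ hE₂T hE₂nd hE₂k hE₂dim
      exact ⟨E, hEE₂.trans hE₂N, hET, hEnd, by rw [hEdim, hc, if_pos he, hi]⟩
    · exact ⟨E₂, hE₂N, hE₂T, hE₂nd, by rw [hE₂dim, hc, if_neg he, hi]⟩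

end Cfsg.Agent.Helper26.OH5992
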