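import Cfsg.Agent.Helper26.Co0Count
import Cfsg.Agent.Helper26.Co2Trans
import Cfsg.Agent.Helper92.LeechIrr

/-!
# The census of the minimal vectors by inner product with `(4, 4, 0^22)`

`ncard_dot_congr` transports the sets `{w | w ∈ Λ, |w|² = N, v · w = d}` along an element of
`Co0`; `census_leechU` counts the minimal vectors with inner product `-16`, `-8`, `0` with
`Spor.leechU` (`4600`, `47104`, `93150`) by the kernel evaluation of `Co0Count`.
-/

set_option autoImplicit false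

namespace Cfsg.Agent.Helper26

open Cfsg

/-- the sets `{w | w ∈ Λ, |w|² = N, v · w = d}` of two vectors in the same `Co0`-orbit have the
same cardinality. -/
theorem ncard_dot_congr (g : Co0) (v v' : leechLattice) (hg : g • v = v') (N d : ℤ) :
    {w : GolayPt → ℤ | w ∈ leechLattice ∧ sqNorm w = N ∧
        dotInt (v : GolayPt → ℤ) w = d}.ncard =
      {w : GolayPt → ℤ | w ∈ leechLattice ∧ sqNorm w = N ∧
        dotInt (v' : GolayPt → ℤ) w = d}.ncard := by
  apply Set.ncard_congr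
    (fun y hy => ((g • (⟨y, hy.1⟩ : leechLattice) : leechLattice) : GolayPt → ℤ))
  · intro y hy
    obtain ⟨hy1, hy2, hy3⟩ := hy
    refine ⟨(g • (⟨y, hy1⟩ : leechLattice) : leechLattice).2, ?_, ?_⟩
    · rw [co0_norm]
      exact hy2
    · rw [← hg, co0_dot]
      exact hy3
  · intro a b ha hb hab
    have h1 : g • (⟨a, ha.1⟩ : leechLattice) = g • (⟨b, hb.1⟩ : leechLattice) := Subtype.ext hab
    have h2 := MulAction.injective g h1
    exact congrArg Subtype.val h2
  · intro w hw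
    obtain ⟨hw1, hw2, hw3⟩ := hw
    refine ⟨((g⁻¹ • (⟨w, hw1⟩ : leechLattice) : leechLattice) : GolayPt → ℤ),
      ⟨(g⁻¹ • (⟨w, hw1⟩ : leechLattice) : leechLattice).2, ?_, ?_⟩, ?_⟩
    · rw [co0_norm]
      exact hw2
    · have h := co0_dot g v (g⁻¹ • (⟨w, hw1⟩ : leechLattice))
      rw [smul_inv_smul, hg] at h
      rw [← h]
      exact hw3
    · show ((g • (g⁻¹ • (⟨w, hw1⟩ : leechLattice)) : leechLattice) : GolayPt → ℤ) = w
      rw [smul_inv_smul]

/-- packed test: coordinates 0 and 23 have sum `k - 16`. -/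
def selU (k : ℕ) (n : ℕ) : Bool :=
  Nat.beq (Nat.add (Nat.land n 15) (Nat.land (Nat.shiftRight n 92) 15)) k

theorem selU_eq (k n : ℕ) : selU k n = Nat.beq (nib n 0 + nib n 23) k := by
  simp [selU, nib]

theorem selU_iff (k : ℕ) (w : GolayPt → ℤ) (hw : w ∈ leechLattice) (hn : sqNorm w = 32) :
    selU k (pk w) = true ↔ dotInt (Spor.leechU : GolayPt → ℤ) w = 4 * (k : ℤ) - 64 := by
  have h := nib_sum_leechU ⟨w, hw⟩ hn
  have hb : Nat.beq (nib (pk w) 0 + nib (pk w) 23) k = true ↔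
      nib (pk w) 0 + nib (pk w) 23 = k :=
    ⟨Nat.eq_of_beq_eq_true, fun h => by rw [h]; exact Nat.beq_refl k⟩
  rw [dot_leechU, selU_eq, hb]
  change ((nib (pk w) 0 + nib (pk w) 23 : ℕ) : ℤ) = w none + w (some 0) + 16 at h
  omega

theorem set_leechU_eq (k : ℕ) :
    {w : GolayPt → ℤ | w ∈ leechLattice ∧ sqNorm w = 32 ∧
        dotInt (Spor.leechU : GolayPt → ℤ) w = 4 * (k : ℤ) - 64} =
      {w : GolayPt → ℤ | w ∈ leechLattice ∧ sqNorm w = 32 ∧ selU k (pk w) = true} := by
  ext w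
  constructor
  · rintro ⟨h1, h2, h3⟩
    exact ⟨h1, h2, (selU_iff k w h1 h2).2 h3⟩
  · rintro ⟨h1, h2, h3⟩
    exact ⟨h1, h2, (selU_iff k w h1 h2).1 h3⟩

set_option maxRecDepth 100000 in
theorem cnt_selU12 : cntAll (selU 12) = 4600 := by decide +kernel

set_option maxRecDepth 100000 in
theorem cnt_selU14 : cntAll (selU 14) = 47104 := by decide +kernel

set_option maxRecDepth 100000 in
theorem cnt_selU16 : cntAll (selU 16) = 93150 := by decide +kernel

/-- the census of the minimal vectors by inner product with `(4, 4, 0^22)`. -/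
theorem census_leechU :
    {w : GolayPt → ℤ | w ∈ leechLattice ∧ sqNorm w = 32 ∧
        dotInt (Spor.leechU : GolayPt → ℤ) w = -16}.ncard = 4600 ∧
    {w : GolayPt → ℤ | w ∈ leechLattice ∧ sqNorm w = 32 ∧
        dotInt (Spor.leechU : GolayPt → ℤ) w = -8}.ncard = 47104 ∧
    {w : GolayPt → ℤ | w ∈ leechLattice ∧ sqNorm w = 32 ∧
        dotInt (Spor.leechU : GolayPt → ℤ) w = 0}.ncard = 93150 := by
  have h12 := set_leechU_eq 12
  have h14 := set_leechU_eq 14
  have h16 := set_leechU_eq 16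
  norm_num at h12 h14 h16
  rw [h12, h14, h16]
  exact ⟨minCount _ _ cnt_selU12, minCount _ _ cnt_selU14, minCount _ _ cnt_selU16⟩

/-- the census of the minimal vectors by inner product with a fixed minimal vector. -/
theorem census_min (v : GolayPt → ℤ) (hv : v ∈ leechLattice) (hvn : sqNorm v = 32) :
    {w : GolayPt → ℤ | w ∈ leechLattice ∧ sqNorm w = 32 ∧ dotInt v w = -16}.ncard = 4600 ∧
    {w : GolayPt → ℤ | w ∈ leechLattice ∧ sqNorm w = 32 ∧ dotInt v w = -8}.ncard = 47104 ∧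
    {w : GolayPt → ℤ | w ∈ leechLattice ∧ sqNorm w = 32 ∧ dotInt v w = 0}.ncard = 93150 := by
  obtain ⟨g, hg⟩ := Cfsg.Agent.Helper92.exists_smul_eq_of_norm32 ⟨v, hv⟩ Spor.leechU hvn
    sqNorm_leechU32
  have h := fun d => ncard_dot_congr g ⟨v, hv⟩ Spor.leechU hg 32 d
  rw [h (-16), h (-8), h 0]
  exact census_leechU

end Cfsg.Agent.Helper26
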