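import Cfsg.Agent.Helper26.HSTrans

/-!
# The rank 5 action of the stabiliser of a vector of squared length 48

`co3_rank5`: the stabiliser of `u` (squared length 48) acts on the 11178 minimal vectors of inner
product `-16` with `u`; the stabiliser of one of them, `x`, has the further orbits of sizes
`352`, `1100`, `4125`, `5600`.
-/

set_option autoImplicit false

namespace Cfsg.Agent.Helper26

open Cfsg

theorem hs_cls_cases (z : leechLattice) (hn : sqNorm (z : GolayPt → ℤ) = 32)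
    (hV : dotInt (Spor.leechV : GolayPt → ℤ) (z : GolayPt → ℤ) = -16) :
    clsH (pk (z : GolayPt → ℤ)) = 2 ∨ clsH (pk (z : GolayPt → ℤ)) = 3 ∨
    clsH (pk (z : GolayPt → ℤ)) = 4 ∨ clsH (pk (z : GolayPt → ℤ)) = 5 ∨ z = Spor.leechU' := by
  have h := clsH_spec _ z.2 hn
  rw [if_neg (by omega), if_pos hV] at h
  by_cases h6 : clsH (pk (z : GolayPt → ℤ)) = 6
  · right; right; right; right
    exact hs_catch z hn h6
  · split_ifs at h <;> omega

theorem hs_cls_dot (z : leechLattice) (hn : sqNorm (z : GolayPt → ℤ) = 32) (c : ℕ)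
    (hc : clsH (pk (z : GolayPt → ℤ)) = c) (h2 : 2 ≤ c) :
    dotInt (Spor.leechV : GolayPt → ℤ) (z : GolayPt → ℤ) = -16 := by
  rw [clsH_spec _ z.2 hn] at hc
  split_ifs at hc <;> omega

/-- **The rank 5 action of the third Conway group on 11178 points.** -/
theorem co3_rank5 (u x : leechLattice) (hu : sqNorm (u : GolayPt → ℤ) = 48)
    (hx : x ∈ {x : leechLattice | sqNorm (x : GolayPt → ℤ) = 32 ∧
      dotInt (u : GolayPt → ℤ) (x : GolayPt → ℤ) = -16}) :
    ∃ y₁ ∈ {x : leechLattice | sqNorm (x : GolayPt → ℤ) = 32 ∧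
      dotInt (u : GolayPt → ℤ) (x : GolayPt → ℤ) = -16},
    ∃ y₂ ∈ {x : leechLattice | sqNorm (x : GolayPt → ℤ) = 32 ∧
      dotInt (u : GolayPt → ℤ) (x : GolayPt → ℤ) = -16},
    ∃ y₃ ∈ {x : leechLattice | sqNorm (x : GolayPt → ℤ) = 32 ∧
      dotInt (u : GolayPt → ℤ) (x : GolayPt → ℤ) = -16},
    ∃ y₄ ∈ {x : leechLattice | sqNorm (x : GolayPt → ℤ) = 32 ∧
      dotInt (u : GolayPt → ℤ) (x : GolayPt → ℤ) = -16},
    (MulAction.orbit (↥(MulAction.stabilizer Co0 u ⊓ MulAction.stabilizer Co0 x)) y₁).ncard = 352 ∧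
    (MulAction.orbit (↥(MulAction.stabilizer Co0 u ⊓ MulAction.stabilizer Co0 x)) y₂).ncard = 1100 ∧
    (MulAction.orbit (↥(MulAction.stabilizer Co0 u ⊓ MulAction.stabilizer Co0 x)) y₃).ncard = 4125 ∧
    (MulAction.orbit (↥(MulAction.stabilizer Co0 u ⊓ MulAction.stabilizer Co0 x)) y₄).ncard = 5600 ∧
    {x : leechLattice | sqNorm (x : GolayPt → ℤ) = 32 ∧
      dotInt (u : GolayPt → ℤ) (x : GolayPt → ℤ) = -16} =
      {x} ∪ MulAction.orbit (↥(MulAction.stabilizer Co0 u ⊓ MulAction.stabilizer Co0 x)) y₁ ∪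
        MulAction.orbit (↥(MulAction.stabilizer Co0 u ⊓ MulAction.stabilizer Co0 x)) y₂ ∪
        MulAction.orbit (↥(MulAction.stabilizer Co0 u ⊓ MulAction.stabilizer Co0 x)) y₃ ∪
        MulAction.orbit (↥(MulAction.stabilizer Co0 u ⊓ MulAction.stabilizer Co0 x)) y₄ := by
  obtain ⟨g0, hg0⟩ := Cfsg.Agent.Helper92.exists_smul_eq_of_norm48 u Spor.leechV hu
    sqNorm_leechV48
  obtain ⟨h0, a0, b0⟩ := co3_trans16 (g0 • x) Spor.leechU' (by rw [co0_norm]; exact hx.1)
    sqNorm_leechU'32 (by rw [dot_map g0 u _ hg0]; exact hx.2) dot_V_U'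
  obtain ⟨g, hgu, hgx⟩ : ∃ g : Co0, g • u = Spor.leechV ∧ g • x = Spor.leechU' :=
    ⟨h0 * g0, by rw [mul_smul, hg0, a0], by rw [mul_smul, b0]⟩
  have main : ∀ c N : ℕ, 2 ≤ c → cntAll (fun n => Nat.beq (clsH n) c) = N → N ≠ 0 →
      ∃ y : leechLattice, (sqNorm (y : GolayPt → ℤ) = 32 ∧
        dotInt (u : GolayPt → ℤ) (y : GolayPt → ℤ) = -16) ∧
        (MulAction.orbit (↥(MulAction.stabilizer Co0 u ⊓ MulAction.stabilizer Co0 x)) y).ncard
          = N ∧
        MulAction.orbit (↥(MulAction.stabilizer Co0 u ⊓ MulAction.stabilizer Co0 x)) y =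
          {z : leechLattice | sqNorm (z : GolayPt → ℤ) = 32 ∧
            clsH (pk ((g • z : leechLattice) : GolayPt → ℤ)) = c} := by
    intro c N hc2 hcnt hN0
    have hN : {z : leechLattice | sqNorm (z : GolayPt → ℤ) = 32 ∧
        clsH (pk ((g • z : leechLattice) : GolayPt → ℤ)) = c}.ncard = N :=
      (ncard_smul g (fun z => sqNorm (z : GolayPt → ℤ) = 32 ∧
          clsH (pk ((g • z : leechLattice) : GolayPt → ℤ)) = c)
        (fun z => sqNorm (z : GolayPt → ℤ) = 32 ∧ clsH (pk (z : GolayPt → ℤ)) = c)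
        (fun z => by rw [co0_norm])).trans (ncard_cls clsH c N hcnt)
    obtain ⟨y, hy⟩ := Set.nonempty_of_ncard_ne_zero (by rw [hN]; exact hN0)
    have hS : ∀ z : leechLattice, (sqNorm (z : GolayPt → ℤ) = 32 ∧
        clsH (pk ((g • z : leechLattice) : GolayPt → ℤ)) = c) →
        dotInt (u : GolayPt → ℤ) (z : GolayPt → ℤ) = -16 := by
      intro z hz
      rw [← dot_map g u _ hgu z]
      exact hs_cls_dot (g • z) (by rw [co0_norm]; exact hz.1) c hz.2 hc2
    have horb := orbit_eq_of_trans (MulAction.stabilizer Co0 u ⊓ MulAction.stabilizer Co0 x)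
      {z : leechLattice | sqNorm (z : GolayPt → ℤ) = 32 ∧
        clsH (pk ((g • z : leechLattice) : GolayPt → ℤ)) = c} y hy
      (by
        intro k hk z hz
        have hk' := Subgroup.mem_inf.1 hk
        have ku := MulAction.mem_stabilizer_iff.1 hk'.1
        have kx := MulAction.mem_stabilizer_iff.1 hk'.2
        have n1 : sqNorm ((k • z : leechLattice) : GolayPt → ℤ) = 32 := by
          rw [co0_norm]; exact hz.1
        refine ⟨n1, ?_⟩
        rw [clsH_congr (g • k • z) (g • z) (by rw [co0_norm]; exact n1)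
          (by rw [co0_norm]; exact hz.1)
          (by rw [dot_map g u _ hgu, dot_map g u _ hgu, dot_fix k u ku])
          (by rw [dot_map g x _ hgx, dot_map g x _ hgx, dot_fix k x kx])]
        exact hz.2)
      (by
        intro z hz
        obtain ⟨c', rfl⟩ : ∃ c', c = c' + 1 := ⟨c - 1, by omega⟩
        obtain ⟨h, a, b, d⟩ := hs_trans c' (g • y) (g • z) (by rw [co0_norm]; exact hy.1)
          (by rw [co0_norm]; exact hz.1) hy.2 hz.2
        exact ⟨g⁻¹ * h * g, Subgroup.mem_inf.2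
          ⟨MulAction.mem_stabilizer_iff.2 (conj_fix g h u (by rw [hgu]; exact a)),
            MulAction.mem_stabilizer_iff.2 (conj_fix g h x (by rw [hgx]; exact b))⟩,
          conj_map g h y z d⟩)
    exact ⟨y, ⟨hy.1, hS y hy⟩, by rw [horb]; exact hN, horb⟩
  obtain ⟨y1, s1, n1, o1⟩ := main 2 352 (by norm_num) cnt_H2 (by norm_num)
  obtain ⟨y2, s2, n2, o2⟩ := main 5 1100 (by norm_num) cnt_H5 (by norm_num)
  obtain ⟨y3, s3, n3, o3⟩ := main 3 4125 (by norm_num) cnt_H3 (by norm_num)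
  obtain ⟨y4, s4, n4, o4⟩ := main 4 5600 (by norm_num) cnt_H4 (by norm_num)
  refine ⟨y1, s1, y2, s2, y3, s3, y4, s4, n1, n2, n3, n4, ?_⟩
  rw [o1, o2, o3, o4]
  ext z
  simp only [Set.mem_union, Set.mem_singleton_iff, Set.mem_ofPred_eq]
  constructor
  · rintro ⟨hn, hd⟩
    have hn' : sqNorm ((g • z : leechLattice) : GolayPt → ℤ) = 32 := by rw [co0_norm]; exact hn
    rcases hs_cls_cases (g • z) hn' (by rw [dot_map g u _ hgu]; exact hd) with h | h | h | h | h
    · exact Or.inl (Or.inl (Or.inl (Or.inr ⟨hn, h⟩)))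
    · exact Or.inl (Or.inr ⟨hn, h⟩)
    · exact Or.inr ⟨hn, h⟩
    · exact Or.inl (Or.inl (Or.inr ⟨hn, h⟩))
    · left; left; left; left
      exact MulAction.injective g (show g • z = g • x by rw [h, hgx])
  · have hS : ∀ c : ℕ, 2 ≤ c → (sqNorm (z : GolayPt → ℤ) = 32 ∧
        clsH (pk ((g • z : leechLattice) : GolayPt → ℤ)) = c) →
        sqNorm (z : GolayPt → ℤ) = 32 ∧ dotInt (u : GolayPt → ℤ) (z : GolayPt → ℤ) = -16 := by
      intro c hc hz
      refine ⟨hz.1, ?_⟩
      rw [← dot_map g u _ hgu z]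
      exact hs_cls_dot (g • z) (by rw [co0_norm]; exact hz.1) c hz.2 hc
    rintro ((((h | h) | h) | h) | h)
    · rw [h]; exact hx
    · exact hS 2 (by norm_num) h
    · exact hS 5 (by norm_num) h
    · exact hS 3 (by norm_num) h
    · exact hS 4 (by norm_num) h

end Cfsg.Agent.Helper26
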