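import Mathlib
import Cfsg.Prelude.Def_Sporadic_a

/-!
# Conway's characterisation of the rank-24 lattice, part A

An additive subgroup `M` of `Fin 24 → ℤ` "in frame coordinates" (`FrameLat`), and the binary
code of its even vectors: self-orthogonal, doubly even, no words of weight 4, at most 759
words of weight 8.
-/

set_option autoImplicit false

namespace Cfsg.Agent.Helper26

open Finset Cfsg

/-- an additive subgroup of `ℤ^24` in frame coordinates -/
structure FrameLat (M : AddSubgroup (Fin 24 → ℤ)) : Prop where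
  four : ∀ z : Fin 24 → ℤ, (∑ i, z i) % 2 = 0 → (fun i => 4 * z i) ∈ M
  par : ∀ y ∈ M, ∀ i j, y i % 2 = y j % 2
  dvd16 : ∀ y ∈ M, sqNorm y % 16 = 0
  ne16 : ∀ y ∈ M, sqNorm y ≠ 16
  cnt : {y : Fin 24 → ℤ | y ∈ M ∧ sqNorm y = 32}.ncard = 196560

variable {M : AddSubgroup (Fin 24 → ℤ)}

theorem sqNorm_single4 : sqNorm (fun i : Fin 24 => if i = 0 then (4:ℤ) else 0) = 16 := by
  decide

theorem FrameLat.even_of_four (h : FrameLat M) (z : Fin 24 → ℤ) (hz : (fun i => 4 * z i) ∈ M) :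
    (∑ i, z i) % 2 = 0 := by
  by_contra hodd
  have h1 : (∑ i, (z i - if i = 0 then 1 else 0)) % 2 = 0 := by
    rw [Finset.sum_sub_distrib]
    simp only [Finset.sum_ite_eq', Finset.mem_univ, if_true]
    omega
  have h2 := h.four _ h1
  have h3 := M.sub_mem hz h2
  have h4 : ((fun i => 4 * z i) - fun i => 4 * (z i - if i = 0 then 1 else 0))
      = fun i : Fin 24 => if i = 0 then (4:ℤ) else 0 := by
    ext i
    simp only [Pi.sub_apply]
    split_ifs <;> ring
  rw [h4] at h3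
  exact h.ne16 _ h3 sqNorm_single4

theorem sqNorm_add24 (y y' : Fin 24 → ℤ) :
    sqNorm (y + y') = sqNorm y + 2 * (∑ i, y i * y' i) + sqNorm y' := by
  simp only [sqNorm, Pi.add_apply, Finset.mul_sum, ← Finset.sum_add_distrib]
  exact Finset.sum_congr rfl fun i _ => by ring

theorem FrameLat.dot8 (h : FrameLat M) {y y' : Fin 24 → ℤ} (hy : y ∈ M) (hy' : y' ∈ M) :
    (∑ i, y i * y' i) % 8 = 0 := by
  have h1 := h.dvd16 _ (M.add_mem hy hy')
  have h2 := h.dvd16 _ hy
  have h3 := h.dvd16 _ hy'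
  rw [sqNorm_add24] at h1
  omega

/-- reduction modulo 2 -/
def red2 (a : Fin 24 → ℤ) : Fin 24 → ZMod 2 := fun i => (a i : ZMod 2)

theorem red2_add (a b : Fin 24 → ℤ) : red2 (a + b) = red2 a + red2 b := by
  ext i; simp [red2]

/-- doubling -/
def dbl (a : Fin 24 → ℤ) : Fin 24 → ℤ := fun i => 2 * a i

theorem dbl_zero : dbl 0 = 0 := by ext i; simp [dbl]

theorem dbl_add (a b : Fin 24 → ℤ) : dbl (a + b) = dbl a + dbl b := by
  ext i; simp [dbl, mul_add]

theorem sqNorm_dbl (a : Fin 24 → ℤ) : sqNorm (dbl a) = 4 * ∑ i, a i ^ 2 := by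
  simp only [sqNorm, dbl, Finset.mul_sum]
  exact Finset.sum_congr rfl fun i _ => by ring

/-- the binary code of the even vectors of `M` -/
def evenCode (M : AddSubgroup (Fin 24 → ℤ)) : Submodule (ZMod 2) (Fin 24 → ZMod 2) where
  carrier := {c | ∃ a, dbl a ∈ M ∧ red2 a = c}
  zero_mem' := ⟨0, by rw [dbl_zero]; exact M.zero_mem, by ext i; simp [red2]⟩
  add_mem' := by
    rintro _ _ ⟨a, ha, rfl⟩ ⟨b, hb, rfl⟩
    refine ⟨a + b, ?_, red2_add a b⟩
    rw [dbl_add]; exact M.add_mem ha hb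
  smul_mem' := by
    rintro c _ ⟨a, ha, rfl⟩
    have hc : c = 0 ∨ c = 1 := by
      revert c; decide
    rcases hc with rfl | rfl
    · rw [zero_smul]
      exact ⟨0, by rw [dbl_zero]; exact M.zero_mem, by ext i; simp [red2]⟩
    · rw [one_smul]; exact ⟨a, ha, rfl⟩

theorem mem_evenCode {c : Fin 24 → ZMod 2} : c ∈ evenCode M ↔ ∃ a, dbl a ∈ M ∧ red2 a = c := Iff.rfl

theorem cast2_eq_zero (a : ℤ) : ((a : ZMod 2) = 0) ↔ a % 2 = 0 := by
  rw [ZMod.intCast_zmod_eq_zero_iff_dvd]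
  push_cast
  omega

theorem cast2_ne_zero (a : ℤ) : ((a : ZMod 2) ≠ 0) ↔ a % 2 = 1 := by
  rw [Ne, cast2_eq_zero]; omega

/-- the odd positions -/
def oddSet (a : Fin 24 → ℤ) : Finset (Fin 24) := univ.filter (fun i => a i % 2 = 1)

theorem mem_oddSet {a : Fin 24 → ℤ} {i : Fin 24} : i ∈ oddSet a ↔ a i % 2 = 1 := by
  simp [oddSet]

theorem hamming_red2 (a : Fin 24 → ℤ) : hammingNorm (red2 a) = (oddSet a).card := by
  unfold hammingNorm oddSet
  congr 1
  ext i
  rw [Finset.mem_filter, Finset.mem_filter]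
  simp only [Finset.mem_univ, true_and, red2]
  exact cast2_ne_zero (a i)

theorem sq_sum_mod4 (a : Fin 24 → ℤ) : (∑ i, a i ^ 2) % 4 = ((oddSet a).card : ℤ) % 4 := by
  have h1 : ((oddSet a).card : ℤ) = ∑ i, (if a i % 2 = 1 then (1:ℤ) else 0) := by
    simp [oddSet]
  have h2 : (4 : ℤ) ∣ ∑ i, (a i ^ 2 - if a i % 2 = 1 then (1:ℤ) else 0) := by
    apply Finset.dvd_sum
    intro i _
    split_ifs with hi
    · obtain ⟨k, hk⟩ : ∃ k, a i = 2 * k + 1 := ⟨a i / 2, by omega⟩
      rw [hk]; exact ⟨k ^ 2 + k, by ring⟩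
    · obtain ⟨k, hk⟩ : ∃ k, a i = 2 * k := ⟨a i / 2, by omega⟩
      rw [hk]; exact ⟨k ^ 2, by ring⟩
  rw [Finset.sum_sub_distrib, ← h1] at h2
  omega

theorem FrameLat.code_orth (h : FrameLat M) :
    ∀ v ∈ evenCode M, ∀ w ∈ evenCode M, ∑ i, v i * w i = 0 := by
  rintro _ ⟨a, ha, rfl⟩ _ ⟨b, hb, rfl⟩
  have h1 := h.dot8 ha hb
  have h2 : (∑ i, dbl a i * dbl b i) = 4 * ∑ i, a i * b i := by
    simp only [dbl, Finset.mul_sum]
    exact Finset.sum_congr rfl fun i _ => by ring
  rw [h2] at h1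
  have h3 : (∑ i, a i * b i) % 2 = 0 := by omega
  have h4 : (∑ i, red2 a i * red2 b i) = ((∑ i, a i * b i : ℤ) : ZMod 2) := by
    simp [red2]
  rw [h4, cast2_eq_zero]; exact h3

theorem FrameLat.code_dvd4 (h : FrameLat M) : ∀ w ∈ evenCode M, 4 ∣ hammingNorm w := by
  rintro _ ⟨a, ha, rfl⟩
  rw [hamming_red2]
  have h1 := h.dvd16 _ ha
  rw [sqNorm_dbl] at h1
  have h2 := sq_sum_mod4 a
  omega

theorem sum_ite_odd (a : Fin 24 → ℤ) (c : ℤ) :
    ∑ i, (if a i % 2 = 1 then c else 0) = c * (oddSet a).card := by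
  rw [← Finset.sum_filter]
  show ∑ i ∈ oddSet a, c = _
  rw [Finset.sum_const, nsmul_eq_mul, mul_comm]

theorem FrameLat.code_ne4 (h : FrameLat M) : ∀ w ∈ evenCode M, hammingNorm w ≠ 4 := by
  rintro _ ⟨a, ha, rfl⟩ h4
  rw [hamming_red2] at h4
  obtain ⟨s, hs⟩ : ∃ s, a s % 2 = 1 := by
    have hne : (oddSet a).Nonempty := Finset.card_pos.mp (by omega)
    obtain ⟨s, hs⟩ := hne
    exact ⟨s, mem_oddSet.mp hs⟩
  obtain ⟨p, hp, hp01⟩ : ∃ p : ℤ, (∑ i, a i / 2 + p) % 2 = 0 ∧ (p = 0 ∨ p = 1) := by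
    rcases Int.emod_two_eq_zero_or_one (∑ i, a i / 2) with h0 | h0
    · exact ⟨0, by omega, Or.inl rfl⟩
    · exact ⟨1, by omega, Or.inr rfl⟩
  have hz : (∑ i, (a i / 2 + if i = s then p else 0)) % 2 = 0 := by
    rw [Finset.sum_add_distrib]
    simp only [Finset.sum_ite_eq', Finset.mem_univ, if_true]
    exact hp
  have h1 := M.sub_mem ha (h.four _ hz)
  have h2 : ∀ i, (dbl a - fun i => 4 * (a i / 2 + if i = s then p else 0)) i ^ 2
      = if a i % 2 = 1 then 4 else 0 := by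
    intro i
    simp only [Pi.sub_apply, dbl]
    by_cases his : i = s
    · rw [if_pos his, his, if_pos hs]
      have e : 2 * a s - 4 * (a s / 2 + p) = 2 - 4 * p := by omega
      rw [e]
      rcases hp01 with h0 | h0 <;> rw [h0] <;> norm_num
    · rw [if_neg his, add_zero]
      have e : 2 * a i - 4 * (a i / 2) = 2 * (a i % 2) := by omega
      rw [e]
      rcases Int.emod_two_eq_zero_or_one (a i) with h0 | h0 <;> rw [h0] <;> norm_num
  have h3 : sqNorm (dbl a - fun i => 4 * (a i / 2 + if i = s then p else 0)) = 16 := by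
    unfold sqNorm
    rw [Finset.sum_congr rfl (fun i _ => h2 i), sum_ite_odd, h4]
    norm_num
  exact h.ne16 _ h1 h3

/-- the indicator word of a set -/
def indic (S : Finset (Fin 24)) : Fin 24 → ZMod 2 := fun i => if i ∈ S then 1 else 0

theorem hamming_indic (S : Finset (Fin 24)) : hammingNorm (indic S) = S.card := by
  unfold hammingNorm
  congr 1
  ext i
  simp [indic]

theorem indic_add (S T : Finset (Fin 24)) : indic S + indic T = indic (symmDiff S T) := by
  ext i
  simp only [indic, Pi.add_apply, Finset.mem_symmDiff]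
  by_cases h1 : i ∈ S <;> by_cases h2 : i ∈ T <;> simp [h1, h2]
  decide

theorem card_symmDiff24 (S T : Finset (Fin 24)) :
    (symmDiff S T).card + 2 * (S ∩ T).card = S.card + T.card := by
  have h1 : symmDiff S T = (S \ T) ∪ (T \ S) := rfl
  have hd : Disjoint (S \ T) (T \ S) := by
    rw [Finset.disjoint_left]
    intro x hx hx'
    rw [Finset.mem_sdiff] at hx hx'
    exact hx.2 hx'.1
  rw [h1, Finset.card_union_of_disjoint hd]
  have h2 := Finset.card_sdiff_add_card_inter S T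
  have h3 := Finset.card_sdiff_add_card_inter T S
  rw [Finset.inter_comm T S] at h3
  omega

open Classical in
/-- the weight-8 words of a code, as sets -/
noncomputable def octs (C : Submodule (ZMod 2) (Fin 24 → ZMod 2)) : Finset (Finset (Fin 24)) :=
  univ.filter (fun S => S.card = 8 ∧ indic S ∈ C)

theorem mem_octs {C : Submodule (ZMod 2) (Fin 24 → ZMod 2)} {S : Finset (Fin 24)} :
    S ∈ octs C ↔ S.card = 8 ∧ indic S ∈ C := by
  simp [octs]

theorem oct_inter {C : Submodule (ZMod 2) (Fin 24 → ZMod 2)}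
    (h4 : ∀ w ∈ C, 4 ∣ hammingNorm w) (hn4 : ∀ w ∈ C, hammingNorm w ≠ 4)
    {S T : Finset (Fin 24)} (hS : S ∈ octs C) (hT : T ∈ octs C) (hne : S ≠ T) :
    (S ∩ T).card ≤ 4 := by
  rw [mem_octs] at hS hT
  have hm : indic (symmDiff S T) ∈ C := by
    rw [← indic_add]; exact C.add_mem hS.2 hT.2
  have h1 := h4 _ hm
  have h2 := hn4 _ hm
  rw [hamming_indic] at h1 h2
  have h3 := card_symmDiff24 S T
  have h5 : (symmDiff S T).card ≠ 0 := by
    rw [Ne, Finset.card_eq_zero]
    intro h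
    exact hne (symmDiff_eq_bot.mp h)
  have h6 : (S ∩ T).card ≤ 8 := by
    calc (S ∩ T).card ≤ S.card := Finset.card_le_card Finset.inter_subset_left
      _ = 8 := hS.1
  omega

theorem octs_card_le {C : Submodule (ZMod 2) (Fin 24 → ZMod 2)}
    (h4 : ∀ w ∈ C, 4 ∣ hammingNorm w) (hn4 : ∀ w ∈ C, hammingNorm w ≠ 4) :
    (octs C).card ≤ 759 := by
  classical
  have hdisj : ((octs C : Finset _) : Set (Finset (Fin 24))).PairwiseDisjoint
      (fun S => S.powersetCard 5) := by
    intro S hS T hT hne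
    rw [Function.onFun, Finset.disjoint_left]
    intro U hU hU'
    rw [Finset.mem_powersetCard] at hU hU'
    have h1 : U ⊆ S ∩ T := Finset.subset_inter hU.1 hU'.1
    have h2 := Finset.card_le_card h1
    have h3 := oct_inter h4 hn4 hS hT hne
    omega
  have h1 := Finset.card_biUnion hdisj
  have h2 : (octs C).biUnion (fun S => S.powersetCard 5)
      ⊆ (univ : Finset (Fin 24)).powersetCard 5 := by
    intro U hU
    rw [Finset.mem_biUnion] at hU
    obtain ⟨S, _, hU⟩ := hU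
    rw [Finset.mem_powersetCard] at hU ⊢
    exact ⟨Finset.subset_univ _, hU.2⟩
  have h3 := Finset.card_le_card h2
  rw [h1, Finset.card_powersetCard] at h3
  have h4' : ∑ u ∈ octs C, (u.powersetCard 5).card = ∑ u ∈ octs C, 56 := by
    apply Finset.sum_congr rfl
    intro S hS
    rw [Finset.card_powersetCard, (mem_octs.mp hS).1]
    decide
  rw [h4', Finset.sum_const, smul_eq_mul] at h3
  simp only [Finset.card_univ, Fintype.card_fin] at h3
  have h5 : Nat.choose 24 5 = 42504 := by decide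
  omega

theorem finrank_le_of_orth (C : Submodule (ZMod 2) (Fin 24 → ZMod 2))
    (horth : ∀ v ∈ C, ∀ w ∈ C, ∑ i, v i * w i = 0) : Module.finrank (ZMod 2) C ≤ 12 := by
  set B : LinearMap.BilinForm (ZMod 2) (Fin 24 → ZMod 2) := Matrix.toBilin' 1 with hB
  have hnd : B.Nondegenerate := by
    rw [hB, Matrix.nondegenerate_toBilin'_iff]
    exact Matrix.nondegenerate_of_det_ne_zero (by simp)
  have h1 := LinearMap.BilinForm.finrank_orthogonal hnd C
  have h2 : C ≤ B.orthogonal C := by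
    intro v hv
    rw [LinearMap.BilinForm.mem_orthogonal_iff]
    intro w hw
    show B w v = 0
    rw [hB, Matrix.toBilin'_apply', Matrix.one_mulVec]
    exact horth w hw v hv
  have h3 := Submodule.finrank_mono h2
  rw [h1] at h3
  simp only [Module.finrank_fin_fun] at h3
  omega

end Cfsg.Agent.Helper26
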