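import Cfsg.Agent.Helper26.ConwayA

/-!
# Conway's characterisation of the rank-24 lattice, part B

Counting the vectors of squared length 32 of a lattice in frame coordinates: the code of
its even vectors has dimension 12 and the lattice has an odd vector.
-/

set_option autoImplicit false

namespace Cfsg.Agent.Helper26

open Finset Cfsg

variable {M : AddSubgroup (Fin 24 → ℤ)}

theorem cast2_eq (a b : ℤ) : ((a : ZMod 2) = (b : ZMod 2)) ↔ (a - b) % 2 = 0 := by
  rw [← cast2_eq_zero, Int.cast_sub, sub_eq_zero]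

theorem cast2_eq_one (a : ℤ) : ((a : ZMod 2) = 1) ↔ a % 2 = 1 := by
  rw [← cast2_ne_zero]
  generalize (a : ZMod 2) = x
  revert x; decide

/-- the support of an integer vector -/
def supp (y : Fin 24 → ℤ) : Finset (Fin 24) := univ.filter (fun i => y i ≠ 0)

/-- the negative positions of an integer vector -/
def negs (y : Fin 24 → ℤ) : Finset (Fin 24) := univ.filter (fun i => y i < 0)

theorem mem_supp {y : Fin 24 → ℤ} {i : Fin 24} : i ∈ supp y ↔ y i ≠ 0 := by simp [supp]

theorem mem_negs {y : Fin 24 → ℤ} {i : Fin 24} : i ∈ negs y ↔ y i < 0 := by simp [negs]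

/-- a vector with entries in `{0, ±c}` is determined by its support and its negative set -/
theorem eq_of_supp_negs {c : ℤ} (hc : 0 < c) {y y' : Fin 24 → ℤ}
    (hy : ∀ i, y i = 0 ∨ y i = c ∨ y i = -c) (hy' : ∀ i, y' i = 0 ∨ y' i = c ∨ y' i = -c)
    (hs : supp y = supp y') (hn : negs y = negs y') : y = y' := by
  ext i
  have h1 : y i ≠ 0 ↔ y' i ≠ 0 := by rw [← mem_supp, ← mem_supp, hs]
  have h2 : y i < 0 ↔ y' i < 0 := by rw [← mem_negs, ← mem_negs, hn]
  have h3 := hy i
  have h4 := hy' i
  omega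

theorem negs_subset_supp (y : Fin 24 → ℤ) : negs y ⊆ supp y := by
  intro i hi
  rw [mem_negs] at hi
  rw [mem_supp]
  omega

theorem sum_mod2 (z : Fin 24 → ℤ) : (∑ i, z i) % 2 = ((oddSet z).card : ℤ) % 2 := by
  have h1 : ((oddSet z).card : ℤ) = ∑ i, (if z i % 2 = 1 then (1:ℤ) else 0) := by
    simp [oddSet]
  have h2 : (2 : ℤ) ∣ ∑ i, (z i - if z i % 2 = 1 then (1:ℤ) else 0) := by
    apply Finset.dvd_sum
    intro i _
    split_ifs with hi <;> omega
  rw [Finset.sum_sub_distrib, ← h1] at h2
  omega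

/-- a family of subsets of `S` with pairwise even symmetric differences is small -/
theorem card_le_of_even_diff (S : Finset (Fin 24)) (hS : S.Nonempty)
    (F : Finset (Finset (Fin 24))) (hsub : ∀ N ∈ F, N ⊆ S)
    (hev : ∀ N ∈ F, ∀ N' ∈ F, (symmDiff N N').card % 2 = 0) :
    F.card ≤ 2 ^ (S.card - 1) := by
  obtain ⟨s, hs⟩ := hS
  have h1 : F.card ≤ ((S.erase s).powerset).card := by
    apply Finset.card_le_card_of_injOn (fun N => N.erase s)
    · intro N hN
      rw [Finset.mem_coe, Finset.mem_powerset]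
      exact Finset.erase_subset_erase s (hsub N hN)
    · intro N hN N' hN' heq
      have heq' : N.erase s = N'.erase s := heq
      have h2 : symmDiff N N' ⊆ {s} := by
        intro x hx
        rw [Finset.mem_singleton]
        by_contra hxs
        have e1 : x ∈ N ↔ x ∈ N.erase s := by rw [Finset.mem_erase]; tauto
        have e2 : x ∈ N' ↔ x ∈ N'.erase s := by rw [Finset.mem_erase]; tauto
        rw [Finset.mem_symmDiff] at hx
        rw [heq'] at e1
        tauto
      have h3 := Finset.card_le_card h2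
      rw [Finset.card_singleton] at h3
      have h4 := hev N hN N' hN'
      have h5 : (symmDiff N N').card = 0 := by omega
      rw [Finset.card_eq_zero] at h5
      exact symmDiff_eq_bot.mp h5
  rw [Finset.card_powerset, Finset.card_erase_of_mem hs] at h1
  exact h1

theorem all_zero_of_sum_le (g : Fin 24 → ℤ) (hg : ∀ i, 0 ≤ g i) (hs : ∑ i, g i ≤ 0) :
    ∀ i, g i = 0 := by
  have h0 : ∑ i, g i = 0 := le_antisymm hs (Finset.sum_nonneg fun i _ => hg i)
  intro i
  exact (Finset.sum_eq_zero_iff_of_nonneg (fun i _ => hg i)).mp h0 i (Finset.mem_univ i)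

theorem shape2 (a : Fin 24 → ℤ) (hsum : ∑ i, a i ^ 2 = 8) (hodd : 8 ≤ (oddSet a).card) :
    (oddSet a).card = 8 ∧ ∀ i, a i = 0 ∨ a i = 1 ∨ a i = -1 := by
  have hg : ∀ i, 0 ≤ a i ^ 2 - (if a i % 2 = 1 then (1:ℤ) else 0) := by
    intro i
    split_ifs with hi
    · have h1 : a i ≠ 0 := by omega
      have h2 : 0 < a i ^ 2 := by positivity
      omega
    · have h2 := sq_nonneg (a i)
      omega
  have hs : ∑ i, (a i ^ 2 - (if a i % 2 = 1 then (1:ℤ) else 0)) = 8 - (oddSet a).card := by
    rw [Finset.sum_sub_distrib, hsum, sum_ite_odd, one_mul]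
  have h0 := all_zero_of_sum_le _ hg (by rw [hs]; omega)
  have hcard : (oddSet a).card = 8 := by
    have h1 := Finset.sum_nonneg (fun i (_ : i ∈ univ) => hg i)
    rw [hs] at h1
    omega
  refine ⟨hcard, fun i => ?_⟩
  have h1 := h0 i
  split_ifs at h1 with hi
  · have h3 : (a i - 1) * (a i + 1) = 0 := by linear_combination h1
    rcases mul_eq_zero.mp h3 with h | h
    · right; left; omega
    · right; right; omega
  · have h2 : a i ^ 2 = 0 := by omega
    left
    exact pow_eq_zero_iff (by norm_num) |>.mp h2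

theorem shape1 (z : Fin 24 → ℤ) (hsum : ∑ i, z i ^ 2 = 2) :
    (supp z).card = 2 ∧ ∀ i, z i = 0 ∨ z i = 1 ∨ z i = -1 := by
  have hz : ∀ i, z i = 0 ∨ z i = 1 ∨ z i = -1 := by
    intro i
    have h1 : z i ^ 2 ≤ ∑ j, z j ^ 2 :=
      Finset.single_le_sum (fun j _ => sq_nonneg (z j)) (Finset.mem_univ i)
    rw [hsum] at h1
    have h2 : z i < 2 := by nlinarith
    have h3 : -2 < z i := by nlinarith
    omega
  refine ⟨?_, hz⟩
  have h1 : ∑ i, z i ^ 2 = ∑ i, (if z i ≠ 0 then (1:ℤ) else 0) := by
    apply Finset.sum_congr rfl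
    intro i _
    rcases hz i with h | h | h <;> rw [h] <;> norm_num
  rw [hsum] at h1
  have h2 : ((supp z).card : ℤ) = ∑ i, (if z i ≠ 0 then (1:ℤ) else 0) := by
    rw [supp, Finset.card_filter]
    push_cast
    rfl
  omega

theorem shape3 (y : Fin 24 → ℤ) (hsum : sqNorm y = 32) (hodd : ∀ i, y i % 2 = 1)
    (i : Fin 24) (hi : 9 ≤ y i ^ 2) :
    (y i = 3 ∨ y i = -3) ∧ ∀ j, j ≠ i → (y j = 1 ∨ y j = -1) := by
  have hg : ∀ j, 0 ≤ y j ^ 2 - 1 := by
    intro j
    have h1 : y j ≠ 0 := by
      have := hodd j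
      omega
    have h2 : 0 < y j ^ 2 := by positivity
    omega
  have hs : ∑ j, (y j ^ 2 - 1) = 8 := by
    rw [Finset.sum_sub_distrib]
    unfold sqNorm at hsum
    rw [hsum]
    simp
  have hle : ∀ j, j ≠ i → y j ^ 2 - 1 + (y i ^ 2 - 1) ≤ 8 := by
    intro j hj
    have hp := Finset.sum_pair (f := fun k => y k ^ 2 - 1) hj
    rw [← hs, ← hp]
    exact Finset.sum_le_sum_of_subset_of_nonneg (Finset.subset_univ _) (fun k _ _ => hg k)
  have hi9 : y i ^ 2 ≤ 9 := by
    have h1 := Finset.single_le_sum (fun j _ => hg j) (Finset.mem_univ i)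
    rw [hs] at h1
    omega
  constructor
  · have h2 : (y i - 3) * (y i + 3) = 0 := by nlinarith
    rcases mul_eq_zero.mp h2 with h | h
    · left; omega
    · right; omega
  · intro j hj
    have h1 := hle j hj
    have h2 := hg j
    have h3 : (y j - 1) * (y j + 1) = 0 := by nlinarith
    rcases mul_eq_zero.mp h3 with h | h
    · left; omega
    · right; omega

theorem FrameLat.finite_min (h : FrameLat M) :
    {y : Fin 24 → ℤ | y ∈ M ∧ sqNorm y = 32}.Finite :=
  Set.finite_of_ncard_ne_zero (by rw [h.cnt]; norm_num)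

theorem card_typeI (W : Finset (Fin 24 → ℤ))
    (hW : ∀ y ∈ W, sqNorm y = 32 ∧ ∀ i, y i % 4 = 0) : W.card ≤ 1104 := by
  classical
  have hshape : ∀ y ∈ W, (supp y).card = 2 ∧ ∀ i, y i = 0 ∨ y i = 4 ∨ y i = -4 := by
    intro y hy
    obtain ⟨h32, h4⟩ := hW y hy
    have h1 : ∑ i, (y i / 4) ^ 2 = 2 := by
      have h2 : sqNorm y = 16 * ∑ i, (y i / 4) ^ 2 := by
        unfold sqNorm
        rw [Finset.mul_sum]
        apply Finset.sum_congr rfl
        intro i _
        have h3 : y i = 4 * (y i / 4) := by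
          have := h4 i
          omega
        generalize y i / 4 = q at h3 ⊢
        rw [h3]; ring
      omega
    obtain ⟨hc, hz⟩ := shape1 _ h1
    refine ⟨?_, fun i => ?_⟩
    · have h5 : supp y = supp (fun i => y i / 4) := by
        ext i
        rw [mem_supp, mem_supp]
        have := h4 i
        constructor <;> intro hh <;> omega
      rw [h5]; exact hc
    · have h6 : y i / 4 = 0 ∨ y i / 4 = 1 ∨ y i / 4 = -1 := hz i
      have h7 := h4 i
      omega
  have h1 : W.card ≤ 4 * (W.image supp).card := by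
    apply Finset.card_le_mul_card_image
    intro T hT
    have hT2 : T.card = 2 := by
      rw [Finset.mem_image] at hT
      obtain ⟨y, hy, rfl⟩ := hT
      exact (hshape y hy).1
    have h2 : (W.filter (fun y => supp y = T)).card ≤ (T.powerset).card := by
      apply Finset.card_le_card_of_injOn negs
      · intro y hy
        rw [Finset.mem_coe, Finset.mem_filter] at hy
        rw [Finset.mem_coe, Finset.mem_powerset, ← hy.2]
        exact negs_subset_supp y
      · intro y hy y' hy' hn
        rw [Finset.mem_coe, Finset.mem_filter] at hy hy'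
        exact eq_of_supp_negs (by norm_num : (0:ℤ) < 4) (hshape y hy.1).2 (hshape y' hy'.1).2
          (hy.2.trans hy'.2.symm) hn
    rw [Finset.card_powerset, hT2] at h2
    exact h2
  have h2 : (W.image supp).card ≤ ((univ : Finset (Fin 24)).powersetCard 2).card := by
    apply Finset.card_le_card
    intro T hT
    rw [Finset.mem_image] at hT
    obtain ⟨y, hy, rfl⟩ := hT
    rw [Finset.mem_powersetCard]
    exact ⟨Finset.subset_univ _, (hshape y hy).1⟩
  rw [Finset.card_powersetCard] at h2
  simp only [Finset.card_univ, Fintype.card_fin] at h2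
  have h3 : Nat.choose 24 2 = 276 := by decide
  omega

theorem FrameLat.card_typeII (h : FrameLat M) (W : Finset (Fin 24 → ℤ))
    (hW : ∀ y ∈ W, y ∈ M ∧ sqNorm y = 32 ∧ (∀ i, y i % 2 = 0) ∧ ∃ i, y i % 4 ≠ 0) :
    W.card ≤ 128 * 759 := by
  classical
  have hshape : ∀ y ∈ W, supp y ∈ octs (evenCode M) ∧ ∀ i, y i = 0 ∨ y i = 2 ∨ y i = -2 := by
    intro y hy
    obtain ⟨hM, h32, h2, i₀, hi₀⟩ := hW y hy
    have hda : dbl (fun i => y i / 2) = y := by
      ext i
      simp only [dbl]
      have := h2 i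
      omega
    have hmem : red2 (fun i => y i / 2) ∈ evenCode M := ⟨_, by rw [hda]; exact hM, rfl⟩
    have h8 : 8 ≤ (oddSet (fun i => y i / 2)).card := by
      have h1 := h.code_dvd4 _ hmem
      have h2' := h.code_ne4 _ hmem
      rw [hamming_red2] at h1 h2'
      have h3 : (oddSet (fun i => y i / 2)).card ≠ 0 := by
        rw [Ne, Finset.card_eq_zero]
        intro he
        have h4 : i₀ ∈ oddSet (fun i => y i / 2) := by
          rw [mem_oddSet]
          have := h2 i₀
          omega
        rw [he] at h4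
        exact absurd h4 (Finset.notMem_empty _)
      omega
    have hsum : ∑ i, (y i / 2) ^ 2 = 8 := by
      have h5 := sqNorm_dbl (fun i => y i / 2)
      rw [hda, h32] at h5
      omega
    obtain ⟨hc, hz⟩ := shape2 _ hsum h8
    have hsupp : supp y = oddSet (fun i => y i / 2) := by
      ext i
      rw [mem_supp, mem_oddSet]
      have h6 : y i / 2 = 0 ∨ y i / 2 = 1 ∨ y i / 2 = -1 := hz i
      have h7 := h2 i
      omega
    refine ⟨?_, fun i => ?_⟩
    · rw [mem_octs, hsupp]
      refine ⟨hc, ?_⟩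
      have h9 : indic (oddSet (fun i => y i / 2)) = red2 (fun i => y i / 2) := by
        ext i
        simp only [indic, red2, mem_oddSet]
        split_ifs with hi
        · exact ((cast2_eq_one _).mpr hi).symm
        · exact ((cast2_eq_zero _).mpr (by omega)).symm
      rw [h9]; exact hmem
    · have h6 : y i / 2 = 0 ∨ y i / 2 = 1 ∨ y i / 2 = -1 := hz i
      have h7 := h2 i
      omega
  have h1 : W.card ≤ 128 * (W.image supp).card := by
    apply Finset.card_le_mul_card_image
    intro S hS
    have hS8 : S.card = 8 := by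
      rw [Finset.mem_image] at hS
      obtain ⟨y, hy, rfl⟩ := hS
      exact (mem_octs.mp (hshape y hy).1).1
    have e1 : (W.filter (fun y => supp y = S)).card
        = ((W.filter (fun y => supp y = S)).image negs).card := by
      symm
      apply Finset.card_image_of_injOn
      intro y hy y' hy' hn
      rw [Finset.mem_coe, Finset.mem_filter] at hy hy'
      exact eq_of_supp_negs (by norm_num : (0:ℤ) < 2) (hshape y hy.1).2 (hshape y' hy'.1).2
        (hy.2.trans hy'.2.symm) hn
    rw [e1]
    have h2 := card_le_of_even_diff S (Finset.card_pos.mp (by omega))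
      ((W.filter (fun y => supp y = S)).image negs) ?_ ?_
    · rw [hS8] at h2; exact h2
    · intro N hN
      rw [Finset.mem_image] at hN
      obtain ⟨y, hy, rfl⟩ := hN
      rw [Finset.mem_filter] at hy
      rw [← hy.2]
      exact negs_subset_supp y
    · intro N hN N' hN'
      rw [Finset.mem_image] at hN hN'
      obtain ⟨y, hy, rfl⟩ := hN
      obtain ⟨y', hy', rfl⟩ := hN'
      rw [Finset.mem_filter] at hy hy'
      have hyM := (hW y hy.1).1
      have hy'M := (hW y' hy'.1).1
      have hsh := (hshape y hy.1).2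
      have hsh' := (hshape y' hy'.1).2
      have hss : ∀ i, y i ≠ 0 ↔ y' i ≠ 0 := by
        intro i
        rw [← mem_supp, ← mem_supp, hy.2, hy'.2]
      have hz4 : (fun i => 4 * ((y i - y' i) / 4)) = y - y' := by
        ext i
        simp only [Pi.sub_apply]
        have := hsh i
        have := hsh' i
        have := hss i
        omega
      have hev := h.even_of_four (fun i => (y i - y' i) / 4)
        (by rw [hz4]; exact M.sub_mem hyM hy'M)
      rw [sum_mod2] at hev
      have h3 : oddSet (fun i => (y i - y' i) / 4) = symmDiff (negs y) (negs y') := by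
        ext i
        rw [mem_oddSet, Finset.mem_symmDiff, mem_negs, mem_negs]
        have := hsh i
        have := hsh' i
        have := hss i
        omega
      rw [← h3]
      omega
  have h2 : (W.image supp).card ≤ (octs (evenCode M)).card := by
    apply Finset.card_le_card
    intro S hS
    rw [Finset.mem_image] at hS
    obtain ⟨y, hy, rfl⟩ := hS
    exact (hshape y hy).1
  have h3 := octs_card_le h.code_dvd4 h.code_ne4
  omega

theorem FrameLat.card_typeIII (h : FrameLat M) (W : Finset (Fin 24 → ℤ))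
    (Cf : Finset (Fin 24 → ZMod 2)) (hCf : ∀ c, c ∈ evenCode M → c ∈ Cf)
    (hW : ∀ y ∈ W, y ∈ M ∧ sqNorm y = 32 ∧ y 0 % 2 = 1)
    (y₀ : Fin 24 → ℤ) (hy₀ : y₀ ∈ M) (hy₀o : y₀ 0 % 2 = 1) :
    W.card ≤ 24 * Cf.card := by
  classical
  have hodd : ∀ y ∈ M, y 0 % 2 = 1 → ∀ i, y i % 2 = 1 := fun y hy h0 i => by
    rw [h.par y hy i 0]; exact h0
  have hcov : W ⊆ (univ : Finset (Fin 24)).biUnion (fun i => W.filter (fun y => 9 ≤ y i ^ 2)) := by
    intro y hy
    obtain ⟨hM, h32, h0⟩ := hW y hy
    have ho := hodd y hM h0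
    rw [Finset.mem_biUnion]
    by_contra hcon
    have h1 : ∀ i, y i ^ 2 = 1 := by
      intro i
      have h9 : y i ^ 2 < 9 := by
        by_contra h9
        exact hcon ⟨i, Finset.mem_univ i, Finset.mem_filter.mpr ⟨hy, not_lt.mp h9⟩⟩
      have h2 : y i < 3 := by nlinarith
      have h3 : -3 < y i := by nlinarith
      have h4 := ho i
      have h5 : y i = 1 ∨ y i = -1 := by omega
      rcases h5 with h5 | h5 <;> rw [h5] <;> norm_num
    have h2 : sqNorm y = 24 := by
      unfold sqNorm
      rw [Finset.sum_congr rfl (fun i _ => h1 i)]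
      simp
    omega
  have h1 : ∀ i, (W.filter (fun y => 9 ≤ y i ^ 2)).card ≤ Cf.card := by
    intro i
    apply Finset.card_le_card_of_injOn (fun y => red2 (fun j => (y j - y₀ j) / 2))
    · intro y hy
      rw [Finset.mem_coe, Finset.mem_filter] at hy
      obtain ⟨hM, h32, h0⟩ := hW y hy.1
      apply hCf
      refine ⟨_, ?_, rfl⟩
      have h2 : dbl (fun j => (y j - y₀ j) / 2) = y - y₀ := by
        ext j
        simp only [dbl, Pi.sub_apply]
        have := hodd y hM h0 j
        have := hodd y₀ hy₀ hy₀o j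
        omega
      rw [h2]; exact M.sub_mem hM hy₀
    · intro y hy y' hy' heq
      rw [Finset.mem_coe, Finset.mem_filter] at hy hy'
      obtain ⟨hM, h32, h0⟩ := hW y hy.1
      obtain ⟨hM', h32', h0'⟩ := hW y' hy'.1
      obtain ⟨s1, s2⟩ := shape3 y h32 (hodd y hM h0) i hy.2
      obtain ⟨s1', s2'⟩ := shape3 y' h32' (hodd y' hM' h0') i hy'.2
      ext j
      have hj : (((y j - y₀ j) / 2 : ℤ) : ZMod 2) = (((y' j - y₀ j) / 2 : ℤ) : ZMod 2) :=
        congrFun heq j
      rw [cast2_eq] at hj
      have := hodd y hM h0 j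
      have := hodd y' hM' h0' j
      have := hodd y₀ hy₀ hy₀o j
      by_cases hji : j = i
      · subst hji; omega
      · have := s2 j hji
        have := s2' j hji
        omega
  calc W.card
      ≤ ((univ : Finset (Fin 24)).biUnion (fun i => W.filter (fun y => 9 ≤ y i ^ 2))).card :=
        Finset.card_le_card hcov
    _ ≤ ∑ i : Fin 24, (W.filter (fun y => 9 ≤ y i ^ 2)).card := Finset.card_biUnion_le
    _ ≤ ∑ _i : Fin 24, Cf.card := Finset.sum_le_sum (fun i _ => h1 i)
    _ = 24 * Cf.card := by simp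

theorem FrameLat.odd_and_card (h : FrameLat M) (Cf : Finset (Fin 24 → ZMod 2))
    (hCf : ∀ c, c ∈ evenCode M → c ∈ Cf) :
    (∃ y₀ ∈ M, y₀ 0 % 2 = 1) ∧ 4096 ≤ Cf.card := by
  classical
  have hY : h.finite_min.toFinset.card = 196560 := by
    rw [← Set.ncard_eq_toFinset_card _ h.finite_min]; exact h.cnt
  have hmem : ∀ y, y ∈ h.finite_min.toFinset ↔ y ∈ M ∧ sqNorm y = 32 := by
    intro y
    rw [Set.Finite.mem_toFinset]
    rfl
  generalize h.finite_min.toFinset = Yf at hY hmem
  have hcov : Yf ⊆ Yf.filter (fun y => ∀ i, y i % 4 = 0)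
      ∪ (Yf.filter (fun y => (∀ i, y i % 2 = 0) ∧ ∃ i, y i % 4 ≠ 0)
        ∪ Yf.filter (fun y => y 0 % 2 = 1)) := by
    intro y hy
    have hM := ((hmem y).mp hy).1
    rw [Finset.mem_union, Finset.mem_union, Finset.mem_filter, Finset.mem_filter,
      Finset.mem_filter]
    by_cases h0 : y 0 % 2 = 1
    · right; right; exact ⟨hy, h0⟩
    · have hev : ∀ i, y i % 2 = 0 := fun i => by
        rw [h.par y hM i 0]; omega
      by_cases h4 : ∀ i, y i % 4 = 0
      · left; exact ⟨hy, h4⟩
      · right; left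
        push Not at h4
        exact ⟨hy, hev, h4⟩
  have c1 : (Yf.filter (fun y => ∀ i, y i % 4 = 0)).card ≤ 1104 :=
    card_typeI _ (fun y hy => by
      rw [Finset.mem_filter] at hy
      exact ⟨((hmem y).mp hy.1).2, hy.2⟩)
  have c2 : (Yf.filter (fun y => (∀ i, y i % 2 = 0) ∧ ∃ i, y i % 4 ≠ 0)).card ≤ 128 * 759 :=
    h.card_typeII _ (fun y hy => by
      rw [Finset.mem_filter] at hy
      exact ⟨((hmem y).mp hy.1).1, ((hmem y).mp hy.1).2, hy.2.1, hy.2.2⟩)
  have c0 := (Finset.card_le_card hcov).trans ((Finset.card_union_le _ _).trans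
    (Nat.add_le_add_left (Finset.card_union_le _ _) _))
  have c3 : 98304 ≤ (Yf.filter (fun y => y 0 % 2 = 1)).card := by omega
  have hne : (Yf.filter (fun y => y 0 % 2 = 1)).Nonempty := Finset.card_pos.mp (by omega)
  obtain ⟨y₀, hy₀⟩ := hne
  rw [Finset.mem_filter] at hy₀
  have hy₀M := ((hmem y₀).mp hy₀.1).1
  refine ⟨⟨y₀, hy₀M, hy₀.2⟩, ?_⟩
  have c4 := h.card_typeIII (Yf.filter (fun y => y 0 % 2 = 1)) Cf hCf (fun y hy => by
    rw [Finset.mem_filter] at hy
    exact ⟨((hmem y).mp hy.1).1, ((hmem y).mp hy.1).2, hy.2⟩) y₀ hy₀M hy₀.2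
  omega

theorem FrameLat.exists_odd (h : FrameLat M) : ∃ y₀ ∈ M, y₀ 0 % 2 = 1 :=
  (h.odd_and_card univ (fun c _ => Finset.mem_univ c)).1

theorem FrameLat.finrank_code (h : FrameLat M) : Module.finrank (ZMod 2) (evenCode M) = 12 := by
  classical
  have h1 := finrank_le_of_orth (evenCode M) h.code_orth
  have h2 := (h.odd_and_card (univ.filter (fun c => c ∈ evenCode M)) (fun c hc => by simp [hc])).2
  have h3 : (univ.filter (fun c => c ∈ evenCode M)).card = Fintype.card (evenCode M) := by
    rw [Fintype.card_subtype]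
  have h4 : Fintype.card (evenCode M) = 2 ^ Module.finrank (ZMod 2) (evenCode M) := by
    rw [Module.card_eq_pow_finrank (K := ZMod 2)]
    simp [ZMod.card]
  rw [h3, h4] at h2
  by_contra hne
  have hlt : Module.finrank (ZMod 2) (evenCode M) ≤ 11 := by omega
  have h5 := Nat.pow_le_pow_right (by norm_num : 1 ≤ 2) hlt
  norm_num at h5
  omega

end Cfsg.Agent.Helper26
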