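import Cfsg.Agent.Helper26.ConwayB
import Cfsg.Agent.S0375
import Cfsg.Agent.Helper92.Leech

/-!
# Conway's characterisation of the rank-24 lattice, part C

A lattice in frame coordinates is, after a permutation of the coordinates and sign changes,
the lattice `Cfsg.leechLattice`.
-/

set_option autoImplicit false

namespace Cfsg.Agent.Helper26

open Finset Cfsg

variable {M : AddSubgroup (Fin 24 → ℤ)}

/-- transport to the 24 points, with signs -/
def transp (e : Fin 24 ≃ GolayPt) (σ : Fin 24 → ℤ) (y : Fin 24 → ℤ) : GolayPt → ℤ :=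
  fun p => σ (e.symm p) * y (e.symm p)

theorem transp_add (e : Fin 24 ≃ GolayPt) (σ y y' : Fin 24 → ℤ) :
    transp e σ (y + y') = transp e σ y + transp e σ y' := by
  ext p; simp [transp, mul_add]

theorem transp_sub (e : Fin 24 ≃ GolayPt) (σ y y' : Fin 24 → ℤ) :
    transp e σ (y - y') = transp e σ y - transp e σ y' := by
  ext p; simp [transp, mul_sub]

theorem transp_apply (e : Fin 24 ≃ GolayPt) (σ y : Fin 24 → ℤ) (i : Fin 24) :
    transp e σ y (e i) = σ i * y i := by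
  simp [transp]

theorem sum_transp (e : Fin 24 ≃ GolayPt) (σ y : Fin 24 → ℤ) :
    ∑ p, transp e σ y p = ∑ i, σ i * y i := by
  unfold transp
  exact Equiv.sum_comp e.symm (fun i => σ i * y i)

theorem sqNorm_transp (e : Fin 24 ≃ GolayPt) (σ : Fin 24 → ℤ) (hσ : ∀ i, σ i = 1 ∨ σ i = -1)
    (y : Fin 24 → ℤ) : sqNorm (transp e σ y) = sqNorm y := by
  unfold sqNorm transp
  rw [Equiv.sum_comp e.symm (fun i => (σ i * y i) ^ 2)]
  apply Finset.sum_congr rfl
  intro i _
  rcases hσ i with hs | hs <;> rw [hs] <;> ring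

theorem FrameLat.sum_sigma (h : FrameLat M) (σ : Fin 24 → ℤ) (hσ : ∀ i, σ i = 1 ∨ σ i = -1)
    (y₀ : Fin 24 → ℤ) (hy₀ : y₀ ∈ M) (hσy : ∀ i, (σ i * y₀ i) % 4 = 1)
    (a : Fin 24 → ℤ) (ha : dbl a ∈ M) : (∑ i, σ i * dbl a i) % 8 = 0 := by
  have h1 := h.dot8 ha hy₀
  have hd : (8 : ℤ) ∣ ∑ i, (σ i * dbl a i - dbl a i * y₀ i) := by
    apply Finset.dvd_sum
    intro i _
    obtain ⟨k, hk⟩ : ∃ k, σ i - y₀ i = 4 * k := by
      refine ⟨(σ i - y₀ i) / 4, ?_⟩
      have h2 := hσy i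
      rcases hσ i with hs | hs <;> rw [hs] at h2 ⊢ <;> omega
    exact ⟨a i * k, by simp only [dbl]; linear_combination (2 * a i) * hk⟩
  rw [Finset.sum_sub_distrib] at hd
  omega

theorem FrameLat.transp_even_mem (h : FrameLat M) (e : Fin 24 ≃ GolayPt)
    (he : ∀ w : GolayPt → ZMod 2, w ∈ golayCode ↔ (fun i => w (e i)) ∈ evenCode M)
    (σ : Fin 24 → ℤ) (hσ : ∀ i, σ i = 1 ∨ σ i = -1)
    (y₀ : Fin 24 → ℤ) (hy₀ : y₀ ∈ M) (hσy : ∀ i, (σ i * y₀ i) % 4 = 1)
    (a : Fin 24 → ℤ) (ha : dbl a ∈ M) : transp e σ (dbl a) ∈ leechLattice := by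
  rw [Cfsg.Agent.Helper92.mem_leechLattice_iff, Cfsg.Agent.Helper92.mem_leechSet_iff]
  refine ⟨0, fun p => ?_, ?_, ?_⟩
  · show (σ (e.symm p) * (2 * a (e.symm p))) % 2 = 0 % 2
    rcases hσ (e.symm p) with hs | hs <;> rw [hs] <;> omega
  · rw [sum_transp]
    show (∑ i, σ i * dbl a i) % 8 = (4 * 0) % 8
    rw [h.sum_sigma σ hσ y₀ hy₀ hσy a ha]
    rfl
  · refine ⟨fun p => ((a (e.symm p) : ℤ) : ZMod 2), ?_, ?_⟩
    · rw [SetLike.mem_coe, he]
      have h1 : (fun i => ((a (e.symm (e i)) : ℤ) : ZMod 2)) = red2 a := by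
        ext i; simp [red2]
      rw [h1]
      exact ⟨a, ha, rfl⟩
    · ext p
      rw [Cfsg.Agent.Helper92.mem_lvl]
      simp only [support₂, Finset.mem_filter, Finset.mem_univ, true_and]
      rw [cast2_ne_zero]
      show a (e.symm p) % 2 = 1 ↔ (σ (e.symm p) * (2 * a (e.symm p))) % 4 = (0 + 2) % 4
      rcases hσ (e.symm p) with hs | hs <;> rw [hs] <;> omega

theorem FrameLat.even_of_transp_mem (h : FrameLat M) (e : Fin 24 ≃ GolayPt)
    (he : ∀ w : GolayPt → ZMod 2, w ∈ golayCode ↔ (fun i => w (e i)) ∈ evenCode M)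
    (σ : Fin 24 → ℤ) (hσ : ∀ i, σ i = 1 ∨ σ i = -1)
    (y₀ : Fin 24 → ℤ) (hy₀ : y₀ ∈ M) (hσy : ∀ i, (σ i * y₀ i) % 4 = 1)
    (y : Fin 24 → ℤ) (hev : ∀ i, y i % 2 = 0) (hmem : transp e σ y ∈ leechLattice) : y ∈ M := by
  rw [Cfsg.Agent.Helper92.mem_leechLattice_iff] at hmem
  obtain ⟨m, hm1, hm2, hm3⟩ := hmem
  have hm : m % 2 = 0 := by
    have h1 : (σ 0 * y 0) % 2 = m % 2 := by
      have h2 := hm1 (e 0)
      rw [transp_apply] at h2
      exact h2
    have h3 := hev 0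
    rcases hσ 0 with hs | hs <;> rw [hs] at h1 <;> omega
  obtain ⟨w, hw, hw2⟩ := hm3 2
  rw [SetLike.mem_coe, he] at hw
  obtain ⟨a', ha', hred⟩ := hw
  have hodd : ∀ i, a' i % 2 = 1 ↔ y i % 4 = 2 := by
    intro i
    have h1 : e i ∈ support₂ w ↔ e i ∈ (Finset.univ.filter fun p => transp e σ y p ≡ 2 [ZMOD 4]) := by
      rw [hw2]
    simp only [support₂, Finset.mem_filter, Finset.mem_univ, true_and] at h1
    rw [transp_apply] at h1
    have h2 : w (e i) = ((a' i : ℤ) : ZMod 2) := (congrFun hred i).symm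
    rw [h2, cast2_ne_zero] at h1
    rw [h1]
    show (σ i * y i) % 4 = 2 % 4 ↔ y i % 4 = 2
    have h3 := hev i
    rcases hσ i with hs | hs <;> rw [hs] <;> omega
  have hz4 : (fun i => 4 * ((y i - 2 * a' i) / 4)) = y - dbl a' := by
    ext i
    simp only [Pi.sub_apply, dbl]
    have h1 := hodd i
    have h2 := hev i
    omega
  have hsum1 : (∑ i, σ i * y i) % 8 = 0 := by
    have h1 : (∑ p, transp e σ y p) % 8 = (4 * m) % 8 := hm2
    rw [sum_transp] at h1
    omega
  have hsum2 := h.sum_sigma σ hσ y₀ hy₀ hσy a' ha'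
  have hsum3 : (∑ i, (y i - 2 * a' i) / 4) % 2 = 0 := by
    have hd : (8 : ℤ) ∣ ∑ i, (σ i * y i - σ i * dbl a' i - 4 * ((y i - 2 * a' i) / 4)) := by
      apply Finset.dvd_sum
      intro i _
      have h1 := hodd i
      have h2 := hev i
      simp only [dbl]
      rcases hσ i with hs | hs <;> rw [hs] <;> omega
    rw [Finset.sum_sub_distrib, Finset.sum_sub_distrib, ← Finset.mul_sum] at hd
    omega
  have h4 := h.four _ hsum3
  rw [hz4] at h4
  have h5 := M.add_mem h4 ha'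
  rwa [sub_add_cancel] at h5

theorem parity_of_transp_mem (e : Fin 24 ≃ GolayPt) (σ : Fin 24 → ℤ)
    (hσ : ∀ i, σ i = 1 ∨ σ i = -1) (y : Fin 24 → ℤ) (hmem : transp e σ y ∈ leechLattice)
    (i j : Fin 24) : y i % 2 = y j % 2 := by
  rw [Cfsg.Agent.Helper92.mem_leechLattice_iff] at hmem
  obtain ⟨m, hm1, -, -⟩ := hmem
  have h1 : (σ i * y i) % 2 = m % 2 := by
    have h2 := hm1 (e i)
    rw [transp_apply] at h2
    exact h2
  have h3 : (σ j * y j) % 2 = m % 2 := by
    have h2 := hm1 (e j)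
    rw [transp_apply] at h2
    exact h2
  rcases hσ i with hs | hs <;> rcases hσ j with ht | ht <;> rw [hs] at h1 <;> rw [ht] at h3 <;> omega

theorem FrameLat.exists_leech (h : FrameLat M) :
    ∃ (e : Fin 24 ≃ GolayPt) (σ : Fin 24 → ℤ), (∀ i, σ i = 1 ∨ σ i = -1) ∧
      ∀ y : Fin 24 → ℤ, y ∈ M ↔ transp e σ y ∈ leechLattice := by
  obtain ⟨e, he⟩ := Cfsg.Agent.S0375.result (evenCode M) h.finrank_code h.code_orth
    h.code_dvd4 h.code_ne4
  obtain ⟨y₀, hy₀, hy₀o⟩ := h.exists_odd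
  have hodd₀ : ∀ i, y₀ i % 2 = 1 := fun i => by
    rw [h.par y₀ hy₀ i 0]; exact hy₀o
  obtain ⟨σ, hσ, hσy⟩ : ∃ σ : Fin 24 → ℤ, (∀ i, σ i = 1 ∨ σ i = -1) ∧
      ∀ i, (σ i * y₀ i) % 4 = 1 := by
    refine ⟨fun i => if y₀ i % 4 = 1 then 1 else -1, fun i => ?_, fun i => ?_⟩
    · show (if y₀ i % 4 = 1 then (1:ℤ) else -1) = 1 ∨ (if y₀ i % 4 = 1 then (1:ℤ) else -1) = -1
      split_ifs
      · left; rfl
      · right; rfl
    · show ((if y₀ i % 4 = 1 then (1:ℤ) else -1) * y₀ i) % 4 = 1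
      have h1 := hodd₀ i
      split_ifs with h2 <;> omega
  have hT0 : transp e σ y₀ ∈ leechLattice := by
    rw [Cfsg.Agent.Helper92.mem_leechLattice_iff, Cfsg.Agent.Helper92.mem_leechSet_iff]
    refine ⟨1, fun p => ?_, ?_, ?_⟩
    · show (σ (e.symm p) * y₀ (e.symm p)) % 2 = 1 % 2
      have h1 := hσy (e.symm p)
      omega
    · rw [sum_transp]
      show (∑ i, σ i * y₀ i) % 8 = (4 * 1) % 8
      have h16 := h.dvd16 _ hy₀
      have hd : (16 : ℤ) ∣ ∑ i, (y₀ i ^ 2 - (2 * (σ i * y₀ i) - 1)) := by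
        apply Finset.dvd_sum
        intro i _
        obtain ⟨k, hk⟩ : ∃ k, σ i * y₀ i = 4 * k + 1 := by
          refine ⟨(σ i * y₀ i) / 4, ?_⟩
          have h1 := hσy i
          omega
        have hsq : y₀ i ^ 2 = (σ i * y₀ i) ^ 2 := by
          rcases hσ i with hs | hs <;> rw [hs] <;> ring
        rw [hsq, hk]
        exact ⟨k ^ 2, by ring⟩
      rw [Finset.sum_sub_distrib, Finset.sum_sub_distrib, ← Finset.mul_sum] at hd
      simp only [Finset.sum_const, Finset.card_univ, Fintype.card_fin, nsmul_eq_mul] at hd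
      unfold sqNorm at h16
      omega
    · have h1 : Cfsg.Agent.Helper92.lvl (transp e σ y₀) 1 = ∅ := by
        ext p
        rw [Cfsg.Agent.Helper92.mem_lvl]
        simp only [Finset.notMem_empty, iff_false]
        show ¬ (σ (e.symm p) * y₀ (e.symm p)) % 4 = (1 + 2) % 4
        have h2 := hσy (e.symm p)
        omega
      rw [h1]
      exact supports_empty
  refine ⟨e, σ, hσ, fun y => ⟨fun hy => ?_, fun hy => ?_⟩⟩
  · by_cases h0 : y 0 % 2 = 0
    · have hev : ∀ i, y i % 2 = 0 := fun i => by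
        rw [h.par y hy i 0]; exact h0
      have h1 : y = dbl (fun i => y i / 2) := by
        ext i
        simp only [dbl]
        have := hev i
        omega
      rw [h1]
      apply h.transp_even_mem e he σ hσ y₀ hy₀ hσy
      rw [← h1]; exact hy
    · have ho : ∀ i, y i % 2 = 1 := fun i => by
        rw [h.par y hy i 0]; omega
      have hd : y - y₀ = dbl (fun i => (y i - y₀ i) / 2) := by
        ext i
        simp only [dbl, Pi.sub_apply]
        have := ho i
        have := hodd₀ i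
        omega
      have h1 : transp e σ (y - y₀) ∈ leechLattice := by
        rw [hd]
        apply h.transp_even_mem e he σ hσ y₀ hy₀ hσy
        rw [← hd]; exact M.sub_mem hy hy₀
      have h2 : transp e σ y = transp e σ (y - y₀) + transp e σ y₀ := by
        rw [← transp_add, sub_add_cancel]
      rw [h2]
      exact leechLattice.add_mem h1 hT0
  · have hpar := parity_of_transp_mem e σ hσ y hy
    by_cases h0 : y 0 % 2 = 0
    · have hev : ∀ i, y i % 2 = 0 := fun i => by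
        rw [hpar i 0]; exact h0
      exact h.even_of_transp_mem e he σ hσ y₀ hy₀ hσy y hev hy
    · have ho : ∀ i, y i % 2 = 1 := fun i => by
        rw [hpar i 0]; omega
      have h1 : transp e σ (y - y₀) ∈ leechLattice := by
        rw [transp_sub]
        exact leechLattice.sub_mem hy hT0
      have h2 := h.even_of_transp_mem e he σ hσ y₀ hy₀ hσy (y - y₀) (fun i => by
        simp only [Pi.sub_apply]
        have := ho i
        have := hodd₀ i
        omega) h1
      have h3 := M.add_mem h2 hy₀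
      rwa [sub_add_cancel] at h3

end Cfsg.Agent.Helper26
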