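import Cfsg.Agent.Helper26.ConwayC

/-!
# Conway's characterisation of the rank-24 lattice, part D

From the numbers of vectors of norms 4, 6, 8 of an even lattice without roots to a frame of
24 pairwise orthogonal vectors of norm 8, all congruent modulo 2.
-/

set_option autoImplicit false

namespace Cfsg.Agent.Helper26

open Finset Cfsg Matrix

/-- the bilinear form of a Gram matrix -/
def bf (B : Matrix (Fin 24) (Fin 24) ℤ) (x y : Fin 24 → ℤ) : ℤ := x ⬝ᵥ (B *ᵥ y)

section bfLemmas

variable (B : Matrix (Fin 24) (Fin 24) ℤ)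

theorem bf_add_left (x x' y : Fin 24 → ℤ) : bf B (x + x') y = bf B x y + bf B x' y := by
  simp [bf, add_dotProduct]

theorem bf_add_right (x y y' : Fin 24 → ℤ) : bf B x (y + y') = bf B x y + bf B x y' := by
  simp [bf, mulVec_add, dotProduct_add]

theorem bf_sub_left (x x' y : Fin 24 → ℤ) : bf B (x - x') y = bf B x y - bf B x' y := by
  simp [bf, sub_dotProduct]

theorem bf_sub_right (x y y' : Fin 24 → ℤ) : bf B x (y - y') = bf B x y - bf B x y' := by
  simp [bf, mulVec_sub, dotProduct_sub]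

theorem bf_neg_left (x y : Fin 24 → ℤ) : bf B (-x) y = -bf B x y := by
  simp [bf, neg_dotProduct]

theorem bf_neg_right (x y : Fin 24 → ℤ) : bf B x (-y) = -bf B x y := by
  simp [bf, mulVec_neg, dotProduct_neg]

theorem bf_smul_left (c : ℤ) (x y : Fin 24 → ℤ) : bf B (c • x) y = c * bf B x y := by
  unfold bf
  rw [smul_dotProduct, smul_eq_mul]

theorem bf_smul_right (c : ℤ) (x y : Fin 24 → ℤ) : bf B x (c • y) = c * bf B x y := by
  unfold bf
  rw [Matrix.mulVec_smul, dotProduct_smul, smul_eq_mul]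

theorem bf_zero_left (y : Fin 24 → ℤ) : bf B 0 y = 0 := by
  simp [bf]

theorem bf_zero_right (x : Fin 24 → ℤ) : bf B x 0 = 0 := by
  simp [bf]

theorem bf_sum_left {ι : Type*} (s : Finset ι) (f : ι → Fin 24 → ℤ) (y : Fin 24 → ℤ) :
    bf B (∑ i ∈ s, f i) y = ∑ i ∈ s, bf B (f i) y := by
  simp [bf, sum_dotProduct]

theorem bf_comm (hsymm : B.IsSymm) (x y : Fin 24 → ℤ) : bf B x y = bf B y x := by
  unfold bf
  rw [Matrix.dotProduct_mulVec, ← Matrix.mulVec_transpose, hsymm.eq, dotProduct_comm]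

end bfLemmas

/-- the hypotheses of the characterisation -/
structure ConwayHyp (B : Matrix (Fin 24) (Fin 24) ℤ) : Prop where
  symm : B.IsSymm
  pos : ∀ x : Fin 24 → ℤ, x ≠ 0 → 0 < x ⬝ᵥ (B *ᵥ x)
  even : ∀ x : Fin 24 → ℤ, (2 : ℤ) ∣ x ⬝ᵥ (B *ᵥ x)
  ne2 : ∀ x : Fin 24 → ℤ, x ⬝ᵥ (B *ᵥ x) ≠ 2
  n4 : {x : Fin 24 → ℤ | x ⬝ᵥ (B *ᵥ x) = 4}.ncard = 196560
  n6 : {x : Fin 24 → ℤ | x ⬝ᵥ (B *ᵥ x) = 6}.ncard = 16773120
  n8 : {x : Fin 24 → ℤ | x ⬝ᵥ (B *ᵥ x) = 8}.ncard = 398034000

variable {B : Matrix (Fin 24) (Fin 24) ℤ}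

theorem ConwayHyp.four_le (H : ConwayHyp B) {x : Fin 24 → ℤ} (hx : x ≠ 0) : 4 ≤ bf B x x := by
  have h1 := H.pos x hx
  have h2 := H.even x
  have h3 := H.ne2 x
  unfold bf
  omega

theorem ConwayHyp.eq_zero (H : ConwayHyp B) {x : Fin 24 → ℤ} (hx : bf B x x = 0) : x = 0 := by
  by_contra hne
  have h1 := H.four_le hne
  omega

theorem bf_self_neg (B : Matrix (Fin 24) (Fin 24) ℤ) (x : Fin 24 → ℤ) :
    bf B (-x) (-x) = bf B x x := by
  rw [bf_neg_left, bf_neg_right, neg_neg]

/-- two short vectors congruent modulo 2 -/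
theorem ConwayHyp.short_cong (H : ConwayHyp B) {x y u : Fin 24 → ℤ}
    (hxy : x - y = (2 : ℤ) • u) (hne : x ≠ y) (hne' : x ≠ -y) :
    16 ≤ bf B x x + bf B y y ∧ (bf B x x = 8 → bf B y y = 8 → bf B x y = 0) := by
  have hu : u ≠ 0 := by
    rintro rfl
    rw [smul_zero, sub_eq_zero] at hxy
    exact hne hxy
  have hx : x = (2 : ℤ) • u + y := by rw [← hxy, sub_add_cancel]
  have hw : x + y = (2 : ℤ) • (u + y) := by
    rw [hx, smul_add, two_smul ℤ y]; abel
  have hw0 : u + y ≠ 0 := by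
    intro h0
    rw [h0, smul_zero] at hw
    exact hne' (eq_neg_of_add_eq_zero_left hw)
  have e1 : bf B (x - y) (x - y) = bf B x x - 2 * bf B x y + bf B y y := by
    rw [bf_sub_left, bf_sub_right, bf_sub_right, bf_comm B H.symm y x]; ring
  have e2 : bf B (x - y) (x - y) = 4 * bf B u u := by
    rw [hxy, bf_smul_left, bf_smul_right]; ring
  have e3 : bf B (x + y) (x + y) = bf B x x + 2 * bf B x y + bf B y y := by
    rw [bf_add_left, bf_add_right, bf_add_right, bf_comm B H.symm y x]; ring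
  have e4 : bf B (x + y) (x + y) = 4 * bf B (u + y) (u + y) := by
    rw [hw, bf_smul_left, bf_smul_right]; ring
  have h1 := H.four_le hu
  have h2 := H.four_le hw0
  constructor
  · omega
  · intro h8 h8'
    omega

theorem red2_eq_iff (x y : Fin 24 → ℤ) : red2 x = red2 y ↔ ∃ u : Fin 24 → ℤ, x - y = (2 : ℤ) • u := by
  constructor
  · intro h
    refine ⟨fun i => (x i - y i) / 2, ?_⟩
    ext i
    have h1 : ((x i : ℤ) : ZMod 2) = ((y i : ℤ) : ZMod 2) := congrFun h i
    rw [cast2_eq] at h1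
    simp only [Pi.sub_apply, Pi.smul_apply, smul_eq_mul]
    omega
  · rintro ⟨u, hu⟩
    ext i
    show ((x i : ℤ) : ZMod 2) = ((y i : ℤ) : ZMod 2)
    rw [cast2_eq]
    have h1 := congrFun hu i
    simp only [Pi.sub_apply, Pi.smul_apply, smul_eq_mul] at h1
    omega

theorem red2_neg (x : Fin 24 → ℤ) : red2 (-x) = red2 x := by
  rw [red2_eq_iff]
  exact ⟨-x, by rw [two_smul]; abel⟩

/-- vectors congruent modulo 2 of norm at most 8 -/
theorem ConwayHyp.cong_cases (H : ConwayHyp B) {x y : Fin 24 → ℤ} (hr : red2 x = red2 y)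
    (hx : bf B x x ≤ 8) (hy : bf B y y ≤ 8) :
    x = y ∨ x = -y ∨ (bf B x x = 8 ∧ bf B y y = 8 ∧ bf B x y = 0) := by
  obtain ⟨u, hu⟩ := (red2_eq_iff x y).mp hr
  by_cases h1 : x = y
  · left; exact h1
  by_cases h2 : x = -y
  · right; left; exact h2
  right; right
  obtain ⟨h3, h4⟩ := H.short_cong hu h1 h2
  have h5 : bf B x x = 8 := by omega
  have h6 : bf B y y = 8 := by omega
  exact ⟨h5, h6, h4 h5 h6⟩

/-- at most two vectors of norm `n < 8` in a class modulo 2 -/
theorem ConwayHyp.fiber_le_two (H : ConwayHyp B) (n : ℤ) (hn : n < 8) (W : Finset (Fin 24 → ℤ))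
    (hW : ∀ x ∈ W, bf B x x = n) (a : Fin 24 → ZMod 2) :
    (W.filter (fun x => red2 x = a)).card ≤ 2 := by
  classical
  by_cases hemp : W.filter (fun x => red2 x = a) = ∅
  · rw [hemp]; simp
  · obtain ⟨x₀, hx₀⟩ := Finset.nonempty_iff_ne_empty.mpr hemp
    rw [Finset.mem_filter] at hx₀
    have hsub : W.filter (fun x => red2 x = a) ⊆ {x₀, -x₀} := by
      intro x hx
      rw [Finset.mem_filter] at hx
      rw [Finset.mem_insert, Finset.mem_singleton]
      have h1 := hW x hx.1
      have h2 := hW x₀ hx₀.1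
      rcases H.cong_cases (hx.2.trans hx₀.2.symm) (by omega) (by omega) with h | h | h
      · left; exact h
      · right; exact h
      · omega
    exact (Finset.card_le_card hsub).trans Finset.card_le_two

/-- pairwise orthogonal nonzero vectors: at most 24 -/
theorem ConwayHyp.card_orth_le (H : ConwayHyp B) (S : Finset (Fin 24 → ℤ))
    (hne : ∀ x ∈ S, x ≠ 0) (horth : ∀ x ∈ S, ∀ y ∈ S, x ≠ y → bf B x y = 0) : S.card ≤ 24 := by
  have hli : LinearIndependent ℤ (fun x : S => (x : Fin 24 → ℤ)) := by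
    rw [linearIndependent_iff']
    intro s g hg x hx
    have h1 : bf B (∑ i ∈ s, g i • (i : Fin 24 → ℤ)) x = 0 := by
      rw [hg]; exact bf_zero_left B _
    rw [bf_sum_left] at h1
    have h2 : ∑ i ∈ s, bf B (g i • (i : Fin 24 → ℤ)) x = g x * bf B x x := by
      rw [Finset.sum_eq_single x]
      · rw [bf_smul_left]
      · intro i _ hi
        rw [bf_smul_left, horth i i.2 x x.2 (fun h => hi (Subtype.ext h)), mul_zero]
      · intro hx'; exact absurd hx hx'
    rw [h2] at h1
    have h3 := H.four_le (hne x x.2)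
    rcases mul_eq_zero.mp h1 with h | h
    · exact h
    · omega
  have h1 := hli.fintype_card_le_finrank
  rw [Fintype.card_coe, Module.finrank_fin_fun] at h1
  exact h1

/-- a set of pairwise orthogonal vectors -/
def IsOrthSet (B : Matrix (Fin 24) (Fin 24) ℤ) (E : Finset (Fin 24 → ℤ)) : Prop :=
  ∀ x ∈ E, ∀ y ∈ E, x ≠ y → bf B x y = 0

/-- a maximal orthogonal subset of a set of vectors pairwise equal, opposite or orthogonal -/
theorem exists_orth_subset (hsymm : B.IsSymm) (F : Finset (Fin 24 → ℤ))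
    (hF : ∀ x ∈ F, ∀ y ∈ F, x = y ∨ x = -y ∨ bf B x y = 0) :
    ∃ E ⊆ F, IsOrthSet B E ∧ F.card ≤ 2 * E.card := by
  classical
  have hne : (F.powerset.filter (fun E => IsOrthSet B E)).Nonempty :=
    ⟨∅, by
      rw [Finset.mem_filter, Finset.mem_powerset]
      exact ⟨Finset.empty_subset _, fun x hx => absurd hx (Finset.notMem_empty x)⟩⟩
  obtain ⟨E, hE, hmax⟩ := Finset.exists_max_image _ Finset.card hne
  rw [Finset.mem_filter, Finset.mem_powerset] at hE
  refine ⟨E, hE.1, hE.2, ?_⟩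
  have hsub : F ⊆ E ∪ E.image Neg.neg := by
    intro x hx
    by_contra hcon
    rw [Finset.mem_union, not_or] at hcon
    obtain ⟨hx1, hx2⟩ := hcon
    have hins : insert x E ∈ F.powerset.filter (fun E => IsOrthSet B E) := by
      rw [Finset.mem_filter, Finset.mem_powerset]
      refine ⟨Finset.insert_subset hx hE.1, ?_⟩
      have key : ∀ b ∈ E, bf B x b = 0 := by
        intro b hb
        rcases hF x hx b (hE.1 hb) with h | h | h
        · rw [h] at hx1; exact absurd hb hx1
        · exfalso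
          apply hx2
          rw [Finset.mem_image]
          exact ⟨b, hb, h.symm⟩
        · exact h
      intro a ha b hb hab
      rw [Finset.mem_insert] at ha hb
      rcases ha with rfl | ha <;> rcases hb with rfl | hb
      · exact absurd rfl hab
      · exact key b hb
      · rw [bf_comm B hsymm]; exact key a ha
      · exact hE.2 a ha b hb hab
    have h1 := hmax _ hins
    rw [Finset.card_insert_of_notMem hx1] at h1
    omega
  calc F.card ≤ (E ∪ E.image Neg.neg).card := Finset.card_le_card hsub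
    _ ≤ E.card + (E.image Neg.neg).card := Finset.card_union_le _ _
    _ ≤ E.card + E.card := Nat.add_le_add_left Finset.card_image_le _
    _ = 2 * E.card := by ring

end Cfsg.Agent.Helper26
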