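import Cfsg.Agent.Helper26.ConwayD

/-!
# Conway's characterisation of the rank-24 lattice, part E

The frame of 24 orthogonal vectors of norm 8, the frame coordinates, and the isometry
with `Cfsg.leechLattice`.
-/

set_option autoImplicit false

namespace Cfsg.Agent.Helper26

open Finset Cfsg Matrix

variable {B : Matrix (Fin 24) (Fin 24) ℤ}

theorem ConwayHyp.fiber8_le (H : ConwayHyp B) (W : Finset (Fin 24 → ℤ))
    (hW : ∀ x ∈ W, bf B x x = 8) (a : Fin 24 → ZMod 2) :
    ∃ E ⊆ W.filter (fun x => red2 x = a), IsOrthSet B E ∧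
      (W.filter (fun x => red2 x = a)).card ≤ 2 * E.card ∧ E.card ≤ 24 := by
  classical
  have hF : ∀ x ∈ W.filter (fun x => red2 x = a), ∀ y ∈ W.filter (fun x => red2 x = a),
      x = y ∨ x = -y ∨ bf B x y = 0 := by
    intro x hx y hy
    rw [Finset.mem_filter] at hx hy
    have h1 := hW x hx.1
    have h2 := hW y hy.1
    rcases H.cong_cases (hx.2.trans hy.2.symm) (by omega) (by omega) with h | h | h
    · left; exact h
    · right; left; exact h
    · right; right; exact h.2.2
  obtain ⟨E, hE, horth, hcard⟩ := exists_orth_subset H.symm _ hF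
  refine ⟨E, hE, horth, hcard, ?_⟩
  apply H.card_orth_le E _ horth
  intro x hx
  have h1 := hW x (Finset.mem_filter.mp (hE hx)).1
  rintro rfl
  rw [bf_zero_left] at h1
  omega

theorem ConwayHyp.exists_frame (H : ConwayHyp B) :
    ∃ E : Finset (Fin 24 → ℤ), E.card = 24 ∧ (∀ x ∈ E, bf B x x = 8) ∧ IsOrthSet B E ∧
      ∀ x ∈ E, ∀ y ∈ E, red2 x = red2 y := by
  classical
  have hf4 : {x : Fin 24 → ℤ | x ⬝ᵥ (B *ᵥ x) = 4}.Finite :=
    Set.finite_of_ncard_ne_zero (by rw [H.n4]; norm_num)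
  have hf6 : {x : Fin 24 → ℤ | x ⬝ᵥ (B *ᵥ x) = 6}.Finite :=
    Set.finite_of_ncard_ne_zero (by rw [H.n6]; norm_num)
  have hf8 : {x : Fin 24 → ℤ | x ⬝ᵥ (B *ᵥ x) = 8}.Finite :=
    Set.finite_of_ncard_ne_zero (by rw [H.n8]; norm_num)
  have c4 : hf4.toFinset.card = 196560 := by
    rw [← Set.ncard_eq_toFinset_card _ hf4]; exact H.n4
  have c6 : hf6.toFinset.card = 16773120 := by
    rw [← Set.ncard_eq_toFinset_card _ hf6]; exact H.n6
  have c8 : hf8.toFinset.card = 398034000 := by
    rw [← Set.ncard_eq_toFinset_card _ hf8]; exact H.n8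
  have m4 : ∀ x, x ∈ hf4.toFinset ↔ bf B x x = 4 := fun x => by
    rw [Set.Finite.mem_toFinset]; rfl
  have m6 : ∀ x, x ∈ hf6.toFinset ↔ bf B x x = 6 := fun x => by
    rw [Set.Finite.mem_toFinset]; rfl
  have m8 : ∀ x, x ∈ hf8.toFinset ↔ bf B x x = 8 := fun x => by
    rw [Set.Finite.mem_toFinset]; rfl
  generalize hf4.toFinset = X4 at c4 m4
  generalize hf6.toFinset = X6 at c6 m6
  generalize hf8.toFinset = X8 at c8 m8
  have i4 : X4.card ≤ 2 * (X4.image red2).card :=
    Finset.card_le_mul_card_image _ _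
      (fun a _ => H.fiber_le_two 4 (by norm_num) X4 (fun x hx => (m4 x).mp hx) a)
  have i6 : X6.card ≤ 2 * (X6.image red2).card :=
    Finset.card_le_mul_card_image _ _
      (fun a _ => H.fiber_le_two 6 (by norm_num) X6 (fun x hx => (m6 x).mp hx) a)
  have key : ∀ x y, red2 x = red2 y → bf B x x ≤ 8 → bf B y y ≤ 8 → bf B x x = bf B y y := by
    intro x y hr hx hy
    rcases H.cong_cases hr hx hy with h | h | h
    · rw [h]
    · rw [h, bf_self_neg]
    · rw [h.1, h.2.1]
  have d46 : Disjoint (X4.image red2) (X6.image red2) := by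
    rw [Finset.disjoint_left]
    intro a ha ha'
    rw [Finset.mem_image] at ha ha'
    obtain ⟨x, hx, rfl⟩ := ha
    obtain ⟨y, hy, hxy⟩ := ha'
    have h1 := (m4 x).mp hx
    have h2 := (m6 y).mp hy
    have h3 := key y x hxy (by omega) (by omega)
    omega
  have d48 : Disjoint (X4.image red2) (X8.image red2) := by
    rw [Finset.disjoint_left]
    intro a ha ha'
    rw [Finset.mem_image] at ha ha'
    obtain ⟨x, hx, rfl⟩ := ha
    obtain ⟨y, hy, hxy⟩ := ha'
    have h1 := (m4 x).mp hx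
    have h2 := (m8 y).mp hy
    have h3 := key y x hxy (by omega) (by omega)
    omega
  have d68 : Disjoint (X6.image red2) (X8.image red2) := by
    rw [Finset.disjoint_left]
    intro a ha ha'
    rw [Finset.mem_image] at ha ha'
    obtain ⟨x, hx, rfl⟩ := ha
    obtain ⟨y, hy, hxy⟩ := ha'
    have h1 := (m6 x).mp hx
    have h2 := (m8 y).mp hy
    have h3 := key y x hxy (by omega) (by omega)
    omega
  have hz : ∀ x, red2 x = 0 → bf B x x ≤ 8 → bf B x x = 0 := by
    intro x hx0 hx8
    have h0 : red2 x = red2 0 := by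
      rw [hx0]; ext i; simp [red2]
    have h1 := key x 0 h0 hx8 (by rw [bf_zero_left]; norm_num)
    rw [bf_zero_left] at h1
    exact h1
  have z4 : (0 : Fin 24 → ZMod 2) ∉ X4.image red2 := by
    intro ha
    rw [Finset.mem_image] at ha
    obtain ⟨x, hx, hx0⟩ := ha
    have h1 := (m4 x).mp hx
    have h2 := hz x hx0 (by omega)
    omega
  have z6 : (0 : Fin 24 → ZMod 2) ∉ X6.image red2 := by
    intro ha
    rw [Finset.mem_image] at ha
    obtain ⟨x, hx, hx0⟩ := ha
    have h1 := (m6 x).mp hx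
    have h2 := hz x hx0 (by omega)
    omega
  have z8 : (0 : Fin 24 → ZMod 2) ∉ X8.image red2 := by
    intro ha
    rw [Finset.mem_image] at ha
    obtain ⟨x, hx, hx0⟩ := ha
    have h1 := (m8 x).mp hx
    have h2 := hz x hx0 (by omega)
    omega
  have htot : (insert (0 : Fin 24 → ZMod 2)
      (X4.image red2 ∪ (X6.image red2 ∪ X8.image red2))).card ≤ 2 ^ 24 := by
    have h1 := Finset.card_le_univ (insert (0 : Fin 24 → ZMod 2)
      (X4.image red2 ∪ (X6.image red2 ∪ X8.image red2)))
    have hc : Fintype.card (Fin 24 → ZMod 2) = 2 ^ 24 := by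
      simp [ZMod.card]
    rw [hc] at h1
    exact h1
  have hnot : (0 : Fin 24 → ZMod 2) ∉ X4.image red2 ∪ (X6.image red2 ∪ X8.image red2) := by
    rw [Finset.mem_union, Finset.mem_union]
    tauto
  rw [Finset.card_insert_of_notMem hnot,
    Finset.card_union_of_disjoint (by rw [Finset.disjoint_union_right]; exact ⟨d46, d48⟩),
    Finset.card_union_of_disjoint d68] at htot
  have hbig : ∃ a, 48 ≤ (X8.filter (fun x => red2 x = a)).card := by
    by_contra hcon
    push Not at hcon
    have i8 : X8.card ≤ 47 * (X8.image red2).card :=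
      Finset.card_le_mul_card_image _ _ (fun a _ => by
        have := hcon a
        omega)
    norm_num at htot
    omega
  obtain ⟨a, ha⟩ := hbig
  obtain ⟨E, hE, horth, hcard, h24⟩ := H.fiber8_le X8 (fun x hx => (m8 x).mp hx) a
  refine ⟨E, by omega, fun x hx => (m8 x).mp (Finset.mem_filter.mp (hE hx)).1, horth,
    fun x hx y hy => ?_⟩
  exact (Finset.mem_filter.mp (hE hx)).2.trans (Finset.mem_filter.mp (hE hy)).2.symm

theorem ConwayHyp.exists_basis (H : ConwayHyp B) :
    ∃ ev : Fin 24 → (Fin 24 → ℤ), (∀ i, bf B (ev i) (ev i) = 8) ∧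
      (∀ i j, i ≠ j → bf B (ev i) (ev j) = 0) ∧ ∀ i j, red2 (ev i) = red2 (ev j) := by
  obtain ⟨E, hc, h8, horth, hr⟩ := H.exists_frame
  refine ⟨fun i => (((E.equivFinOfCardEq hc).symm i : E) : Fin 24 → ℤ),
    fun i => h8 _ ((E.equivFinOfCardEq hc).symm i).2, fun i j hij => ?_,
    fun i j => hr _ ((E.equivFinOfCardEq hc).symm i).2 _ ((E.equivFinOfCardEq hc).symm j).2⟩
  apply horth _ ((E.equivFinOfCardEq hc).symm i).2 _ ((E.equivFinOfCardEq hc).symm j).2
  intro h
  exact hij ((E.equivFinOfCardEq hc).symm.injective (Subtype.ext h))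

/-- frame coordinates -/
def frameCoord (B : Matrix (Fin 24) (Fin 24) ℤ) (ev : Fin 24 → (Fin 24 → ℤ))
    (x : Fin 24 → ℤ) : Fin 24 → ℤ := fun i => bf B x (ev i)

/-- frame coordinates as an additive map -/
def frameHom (B : Matrix (Fin 24) (Fin 24) ℤ) (ev : Fin 24 → (Fin 24 → ℤ)) :
    (Fin 24 → ℤ) →+ (Fin 24 → ℤ) :=
  AddMonoidHom.mk' (frameCoord B ev) (fun x y => by
    ext i
    simp [frameCoord, bf_add_left])

theorem bf_sum_ev (ev : Fin 24 → (Fin 24 → ℤ)) (h8 : ∀ i, bf B (ev i) (ev i) = 8)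
    (horth : ∀ i j, i ≠ j → bf B (ev i) (ev j) = 0) (c : Fin 24 → ℤ) (j : Fin 24) :
    bf B (∑ i, c i • ev i) (ev j) = 8 * c j := by
  rw [bf_sum_left, Finset.sum_eq_single j]
  · rw [bf_smul_left, h8 j]; ring
  · intro i _ hi
    rw [bf_smul_left, horth i j hi, mul_zero]
  · intro h; exact absurd (Finset.mem_univ j) h

theorem ConwayHyp.parseval_vec (H : ConwayHyp B) (ev : Fin 24 → (Fin 24 → ℤ))
    (h8 : ∀ i, bf B (ev i) (ev i) = 8) (horth : ∀ i j, i ≠ j → bf B (ev i) (ev j) = 0)
    (x : Fin 24 → ℤ) : (8 : ℤ) • x = ∑ i, bf B x (ev i) • ev i := by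
  classical
  by_contra hne
  have hz0 : (8 : ℤ) • x - ∑ i, bf B x (ev i) • ev i ≠ 0 := fun h => hne (sub_eq_zero.mp h)
  have hzj : ∀ j, bf B ((8 : ℤ) • x - ∑ i, bf B x (ev i) • ev i) (ev j) = 0 := by
    intro j
    rw [bf_sub_left, bf_smul_left, bf_sum_ev ev h8 horth]; ring
  generalize (8 : ℤ) • x - ∑ i, bf B x (ev i) • ev i = z at hz0 hzj
  have hinj : Function.Injective ev := by
    intro i j hij
    by_contra hne'
    have h1 := horth i j hne'
    rw [← hij, h8 i] at h1
    omega
  have hnot : z ∉ Finset.univ.image ev := by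
    intro hm
    rw [Finset.mem_image] at hm
    obtain ⟨j, _, hj⟩ := hm
    have h1 := hzj j
    rw [← hj, h8 j] at h1
    omega
  have hcard : (insert z (Finset.univ.image ev)).card = 25 := by
    rw [Finset.card_insert_of_notMem hnot, Finset.card_image_of_injective _ hinj]
    simp
  have hle := H.card_orth_le (insert z (Finset.univ.image ev)) ?_ ?_
  · omega
  · intro y hy
    rw [Finset.mem_insert, Finset.mem_image] at hy
    rcases hy with rfl | ⟨j, _, rfl⟩
    · exact hz0
    · intro h0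
      have h1 := h8 j
      rw [h0, bf_zero_left] at h1
      omega
  · intro a ha b hb hab
    rw [Finset.mem_insert, Finset.mem_image] at ha hb
    rcases ha with rfl | ⟨i, _, rfl⟩ <;> rcases hb with rfl | ⟨j, _, rfl⟩
    · exact absurd rfl hab
    · exact hzj j
    · rw [bf_comm B H.symm]; exact hzj i
    · exact horth i j (fun h => hab (by rw [h]))

theorem ConwayHyp.sqNorm_frameCoord (H : ConwayHyp B) (ev : Fin 24 → (Fin 24 → ℤ))
    (h8 : ∀ i, bf B (ev i) (ev i) = 8) (horth : ∀ i j, i ≠ j → bf B (ev i) (ev j) = 0)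
    (x : Fin 24 → ℤ) : sqNorm (frameCoord B ev x) = 8 * bf B x x := by
  have h1 := H.parseval_vec ev h8 horth x
  have h2 : bf B ((8:ℤ) • x) x = 8 * bf B x x := bf_smul_left B 8 x x
  rw [h1, bf_sum_left] at h2
  rw [← h2]
  unfold sqNorm frameCoord
  apply Finset.sum_congr rfl
  intro i _
  rw [bf_smul_left, bf_comm B H.symm (ev i) x]; ring

theorem ConwayHyp.frameCoord_injective (H : ConwayHyp B) (ev : Fin 24 → (Fin 24 → ℤ))
    (h8 : ∀ i, bf B (ev i) (ev i) = 8) (horth : ∀ i j, i ≠ j → bf B (ev i) (ev j) = 0) :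
    Function.Injective (frameCoord B ev) := by
  intro x y hxy
  have h1 : frameCoord B ev (x - y) = 0 := by
    ext i
    have h2 := congrFun hxy i
    simp only [frameCoord] at h2
    simp only [frameCoord, bf_sub_left, Pi.zero_apply]
    omega
  have h2 := H.sqNorm_frameCoord ev h8 horth (x - y)
  rw [h1] at h2
  have h3 : sqNorm (0 : Fin 24 → ℤ) = 0 := by simp [sqNorm]
  rw [h3] at h2
  have h4 := H.eq_zero (x := x - y) (by omega)
  exact sub_eq_zero.mp h4

theorem ConwayHyp.frameLat (H : ConwayHyp B) (ev : Fin 24 → (Fin 24 → ℤ))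
    (h8 : ∀ i, bf B (ev i) (ev i) = 8) (horth : ∀ i j, i ≠ j → bf B (ev i) (ev j) = 0)
    (hr : ∀ i j, red2 (ev i) = red2 (ev j)) : FrameLat (frameHom B ev).range where
  four := by
    intro z hz
    have hv : ∀ k, (∑ i, z i • ev i) k % 2 = 0 := by
      intro k
      rw [Finset.sum_apply]
      simp only [Pi.smul_apply, smul_eq_mul]
      have hd : (2 : ℤ) ∣ ∑ i, (z i * ev i k - z i * ev 0 k) := by
        apply Finset.dvd_sum
        intro i _
        have h1 : ((ev i k : ℤ) : ZMod 2) = ((ev 0 k : ℤ) : ZMod 2) := congrFun (hr i 0) k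
        rw [cast2_eq] at h1
        obtain ⟨t, ht⟩ : ∃ t, ev i k - ev 0 k = 2 * t := ⟨(ev i k - ev 0 k) / 2, by omega⟩
        exact ⟨z i * t, by linear_combination z i * ht⟩
      rw [Finset.sum_sub_distrib, ← Finset.sum_mul] at hd
      obtain ⟨s, hs⟩ : ∃ s, ∑ i, z i = 2 * s := ⟨(∑ i, z i) / 2, by omega⟩
      rw [hs] at hd
      have h2 : (2:ℤ) ∣ 2 * s * ev 0 k := ⟨s * ev 0 k, by ring⟩
      have h3 := dvd_add hd h2
      rw [sub_add_cancel] at h3
      exact Int.emod_eq_zero_of_dvd h3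
    refine ⟨fun k => (∑ i, z i • ev i) k / 2, ?_⟩
    have hu : (2 : ℤ) • (fun k => (∑ i, z i • ev i) k / 2) = ∑ i, z i • ev i := by
      ext k
      simp only [Pi.smul_apply, smul_eq_mul]
      have := hv k
      omega
    ext j
    show bf B (fun k => (∑ i, z i • ev i) k / 2) (ev j) = 4 * z j
    have h1 := bf_sum_ev ev h8 horth z j
    rw [← hu, bf_smul_left] at h1
    omega
  par := by
    rintro _ ⟨x, rfl⟩ i j
    show bf B x (ev i) % 2 = bf B x (ev j) % 2
    obtain ⟨u, hu⟩ := (red2_eq_iff _ _).mp (hr i j)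
    have h1 : bf B x (ev i) - bf B x (ev j) = 2 * bf B x u := by
      rw [← bf_sub_right, hu, bf_smul_right]
    omega
  dvd16 := by
    rintro _ ⟨x, rfl⟩
    show sqNorm (frameCoord B ev x) % 16 = 0
    rw [H.sqNorm_frameCoord ev h8 horth]
    have h1 := H.even x
    unfold bf
    omega
  ne16 := by
    rintro _ ⟨x, rfl⟩
    show sqNorm (frameCoord B ev x) ≠ 16
    rw [H.sqNorm_frameCoord ev h8 horth]
    have h1 := H.ne2 x
    unfold bf
    omega
  cnt := by
    have h1 : {y : Fin 24 → ℤ | y ∈ (frameHom B ev).range ∧ sqNorm y = 32}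
        = frameCoord B ev '' {x | x ⬝ᵥ (B *ᵥ x) = 4} := by
      ext y
      constructor
      · rintro ⟨⟨x, rfl⟩, h32⟩
        refine ⟨x, ?_, rfl⟩
        have h1 : sqNorm (frameCoord B ev x) = 32 := h32
        rw [H.sqNorm_frameCoord ev h8 horth] at h1
        show bf B x x = 4
        omega
      · rintro ⟨x, hx, rfl⟩
        refine ⟨⟨x, rfl⟩, ?_⟩
        show sqNorm (frameCoord B ev x) = 32
        rw [H.sqNorm_frameCoord ev h8 horth]
        have h2 : bf B x x = 4 := hx
        omega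
    rw [h1, Set.ncard_image_of_injective _ (H.frameCoord_injective ev h8 horth)]
    exact H.n4

/-- Conway's characterisation -/
theorem ConwayHyp.char (H : ConwayHyp B) : ∃ f : (Fin 24 → ℤ) ≃+ leechLattice,
    ∀ x : Fin 24 → ℤ, sqNorm ((f x : leechLattice) : GolayPt → ℤ) = 8 * (x ⬝ᵥ (B *ᵥ x)) := by
  obtain ⟨ev, h8, horth, hr⟩ := H.exists_basis
  have hFL := H.frameLat ev h8 horth hr
  obtain ⟨e, σ, hσ, hiff⟩ := hFL.exists_leech
  have hmem : ∀ x, transp e σ (frameCoord B ev x) ∈ leechLattice :=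
    fun x => (hiff _).mp ⟨x, rfl⟩
  have hadd : ∀ x y : Fin 24 → ℤ,
      (⟨transp e σ (frameCoord B ev (x + y)), hmem (x + y)⟩ : leechLattice)
        = ⟨transp e σ (frameCoord B ev x), hmem x⟩ + ⟨transp e σ (frameCoord B ev y), hmem y⟩ := by
    intro x y
    apply Subtype.ext
    show transp e σ (frameCoord B ev (x + y))
      = transp e σ (frameCoord B ev x) + transp e σ (frameCoord B ev y)
    rw [← transp_add]
    congr 1
    ext i
    simp [frameCoord, bf_add_left]
  have hbij : Function.Bijective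
      (AddMonoidHom.mk' (fun x => (⟨transp e σ (frameCoord B ev x), hmem x⟩ : leechLattice)) hadd) := by
    constructor
    · intro x y hxy
      have h1 : transp e σ (frameCoord B ev x) = transp e σ (frameCoord B ev y) :=
        congrArg Subtype.val hxy
      apply H.frameCoord_injective ev h8 horth
      ext i
      have h2 := congrFun h1 (e i)
      rw [transp_apply, transp_apply] at h2
      rcases hσ i with hs | hs <;> rw [hs] at h2 <;> omega
    · intro v
      have h1 : transp e σ (fun i => σ i * (v : GolayPt → ℤ) (e i)) = (v : GolayPt → ℤ) := by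
        ext p
        simp only [transp, Equiv.apply_symm_apply]
        rcases hσ (e.symm p) with hs | hs <;> rw [hs] <;> ring
      have h2 : (fun i => σ i * (v : GolayPt → ℤ) (e i)) ∈ (frameHom B ev).range := by
        rw [hiff, h1]; exact v.2
      obtain ⟨x, hx⟩ := h2
      refine ⟨x, Subtype.ext ?_⟩
      show transp e σ (frameCoord B ev x) = v
      have h3 : frameCoord B ev x = fun i => σ i * (v : GolayPt → ℤ) (e i) := hx
      rw [h3, h1]
  refine ⟨AddEquiv.ofBijective _ hbij, fun x => ?_⟩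
  show sqNorm (transp e σ (frameCoord B ev x)) = _
  rw [sqNorm_transp e σ hσ, H.sqNorm_frameCoord ev h8 horth]
  rfl

end Cfsg.Agent.Helper26
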