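import Cfsg.Agent.Helper26.MonoCert1
import Cfsg.Agent.Helper26.MonoCert2

/-!
# Class sizes for the monomial passes

Kernel evaluation of `cntAll` (`Co0Count`) for the class functions of the monomial descent passes.
-/

set_option autoImplicit false

namespace Cfsg.Agent.Helper26

set_option maxRecDepth 100000 in
theorem cnt_N11 : cntAll (fun n => Nat.beq (clsN1 n) 1) = 1104 := by decide +kernel

set_option maxRecDepth 100000 in
theorem cnt_N12 : cntAll (fun n => Nat.beq (clsN1 n) 2) = 98304 := by decide +kernel

set_option maxRecDepth 100000 in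
theorem cnt_N13 : cntAll (fun n => Nat.beq (clsN1 n) 3) = 97152 := by decide +kernel

set_option maxRecDepth 100000 in
theorem cnt_N21 : cntAll (fun n => Nat.beq (clsN2 n) 1) = 2 := by decide +kernel

set_option maxRecDepth 100000 in
theorem cnt_N22 : cntAll (fun n => Nat.beq (clsN2 n) 2) = 924 := by decide +kernel

set_option maxRecDepth 100000 in
theorem cnt_N23 : cntAll (fun n => Nat.beq (clsN2 n) 3) = 4928 := by decide +kernel

set_option maxRecDepth 100000 in
theorem cnt_N24 : cntAll (fun n => Nat.beq (clsN2 n) 4) = 42240 := by decide +kernel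

set_option maxRecDepth 100000 in
theorem cnt_N25 : cntAll (fun n => Nat.beq (clsN2 n) 5) = 45056 := by decide +kernel

end Cfsg.Agent.Helper26
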