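import Cfsg.Agent.Helper26.Co0Cls
import Cfsg.Agent.Helper26.MonoCount

/-!
# The stabiliser of the standard cross is a maximal subgroup of `Co0`

`N = Helper92.monoSub` is the stabiliser of the standard cross (the monomial group `2^12 : M24`),
`U = Spor.leechU = (4, 4, 0^22)`, `U' = Spor.leechU' = (4, -4, 0^22)`.

* `n1_trans`: `N` is transitive on each of the three shapes of minimal vectors (`1104`, `98304`
  and `97152` vectors).
* `n2_trans`: the stabiliser of `U` in `N` is transitive on each of five classes of minimal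
  vectors orthogonal to `U` (`2`, `924`, `4928`, `42240`, `45056` vectors).
* `mono_of_preserve`: an automorphism preserving the set of minimal vectors of shape
  `(±4, ±4, 0^22)` lies in `N`.
* `cross_max`: `N` is a maximal subgroup.  A subgroup `K > N` is transitive on the minimal
  vectors (the size of the orbit of `U` divides the order of `Co0`), then the stabiliser of `U`
  in `K` is transitive on the minimal vectors orthogonal to `U` (an index computation modulo
  `46`), and an automorphism fixing `U` and `U'` lies in `N`.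
-/

set_option autoImplicit false

namespace Cfsg.Agent.Helper26

open Cfsg

/-! ### The monomial group on the minimal vectors -/

theorem clsN1_smul (g : Co0) (hg : g ∈ Helper92.monoSub) (w : leechLattice)
    (hw : sqNorm (w : GolayPt → ℤ) = 32) :
    clsN1 (pk ((g • w : leechLattice) : GolayPt → ℤ)) = clsN1 (pk (w : GolayPt → ℤ)) :=
  shpN_smul g hg w (by rw [hw]; norm_num)

theorem clsN1_spec (w : GolayPt → ℤ) (hn : sqNorm w = 32) : clsN1 (pk w) = shp w :=
  shpN_pk (short32 hn)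

/-- the monomial group is transitive on the minimal vectors of a given shape. -/
theorem n1_trans (c : ℕ) (w w' : leechLattice) (hw : sqNorm (w : GolayPt → ℤ) = 32)
    (hw' : sqNorm (w' : GolayPt → ℤ) = 32) (hc : clsN1 (pk (w : GolayPt → ℤ)) = c + 1)
    (hc' : clsN1 (pk (w' : GolayPt → ℤ)) = c + 1) :
    ∃ g ∈ Helper92.monoSub, g • w = w' :=
  stab_transM tabN1 Helper92.monoSub (tabMono_spec tabN1 tabN1_mono) clsN1 tgtsN1 ⟨cN1A, dN1A⟩
    (hB_of_seg _ cN1B dN1B cN1B_cover) (hC_of_seg _ cN1C dN1C cN1C_length) c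
    (fun w => sqNorm (w : GolayPt → ℤ) = 32 ∧ clsN1 (pk (w : GolayPt → ℤ)) = c + 1)
    (fun g hg w h => ⟨by rw [co0_norm]; exact h.1, by rw [clsN1_smul g hg w h.1]; exact h.2⟩)
    (fun w h => h.1) (fun w h => h.2) w w' ⟨hw, hc⟩ ⟨hw', hc'⟩

theorem clsN1_U : clsN1 (pk (Spor.leechU : GolayPt → ℤ)) = 1 := by
  rw [pk_leechU]; decide +kernel

theorem clsN1_cases (w : GolayPt → ℤ) (hn : sqNorm w = 32) :
    clsN1 (pk w) = 1 ∨ clsN1 (pk w) = 2 ∨ clsN1 (pk w) = 3 := by
  rw [clsN1_spec w hn]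
  exact shp_cases w

theorem shp_P {i j : GolayPt} (_hij : i ≠ j) :
    shp ((Helper92.P i j : leechLattice) : GolayPt → ℤ) = 1 := by
  apply shp_one_of
  intro p
  rw [Helper92.P_apply]
  split_ifs <;> norm_num

theorem shp_Pm {i j : GolayPt} (_hij : i ≠ j) :
    shp ((Helper92.P i j - Helper92.P j j : leechLattice) : GolayPt → ℤ) = 1 := by
  apply shp_one_of
  intro p
  show (4 : ℤ) ∣ ((Helper92.P i j : leechLattice) : GolayPt → ℤ) p -
    ((Helper92.P j j : leechLattice) : GolayPt → ℤ) p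
  rw [Helper92.P_apply, Helper92.P_apply]
  split_ifs <;> norm_num

/-- an automorphism whose inverse preserves the minimal vectors of shape `(±4, ±4, 0^22)`
stabilises the standard cross. -/
theorem mono_of_preserve (g : Co0)
    (h : ∀ w : leechLattice, sqNorm (w : GolayPt → ℤ) = 32 →
      clsN1 (pk (w : GolayPt → ℤ)) = 1 →
      clsN1 (pk ((g⁻¹ • w : leechLattice) : GolayPt → ℤ)) = 1) : g ∈ Helper92.monoSub := by
  have hxn : sqNorm ((g • Helper92.U4 : leechLattice) : GolayPt → ℤ) = 64 := by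
    rw [co0_norm]; exact Helper92.sqNorm_U4
  have key : ∀ y : leechLattice, sqNorm (y : GolayPt → ℤ) = 32 →
      shp (y : GolayPt → ℤ) = 1 →
      (32 : ℤ) ∣ dotInt ((g • Helper92.U4 : leechLattice) : GolayPt → ℤ) (y : GolayPt → ℤ) := by
    intro y hy hc
    have h2 : sqNorm ((g⁻¹ • y : leechLattice) : GolayPt → ℤ) = 32 := by
      rw [co0_norm]; exact hy
    have h1 := h y hy (by rw [clsN1_spec _ hy]; exact hc)
    rw [clsN1_spec _ h2] at h1
    obtain ⟨k, hk⟩ := shp_one h1 none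
    have h4 : dotInt ((g • Helper92.U4 : leechLattice) : GolayPt → ℤ) (y : GolayPt → ℤ) =
        dotInt ((Helper92.U4 : leechLattice) : GolayPt → ℤ)
          ((g⁻¹ • y : leechLattice) : GolayPt → ℤ) := by
      rw [← co0_dot g Helper92.U4 (g⁻¹ • y), smul_inv_smul]
    rw [h4, show ((Helper92.U4 : leechLattice) : GolayPt → ℤ) = Pi.single none 8 from
      Helper92.P_diag_val none, Helper92.dotInt_single_left, hk]
    exact ⟨k, by ring⟩
  have hP : ∀ i j : GolayPt, i ≠ j →
      (8 : ℤ) ∣ ((g • Helper92.U4 : leechLattice) : GolayPt → ℤ) i +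
        ((g • Helper92.U4 : leechLattice) : GolayPt → ℤ) j ∧
      (8 : ℤ) ∣ ((g • Helper92.U4 : leechLattice) : GolayPt → ℤ) i -
        ((g • Helper92.U4 : leechLattice) : GolayPt → ℤ) j := by
    intro i j hij
    have a := key (Helper92.P i j) (Helper92.sqNorm_P_of_ne hij) (shp_P hij)
    have b := key (Helper92.P i j - Helper92.P j j) (Helper92.sqNorm_Pm_of_ne hij) (shp_Pm hij)
    rw [Helper92.dotInt_comm, Helper92.dotInt_P_left] at a
    have e : dotInt ((g • Helper92.U4 : leechLattice) : GolayPt → ℤ)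
        ((Helper92.P i j - Helper92.P j j : leechLattice) : GolayPt → ℤ) =
        4 * ((g • Helper92.U4 : leechLattice) : GolayPt → ℤ) i -
          4 * ((g • Helper92.U4 : leechLattice) : GolayPt → ℤ) j := by
      rw [Helper92.dotInt_comm]
      show dotInt (((Helper92.P i j : leechLattice) : GolayPt → ℤ) -
        ((Helper92.P j j : leechLattice) : GolayPt → ℤ)) _ = _
      rw [Helper92.dotInt_sub_left', Helper92.dotInt_P_left, Helper92.dotInt_P_left]
      ring
    rw [e] at b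
    constructor <;> omega
  have h8 : ∀ i, ((g • Helper92.U4 : leechLattice) : GolayPt → ℤ) i % 8 = 0 := by
    by_contra hcon
    push Not at hcon
    obtain ⟨i, hi⟩ := hcon
    have hall : ∀ j, (16 : ℤ) ≤ ((g • Helper92.U4 : leechLattice) : GolayPt → ℤ) j ^ 2 := by
      intro j
      obtain ⟨k, hk1, -⟩ := Helper92.exists_third i i
      have h1 := hP i k (Ne.symm hk1)
      have hj4 : ((g • Helper92.U4 : leechLattice) : GolayPt → ℤ) j % 8 = 4 := by
        by_cases hj : j = i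
        · subst hj
          omega
        · have h2 := hP i j (Ne.symm hj)
          omega
      obtain ⟨q, hq⟩ : ∃ q : ℤ, ((g • Helper92.U4 : leechLattice) : GolayPt → ℤ) j = 8 * q + 4 :=
        ⟨((g • Helper92.U4 : leechLattice) : GolayPt → ℤ) j / 8, by omega⟩
      rw [hq]
      rcases le_or_gt 0 q with hq0 | hq0 <;> nlinarith
    have hsum : (∑ _p : GolayPt, (16 : ℤ)) ≤
        ∑ p, ((g • Helper92.U4 : leechLattice) : GolayPt → ℤ) p ^ 2 :=
      Finset.sum_le_sum (fun p _ => hall p)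
    rw [Finset.sum_const, Finset.card_univ, card_golayPt] at hsum
    have : sqNorm ((g • Helper92.U4 : leechLattice) : GolayPt → ℤ) =
        ∑ p, ((g • Helper92.U4 : leechLattice) : GolayPt → ℤ) p ^ 2 := rfl
    rw [this] at hxn
    rw [hxn] at hsum
    norm_num at hsum
  exact Helper92.stabCross_of_cong
    (Helper92.cong_U4_of_mem_stdCross (Helper92.mem_stdCross_of_eight h8 hxn))

/-! ### Orbits of subgroups and cardinalities -/

theorem mem_orbit_sub (K : Subgroup Co0) (x w : leechLattice) :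
    w ∈ MulAction.orbit K x ↔ ∃ k ∈ K, k • x = w := by
  constructor
  · rintro ⟨k, hk⟩
    exact ⟨k.1, k.2, hk⟩
  · rintro ⟨k, hk, e⟩
    exact ⟨⟨k, hk⟩, e⟩

theorem finite_co0 : Finite Co0 :=
  Nat.finite_of_card_ne_zero (by rw [Helper92.card_co0]; norm_num)

theorem finite_orbit_sub (K : Subgroup Co0) (x : leechLattice) : (MulAction.orbit K x).Finite := by
  have := finite_co0
  exact Set.finite_range _

/-- the cardinality of a finite set as the sum over the fibres of a function. -/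
theorem ncard_fibers (O : Set leechLattice) (hO : O.Finite) (f : leechLattice → ℕ) (n : ℕ)
    (hf : ∀ x ∈ O, f x < n) :
    O.ncard = ∑ c ∈ Finset.range n, {x | x ∈ O ∧ f x = c}.ncard := by
  classical
  rw [Set.ncard_eq_toFinset_card O hO,
    Finset.card_eq_sum_card_fiberwise (f := f) (t := Finset.range n)
      (fun x hx => Finset.mem_range.2 (hf x ((Set.Finite.mem_toFinset hO).1 hx)))]
  apply Finset.sum_congr rfl
  intro c _
  rw [← Set.ncard_coe_finset]
  congr 1
  ext x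
  simp [Set.Finite.mem_toFinset]

theorem fiber_full (O : Set leechLattice) (cls : ℕ → ℕ) (c N : ℕ)
    (hcnt : {x : leechLattice | sqNorm (x : GolayPt → ℤ) = 32 ∧
      cls (pk (x : GolayPt → ℤ)) = c}.ncard = N)
    (hOn : ∀ x ∈ O, sqNorm (x : GolayPt → ℤ) = 32)
    (hfull : ∀ y : leechLattice, sqNorm (y : GolayPt → ℤ) = 32 →
      cls (pk (y : GolayPt → ℤ)) = c → y ∈ O) :
    {x | x ∈ O ∧ cls (pk (x : GolayPt → ℤ)) = c}.ncard = N := by
  rw [← hcnt]
  congr 1
  ext x
  constructor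
  · rintro ⟨h1, h2⟩
    exact ⟨hOn x h1, h2⟩
  · rintro ⟨h1, h2⟩
    exact ⟨hfull x h1 h2, h2⟩

theorem fiber_empty (O : Set leechLattice) (f : leechLattice → ℕ) (c : ℕ)
    (h : ¬ ∃ x ∈ O, f x = c) : {x | x ∈ O ∧ f x = c}.ncard = 0 := by
  have : {x | x ∈ O ∧ f x = c} = ∅ := by
    ext x
    constructor
    · rintro ⟨h1, h2⟩
      exact absurd ⟨x, h1, h2⟩ h
    · intro hx
      exact absurd hx (Set.notMem_empty x)
  rw [this, Set.ncard_empty]

theorem relIndex_stab (B : Subgroup Co0) (x : leechLattice) :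
    (MulAction.stabilizer Co0 x).relIndex B = (MulAction.orbit B x).ncard := by
  rw [← MulAction.index_stabilizer B x]
  rfl

theorem ncard_min : {x : leechLattice | sqNorm (x : GolayPt → ℤ) = 32}.ncard = 196560 := by
  rw [ncard_coe (fun x => sqNorm x = 32)]
  exact Helper92.ncard_norm32

/-! ### Subgroups containing the monomial group are transitive on the minimal vectors -/

theorem trans_of_gt (K : Subgroup Co0) (hK : Helper92.monoSub < K) (w : leechLattice)
    (hw : sqNorm (w : GolayPt → ℤ) = 32) : ∃ k ∈ K, k • Spor.leechU = w := by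
  have hle := hK.le
  have hOn : ∀ x ∈ MulAction.orbit K Spor.leechU, sqNorm (x : GolayPt → ℤ) = 32 := by
    intro x hx
    obtain ⟨k, -, rfl⟩ := (mem_orbit_sub K _ x).1 hx
    rw [co0_norm]; exact sqNorm_leechU32
  have hfin := finite_orbit_sub K Spor.leechU
  have hdvd : (MulAction.orbit K Spor.leechU).ncard ∣ Nat.card Co0 := by
    rw [← MulAction.index_stabilizer K Spor.leechU]
    exact (Subgroup.index_dvd_card _).trans (Subgroup.card_subgroup_dvd_card K)
  have hcl : ∀ c : ℕ, (∃ x ∈ MulAction.orbit K Spor.leechU,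
      clsN1 (pk (x : GolayPt → ℤ)) = c + 1) →
      ∀ y : leechLattice, sqNorm (y : GolayPt → ℤ) = 32 →
        clsN1 (pk (y : GolayPt → ℤ)) = c + 1 → y ∈ MulAction.orbit K Spor.leechU := by
    rintro c ⟨x, hx, hxc⟩ y hy hyc
    obtain ⟨g, hg, e⟩ := n1_trans c x y (hOn x hx) hy hxc hyc
    obtain ⟨k, hk, rfl⟩ := (mem_orbit_sub K _ x).1 hx
    exact (mem_orbit_sub K _ y).2 ⟨g * k, K.mul_mem (hle hg) hk, by rw [mul_smul]; exact e⟩
  have hU : Spor.leechU ∈ MulAction.orbit K Spor.leechU := MulAction.mem_orbit_self _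
  have hsplit := ncard_fibers (MulAction.orbit K Spor.leechU) hfin
    (fun x => clsN1 (pk (x : GolayPt → ℤ))) 4 (by
      intro x hx
      rcases clsN1_cases _ (hOn x hx) with h | h | h <;> simp only [h] <;> norm_num)
  simp only [Finset.sum_range_succ, Finset.sum_range_zero, zero_add] at hsplit
  have f0 : {x | x ∈ MulAction.orbit K Spor.leechU ∧ clsN1 (pk (x : GolayPt → ℤ)) = 0}.ncard
      = 0 := by
    apply fiber_empty _ (fun x => clsN1 (pk (x : GolayPt → ℤ)))
    rintro ⟨x, hx, h0⟩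
    rcases clsN1_cases _ (hOn x hx) with h | h | h <;> rw [h] at h0 <;> omega
  have f1 : {x | x ∈ MulAction.orbit K Spor.leechU ∧ clsN1 (pk (x : GolayPt → ℤ)) = 1}.ncard
      = 1104 :=
    fiber_full _ clsN1 1 1104 (ncard_clsN clsN1 1 1104 cnt_N11) hOn (hcl 0 ⟨_, hU, clsN1_U⟩)
  by_cases h2 : ∃ x ∈ MulAction.orbit K Spor.leechU, clsN1 (pk (x : GolayPt → ℤ)) = 2
  · by_cases h3 : ∃ x ∈ MulAction.orbit K Spor.leechU, clsN1 (pk (x : GolayPt → ℤ)) = 3
    · -- everything
      apply (mem_orbit_sub K _ w).1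
      rcases clsN1_cases _ hw with h | h | h
      · exact hcl 0 ⟨_, hU, clsN1_U⟩ w hw h
      · exact hcl 1 h2 w hw h
      · exact hcl 2 h3 w hw h
    · exfalso
      have f2 := fiber_full _ clsN1 2 98304 (ncard_clsN clsN1 2 98304 cnt_N12) hOn (hcl 1 h2)
      have f3 := fiber_empty _ (fun x => clsN1 (pk (x : GolayPt → ℤ))) 3 h3
      rw [f0, f1, f2, f3] at hsplit
      rw [hsplit, Helper92.card_co0] at hdvd
      norm_num at hdvd
  · by_cases h3 : ∃ x ∈ MulAction.orbit K Spor.leechU, clsN1 (pk (x : GolayPt → ℤ)) = 3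
    · exfalso
      have f2 := fiber_empty _ (fun x => clsN1 (pk (x : GolayPt → ℤ))) 2 h2
      have f3 := fiber_full _ clsN1 3 97152 (ncard_clsN clsN1 3 97152 cnt_N13) hOn (hcl 2 h3)
      rw [f0, f1, f2, f3] at hsplit
      rw [hsplit, Helper92.card_co0] at hdvd
      norm_num at hdvd
    · exfalso
      -- the orbit is the set of vectors of shape 1: `K` preserves it
      have hall : ∀ x ∈ MulAction.orbit K Spor.leechU, clsN1 (pk (x : GolayPt → ℤ)) = 1 := by
        intro x hx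
        rcases clsN1_cases _ (hOn x hx) with h | h | h
        · exact h
        · exact absurd ⟨x, hx, h⟩ h2
        · exact absurd ⟨x, hx, h⟩ h3
      have hsub : K ≤ Helper92.monoSub := by
        intro k hk
        apply mono_of_preserve
        intro y hy hyc
        have hyO := hcl 0 ⟨_, hU, clsN1_U⟩ y hy hyc
        obtain ⟨k', hk', rfl⟩ := (mem_orbit_sub K _ y).1 hyO
        apply hall
        exact (mem_orbit_sub K _ _).2 ⟨k⁻¹ * k', K.mul_mem (K.inv_mem hk) hk', by rw [mul_smul]⟩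
      exact absurd (lt_of_lt_of_le hK hsub) (lt_irrefl _)

/-! ### The stabiliser of `U` in the monomial group -/

theorem pk_N2U : pk (Spor.leechU : GolayPt → ℤ) = pvN2U := by decide +kernel

/-- the stabiliser of `U` in the monomial group. -/
def monoU : Subgroup Co0 := Helper92.monoSub ⊓ MulAction.stabilizer Co0 Spor.leechU

theorem htabN2 : ∀ wd ∈ tabN2, wordOK wd = true ∧ semW wd ∈ monoU := by
  intro wd hwd
  have a := tabMono_spec tabN2 tabN2_mono wd hwd
  have b := htab1 tabN2 Spor.leechU (by rw [sqNorm_leechU32]; norm_num) pvN2U pk_N2U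
    tabN2_ok_pvN2U wd hwd
  exact ⟨a.1, Subgroup.mem_inf.2 ⟨a.2, b.2⟩⟩

theorem U4_eq : Helper92.U4 = Spor.leechU + Spor.leechU' := by
  apply Subtype.ext
  funext p
  show ((Helper92.P none none : leechLattice) : GolayPt → ℤ) p = Spor.vecU p + Spor.vecU' p
  rw [Helper92.P_diag_apply]
  revert p
  decide

theorem dot_U4_U : dotInt ((Helper92.U4 : leechLattice) : GolayPt → ℤ)
    (Spor.leechU : GolayPt → ℤ) = 32 := by
  rw [show ((Helper92.U4 : leechLattice) : GolayPt → ℤ) = Pi.single none 8 from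
    Helper92.P_diag_val none, Helper92.dotInt_single_left]
  decide

theorem single_sub_U : ∀ p : GolayPt,
    (Pi.single none 8 - Spor.vecU : GolayPt → ℤ) p = Spor.vecU' p := by decide

theorem single_sub_U0 : ∀ p : GolayPt,
    (Pi.single (some 0) 8 - Spor.vecU : GolayPt → ℤ) p = -Spor.vecU' p := by decide

/-- an element of the monomial group fixing `U` carries `U'` to `±U'`. -/
theorem monoU_U' (g : Co0) (hg : g ∈ monoU) :
    g • Spor.leechU' = Spor.leechU' ∨ g • Spor.leechU' = -Spor.leechU' := by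
  obtain ⟨hm, hs⟩ := Subgroup.mem_inf.1 hg
  have hU : g • Spor.leechU = Spor.leechU := MulAction.mem_stabilizer_iff.1 hs
  obtain ⟨k, s, hs8, hk⟩ := hm Helper92.U4 (Helper92.P_diag_mem none)
  have hd : dotInt ((g • Helper92.U4 : leechLattice) : GolayPt → ℤ)
      ((g • Spor.leechU : leechLattice) : GolayPt → ℤ) = 32 := by
    rw [co0_dot]; exact dot_U4_U
  rw [hk, hU, Helper92.dotInt_single_left] at hd
  have hd' : s * Spor.vecU k = 32 := hd
  have e : g • Spor.leechU' = g • Helper92.U4 - Spor.leechU := by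
    have h1 : Spor.leechU' = Helper92.U4 - Spor.leechU := by rw [U4_eq]; abel
    conv_lhs => rw [h1]
    rw [Helper92.co0_sub, hU]
  have hk' : k = none ∨ k = some 0 := by
    by_contra hcon
    push Not at hcon
    rw [Helper92.vecU_of_ne hcon.1 hcon.2] at hd'
    omega
  have hv : ∀ q : GolayPt, q = none ∨ q = some 0 → Spor.vecU q = 4 := by
    intro q hq
    unfold Spor.vecU
    rw [if_pos hq]
  have hs' : s = 8 := by
    rw [hv k hk'] at hd'
    omega
  subst hs'
  rcases hk' with rfl | rfl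
  · left
    rw [e]
    apply Subtype.ext
    show ((g • Helper92.U4 : leechLattice) : GolayPt → ℤ) - Spor.vecU = Spor.vecU'
    rw [hk]
    funext p
    exact single_sub_U p
  · right
    rw [e]
    apply Subtype.ext
    show ((g • Helper92.U4 : leechLattice) : GolayPt → ℤ) - Spor.vecU = -Spor.vecU'
    rw [hk]
    funext p
    exact single_sub_U0 p

theorem clsN2_eq (n : ℕ) : clsN2 n =
    if sU n = 16 then
      (if shpN n = 2 then 5 else if shpN n = 1 then (if dU n = 16 then 2 else 1)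
        else (if dU n = 16 then 4 else 3))
    else 0 := by
  unfold clsN2
  simp only [cond_beq]

theorem dU_zero_iff (w : GolayPt → ℤ) (hn : sqNorm w = 32) :
    dU (pk w) = 16 ↔ dotInt (Spor.leechU' : GolayPt → ℤ) w = 0 := by
  have := dotU'_eq (short32 hn)
  omega

theorem sU_zero_iff (w : GolayPt → ℤ) (hn : sqNorm w = 32) :
    sU (pk w) = 16 ↔ dotInt (Spor.leechU : GolayPt → ℤ) w = 0 := by
  have := dotU_eq (short32 hn)
  omega

theorem dot_fixU (g : Co0) (hg : g • Spor.leechU = Spor.leechU) (w : leechLattice) :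
    dotInt (Spor.leechU : GolayPt → ℤ) ((g • w : leechLattice) : GolayPt → ℤ) =
      dotInt (Spor.leechU : GolayPt → ℤ) (w : GolayPt → ℤ) := by
  have h := co0_dot g Spor.leechU w
  rw [hg] at h
  exact h

theorem clsN2_smul (g : Co0) (hg : g ∈ monoU) (w : leechLattice)
    (hw : sqNorm (w : GolayPt → ℤ) = 32) :
    clsN2 (pk ((g • w : leechLattice) : GolayPt → ℤ)) = clsN2 (pk (w : GolayPt → ℤ)) := by
  obtain ⟨hm, hs⟩ := Subgroup.mem_inf.1 hg
  have hU : g • Spor.leechU = Spor.leechU := MulAction.mem_stabilizer_iff.1 hs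
  have hw' : sqNorm ((g • w : leechLattice) : GolayPt → ℤ) = 32 := by rw [co0_norm]; exact hw
  have e1 : sU (pk ((g • w : leechLattice) : GolayPt → ℤ)) = sU (pk (w : GolayPt → ℤ)) :=
    sU_congr _ _ hw' hw (dot_fixU g hU w)
  have e2 : shpN (pk ((g • w : leechLattice) : GolayPt → ℤ)) = shpN (pk (w : GolayPt → ℤ)) :=
    shpN_smul g hm w (by rw [hw]; norm_num)
  have e3 : dU (pk ((g • w : leechLattice) : GolayPt → ℤ)) = 16 ↔
      dU (pk (w : GolayPt → ℤ)) = 16 := by
    rw [dU_zero_iff _ hw', dU_zero_iff _ hw]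
    have h4 := co0_dot g⁻¹ Spor.leechU' (g • w)
    rw [inv_smul_smul] at h4
    rcases monoU_U' g⁻¹ (monoU.inv_mem hg) with h | h
    · rw [h] at h4
      rw [← h4]
    · rw [h] at h4
      rw [← h4]
      have h5 : dotInt ((-Spor.leechU' : leechLattice) : GolayPt → ℤ) (w : GolayPt → ℤ) =
          -dotInt (Spor.leechU' : GolayPt → ℤ) (w : GolayPt → ℤ) := Cfsg.dotInt_neg_left _ _
      rw [h5]
      omega
  rw [clsN2_eq, clsN2_eq, e1, e2]
  simp only [e3]

/-- the stabiliser of `U` in the monomial group is transitive on each class of minimal vectors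
orthogonal to `U`. -/
theorem n2_trans (c : ℕ) (w w' : leechLattice) (hw : sqNorm (w : GolayPt → ℤ) = 32)
    (hw' : sqNorm (w' : GolayPt → ℤ) = 32) (hc : clsN2 (pk (w : GolayPt → ℤ)) = c + 1)
    (hc' : clsN2 (pk (w' : GolayPt → ℤ)) = c + 1) :
    ∃ g ∈ monoU, g • w = w' :=
  stab_transM tabN2 monoU htabN2 clsN2 tgtsN2 ⟨cN2A, dN2A⟩
    (hB_of_seg _ cN2B dN2B cN2B_cover) (hC_of_seg _ cN2C dN2C cN2C_length) c
    (fun w => sqNorm (w : GolayPt → ℤ) = 32 ∧ clsN2 (pk (w : GolayPt → ℤ)) = c + 1)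
    (fun g hg w h => ⟨by rw [co0_norm]; exact h.1, by rw [clsN2_smul g hg w h.1]; exact h.2⟩)
    (fun w h => h.1) (fun w h => h.2) w w' ⟨hw, hc⟩ ⟨hw', hc'⟩

theorem clsN2_range (w : GolayPt → ℤ) (hn : sqNorm w = 32)
    (h0 : dotInt (Spor.leechU : GolayPt → ℤ) w = 0) :
    1 ≤ clsN2 (pk w) ∧ clsN2 (pk w) ≤ 5 := by
  rw [clsN2_eq, if_pos ((sU_zero_iff w hn).2 h0)]
  split_ifs <;> omega

theorem clsN2_U' : clsN2 (pk (Spor.leechU' : GolayPt → ℤ)) = 1 := by decide +kernel

theorem dot_U_U' : dotInt (Spor.leechU : GolayPt → ℤ) (Spor.leechU' : GolayPt → ℤ) = 0 := by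
  rw [dot_leechU]
  decide

/-! ### The index computation -/

theorem stab2_le : MulAction.stabilizer Co0 Spor.leechU ⊓ MulAction.stabilizer Co0 Spor.leechU'
    ≤ Helper92.monoSub := by
  intro g hg
  obtain ⟨h1, h2⟩ := Subgroup.mem_inf.1 hg
  have a : g • Spor.leechU = Spor.leechU := MulAction.mem_stabilizer_iff.1 h1
  have b : g • Spor.leechU' = Spor.leechU' := MulAction.mem_stabilizer_iff.1 h2
  apply Helper92.stabCross_of_cong
  rw [U4_eq, co0_add, a, b]
  exact Helper92.Cong.refl _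

theorem index_chain (L : Subgroup Co0) (hL : Helper92.monoSub ≤ L) :
    (MulAction.stabilizer Co0 Spor.leechU ⊓ MulAction.stabilizer Co0 Spor.leechU').relIndex L =
      (MulAction.orbit ↥(L ⊓ MulAction.stabilizer Co0 Spor.leechU) Spor.leechU').ncard *
        (MulAction.orbit L Spor.leechU).ncard := by
  have hDL : MulAction.stabilizer Co0 Spor.leechU ⊓ MulAction.stabilizer Co0 Spor.leechU' ≤
      L ⊓ MulAction.stabilizer Co0 Spor.leechU := le_inf (stab2_le.trans hL) inf_le_left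
  have a := Subgroup.relIndex_mul_relIndex
    (MulAction.stabilizer Co0 Spor.leechU ⊓ MulAction.stabilizer Co0 Spor.leechU')
    (L ⊓ MulAction.stabilizer Co0 Spor.leechU) L hDL inf_le_left
  have b : (L ⊓ MulAction.stabilizer Co0 Spor.leechU).relIndex L =
      (MulAction.stabilizer Co0 Spor.leechU).relIndex L := by
    rw [inf_comm]
    exact Subgroup.inf_relIndex_right _ _
  have c : (MulAction.stabilizer Co0 Spor.leechU ⊓
      MulAction.stabilizer Co0 Spor.leechU').relIndex (L ⊓ MulAction.stabilizer Co0 Spor.leechU) =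
      (MulAction.stabilizer Co0 Spor.leechU').relIndex
        (L ⊓ MulAction.stabilizer Co0 Spor.leechU) := by
    rw [← Subgroup.inf_relIndex_right (MulAction.stabilizer Co0 Spor.leechU')
      (L ⊓ MulAction.stabilizer Co0 Spor.leechU)]
    congr 1
    apply le_antisymm
    · exact le_inf inf_le_right hDL
    · exact le_inf (inf_le_right.trans inf_le_right) inf_le_left
  rw [← a, b, c, relIndex_stab, relIndex_stab]

theorem orbit_mono_U : MulAction.orbit Helper92.monoSub Spor.leechU =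
    {x : leechLattice | sqNorm (x : GolayPt → ℤ) = 32 ∧ clsN1 (pk (x : GolayPt → ℤ)) = 1} := by
  ext x
  rw [mem_orbit_sub]
  constructor
  · rintro ⟨k, hk, rfl⟩
    exact ⟨by rw [co0_norm]; exact sqNorm_leechU32,
      by rw [clsN1_smul k hk _ sqNorm_leechU32]; exact clsN1_U⟩
  · rintro ⟨h1, h2⟩
    exact n1_trans 0 Spor.leechU x sqNorm_leechU32 h1 clsN1_U h2

theorem orbit_monoU_U' : MulAction.orbit monoU Spor.leechU' =
    {x : leechLattice | sqNorm (x : GolayPt → ℤ) = 32 ∧ clsN2 (pk (x : GolayPt → ℤ)) = 1} := by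
  ext x
  rw [mem_orbit_sub]
  constructor
  · rintro ⟨k, hk, rfl⟩
    exact ⟨by rw [co0_norm]; exact sqNorm_leechU'32,
      by rw [clsN2_smul k hk _ sqNorm_leechU'32]; exact clsN2_U'⟩
  · rintro ⟨h1, h2⟩
    exact n2_trans 0 Spor.leechU' x sqNorm_leechU'32 h1 clsN2_U' h2

/-- in a subgroup `K > N`, the stabiliser of `U` is transitive on the minimal vectors orthogonal
to `U`. -/
theorem transU'_of_gt (K : Subgroup Co0) (hK : Helper92.monoSub < K) (w : leechLattice)
    (hw : sqNorm (w : GolayPt → ℤ) = 32)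
    (hd : dotInt (Spor.leechU : GolayPt → ℤ) (w : GolayPt → ℤ) = 0) :
    ∃ k ∈ K, k • Spor.leechU = Spor.leechU ∧ k • Spor.leechU' = w := by
  have hle := hK.le
  -- the orbit of `U` under `K`
  have hKU : MulAction.orbit K Spor.leechU = {x : leechLattice | sqNorm (x : GolayPt → ℤ) = 32} := by
    ext x
    rw [mem_orbit_sub]
    constructor
    · rintro ⟨k, -, rfl⟩
      show sqNorm _ = 32
      rw [co0_norm]; exact sqNorm_leechU32
    · intro hx
      exact trans_of_gt K hK x hx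
  have i1 := index_chain K hle
  have i2 := index_chain Helper92.monoSub le_rfl
  have i3 := Subgroup.relIndex_mul_relIndex
    (MulAction.stabilizer Co0 Spor.leechU ⊓ MulAction.stabilizer Co0 Spor.leechU')
    Helper92.monoSub K stab2_le hle
  rw [hKU, ncard_min] at i1
  rw [orbit_mono_U, ncard_clsN clsN1 1 1104 cnt_N11] at i2
  have i2' : (MulAction.orbit ↥(Helper92.monoSub ⊓ MulAction.stabilizer Co0 Spor.leechU)
      Spor.leechU').ncard = 2 := by
    have := orbit_monoU_U'
    unfold monoU at this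
    rw [this, ncard_clsN clsN2 1 2 cnt_N21]
  rw [i2'] at i2
  rw [i1, i2] at i3
  -- the orbit of `U'`
  set O := MulAction.orbit ↥(K ⊓ MulAction.stabilizer Co0 Spor.leechU) Spor.leechU' with hO
  have hOn : ∀ x ∈ O, sqNorm (x : GolayPt → ℤ) = 32 := by
    intro x hx
    obtain ⟨k, -, rfl⟩ := (mem_orbit_sub _ _ x).1 hx
    rw [co0_norm]; exact sqNorm_leechU'32
  have hOd : ∀ x ∈ O, dotInt (Spor.leechU : GolayPt → ℤ) (x : GolayPt → ℤ) = 0 := by
    intro x hx
    obtain ⟨k, hk, rfl⟩ := (mem_orbit_sub _ _ x).1 hx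
    rw [dot_fixU k (MulAction.mem_stabilizer_iff.1 (Subgroup.mem_inf.1 hk).2)]
    exact dot_U_U'
  have hfin : O.Finite := finite_orbit_sub _ _
  have hcl : ∀ c : ℕ, (∃ x ∈ O, clsN2 (pk (x : GolayPt → ℤ)) = c + 1) →
      ∀ y : leechLattice, sqNorm (y : GolayPt → ℤ) = 32 →
        clsN2 (pk (y : GolayPt → ℤ)) = c + 1 → y ∈ O := by
    rintro c ⟨x, hx, hxc⟩ y hy hyc
    obtain ⟨g, hg, e⟩ := n2_trans c x y (hOn x hx) hy hxc hyc
    obtain ⟨k, hk, rfl⟩ := (mem_orbit_sub _ _ x).1 hx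
    have hg' : g ∈ K ⊓ MulAction.stabilizer Co0 Spor.leechU :=
      Subgroup.mem_inf.2 ⟨hle (Subgroup.mem_inf.1 hg).1, (Subgroup.mem_inf.1 hg).2⟩
    exact (mem_orbit_sub _ _ y).2 ⟨g * k, Subgroup.mul_mem _ hg' hk, by rw [mul_smul]; exact e⟩
  have hU' : Spor.leechU' ∈ O := MulAction.mem_orbit_self _
  have hsplit := ncard_fibers O hfin (fun x => clsN2 (pk (x : GolayPt → ℤ))) 6 (by
    intro x hx
    have := (clsN2_range _ (hOn x hx) (hOd x hx)).2
    show clsN2 (pk (x : GolayPt → ℤ)) < 6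
    omega)
  simp only [Finset.sum_range_succ, Finset.sum_range_zero, zero_add] at hsplit
  have f0 : {x | x ∈ O ∧ clsN2 (pk (x : GolayPt → ℤ)) = 0}.ncard = 0 := by
    apply fiber_empty _ (fun x => clsN2 (pk (x : GolayPt → ℤ)))
    rintro ⟨x, hx, h0⟩
    have := (clsN2_range _ (hOn x hx) (hOd x hx)).1
    omega
  have f1 : {x | x ∈ O ∧ clsN2 (pk (x : GolayPt → ℤ)) = 1}.ncard = 2 :=
    fiber_full _ clsN2 1 2 (ncard_clsN clsN2 1 2 cnt_N21) hOn (hcl 0 ⟨_, hU', clsN2_U'⟩)
  have f2 : ((∃ x ∈ O, clsN2 (pk (x : GolayPt → ℤ)) = 2) ∧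
      {x | x ∈ O ∧ clsN2 (pk (x : GolayPt → ℤ)) = 2}.ncard = 924) ∨
      {x | x ∈ O ∧ clsN2 (pk (x : GolayPt → ℤ)) = 2}.ncard = 0 := by
    by_cases h : ∃ x ∈ O, clsN2 (pk (x : GolayPt → ℤ)) = 2
    · exact Or.inl ⟨h, fiber_full _ clsN2 2 924 (ncard_clsN clsN2 2 924 cnt_N22) hOn (hcl 1 h)⟩
    · exact Or.inr (fiber_empty _ (fun x => clsN2 (pk (x : GolayPt → ℤ))) 2 h)
  have f3 : ((∃ x ∈ O, clsN2 (pk (x : GolayPt → ℤ)) = 3) ∧
      {x | x ∈ O ∧ clsN2 (pk (x : GolayPt → ℤ)) = 3}.ncard = 4928) ∨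
      {x | x ∈ O ∧ clsN2 (pk (x : GolayPt → ℤ)) = 3}.ncard = 0 := by
    by_cases h : ∃ x ∈ O, clsN2 (pk (x : GolayPt → ℤ)) = 3
    · exact Or.inl ⟨h, fiber_full _ clsN2 3 4928 (ncard_clsN clsN2 3 4928 cnt_N23) hOn (hcl 2 h)⟩
    · exact Or.inr (fiber_empty _ (fun x => clsN2 (pk (x : GolayPt → ℤ))) 3 h)
  have f4 : ((∃ x ∈ O, clsN2 (pk (x : GolayPt → ℤ)) = 4) ∧
      {x | x ∈ O ∧ clsN2 (pk (x : GolayPt → ℤ)) = 4}.ncard = 42240) ∨
      {x | x ∈ O ∧ clsN2 (pk (x : GolayPt → ℤ)) = 4}.ncard = 0 := by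
    by_cases h : ∃ x ∈ O, clsN2 (pk (x : GolayPt → ℤ)) = 4
    · exact Or.inl ⟨h, fiber_full _ clsN2 4 42240 (ncard_clsN clsN2 4 42240 cnt_N24) hOn (hcl 3 h)⟩
    · exact Or.inr (fiber_empty _ (fun x => clsN2 (pk (x : GolayPt → ℤ))) 4 h)
  have f5 : ((∃ x ∈ O, clsN2 (pk (x : GolayPt → ℤ)) = 5) ∧
      {x | x ∈ O ∧ clsN2 (pk (x : GolayPt → ℤ)) = 5}.ncard = 45056) ∨
      {x | x ∈ O ∧ clsN2 (pk (x : GolayPt → ℤ)) = 5}.ncard = 0 := by
    by_cases h : ∃ x ∈ O, clsN2 (pk (x : GolayPt → ℤ)) = 5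
    · exact Or.inl ⟨h, fiber_full _ clsN2 5 45056 (ncard_clsN clsN2 5 45056 cnt_N25) hOn (hcl 4 h)⟩
    · exact Or.inr (fiber_empty _ (fun x => clsN2 (pk (x : GolayPt → ℤ))) 5 h)
  -- every class meets the orbit
  have hmeet : (∃ x ∈ O, clsN2 (pk (x : GolayPt → ℤ)) = 2) ∧
      (∃ x ∈ O, clsN2 (pk (x : GolayPt → ℤ)) = 3) ∧
      (∃ x ∈ O, clsN2 (pk (x : GolayPt → ℤ)) = 4) ∧
      (∃ x ∈ O, clsN2 (pk (x : GolayPt → ℤ)) = 5) := by
    rw [f0, f1] at hsplit
    rw [hsplit] at i3
    have n2 := f2.imp (fun h => h.2) id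
    have n3 := f3.imp (fun h => h.2) id
    have n4 := f4.imp (fun h => h.2) id
    have n5 := f5.imp (fun h => h.2) id
    refine ⟨?_, ?_, ?_, ?_⟩
    · rcases f2 with h | h
      · exact h.1
      · exfalso; omega
    · rcases f3 with h | h
      · exact h.1
      · exfalso; omega
    · rcases f4 with h | h
      · exact h.1
      · exfalso; omega
    · rcases f5 with h | h
      · exact h.1
      · exfalso; omega
  have hwO : w ∈ O := by
    obtain ⟨r1, r2⟩ := clsN2_range _ hw hd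
    obtain ⟨c, hc⟩ : ∃ c, clsN2 (pk (w : GolayPt → ℤ)) = c + 1 :=
      ⟨clsN2 (pk (w : GolayPt → ℤ)) - 1, by omega⟩
    have hc5 : c ≤ 4 := by omega
    interval_cases c
    · exact hcl 0 ⟨_, hU', clsN2_U'⟩ w hw hc
    · exact hcl 1 hmeet.1 w hw hc
    · exact hcl 2 hmeet.2.1 w hw hc
    · exact hcl 3 hmeet.2.2.1 w hw hc
    · exact hcl 4 hmeet.2.2.2 w hw hc
  obtain ⟨k, hk, e⟩ := (mem_orbit_sub _ _ w).1 hwO
  exact ⟨k, (Subgroup.mem_inf.1 hk).1,
    MulAction.mem_stabilizer_iff.1 (Subgroup.mem_inf.1 hk).2, e⟩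

/-! ### Maximality -/

/-- **The stabiliser of the standard cross is a maximal subgroup of `Co0`.** -/
theorem cross_max : IsCoatom Helper92.monoSub := by
  refine ⟨?_, fun K hK => ?_⟩
  · intro h
    have h1 := Helper92.index_monoSub
    rw [h, Subgroup.index_top] at h1
    omega
  · rw [eq_top_iff]
    intro g _
    have hgU : sqNorm ((g • Spor.leechU : leechLattice) : GolayPt → ℤ) = 32 := by
      rw [co0_norm]; exact sqNorm_leechU32
    obtain ⟨k, hk, e⟩ := trans_of_gt K hK (g • Spor.leechU) hgU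
    have h1 : (k⁻¹ * g) • Spor.leechU = Spor.leechU := by
      rw [mul_smul, ← e, inv_smul_smul]
    have hn : sqNorm (((k⁻¹ * g) • Spor.leechU' : leechLattice) : GolayPt → ℤ) = 32 := by
      rw [co0_norm]; exact sqNorm_leechU'32
    have hd : dotInt (Spor.leechU : GolayPt → ℤ)
        (((k⁻¹ * g) • Spor.leechU' : leechLattice) : GolayPt → ℤ) = 0 := by
      rw [dot_fixU _ h1]; exact dot_U_U'
    obtain ⟨k', hk', e1, e2⟩ := transU'_of_gt K hK _ hn hd
    have h2 : k'⁻¹ * (k⁻¹ * g) ∈ Helper92.monoSub := by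
      apply stab2_le
      refine Subgroup.mem_inf.2 ⟨MulAction.mem_stabilizer_iff.2 ?_,
        MulAction.mem_stabilizer_iff.2 ?_⟩
      · rw [mul_smul, h1, inv_smul_eq_iff, e1]
      · rw [mul_smul, ← e2, inv_smul_smul]
    have h3 : g = k * (k' * (k'⁻¹ * (k⁻¹ * g))) := by group
    rw [h3]
    exact K.mul_mem hk (K.mul_mem hk' (hK.le h2))

end Cfsg.Agent.Helper26
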