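import Cfsg.Agent.Helper26.GolayCount

/-!
# Kernel computation: octads against the dodecads (1288 × 759 pairs, about 90 s)
-/

set_option autoImplicit false

namespace Cfsg.Agent.Helper26

open Cfsg

/-- every dodecad without the point `none` meets exactly 495 octads in 4 points and exactly 132
octads in 6 points (kernel computation over 1288 × 759 pairs). -/
theorem dod_check :
    allL (fun d => Nat.beq (Nat.shiftRight d 23) 1 ||
      (Nat.beq (countL (fun m => Nat.beq (pc24 (Nat.land d m)) 4) octL) 495 &&
       Nat.beq (countL (fun m => Nat.beq (pc24 (Nat.land d m)) 6) octL) 132)) dodL = true := by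
  decide +kernel

end Cfsg.Agent.Helper26
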