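import Cfsg.Agent.Helper26.GolaySextet
import Cfsg.Agent.Helper26.GolayDodCheck

/-!
# Octads against a dodecad: 132 octads meet it in 2 points, 495 in 4 points, 132 in 6 points
-/

set_option autoImplicit false
set_option linter.constructorNameAsVariable false

namespace Cfsg.Agent.Helper26

open Cfsg

theorem testBit_iff_shift' (m i : ℕ) : m.testBit i = true ↔ (Nat.shiftRight m i) % 2 = 1 := by
  rw [Nat.testBit_eq_decide_div_mod_eq, decide_eq_true_iff]
  show _ ↔ (m >>> i) % 2 = 1
  rw [Nat.shiftRight_eq_div_pow]

/-- an octad meets a dodecad in 2, 4 or 6 points. -/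
theorem octad_inter_dodecad {o d : Finset GolayPt} (ho : o ∈ octads) (hd : d ∈ dodecads) :
    (o ∩ d).card = 2 ∨ (o ∩ d).card = 4 ∨ (o ∩ d).card = 6 := by
  have h1 := card_symmDiff_add o d
  rw [octads_card ho, dodecads_card hd] at h1
  have h2 := card_of_mem_supports (supports_symmDiff (octads_supports ho) (dodecads_supports hd))
  have h3 : (o ∩ d).card ≤ 8 := by
    rw [← octads_card ho]
    exact Finset.card_le_card Finset.inter_subset_left
  omega

/-- from the counts for 4 and 6 points, the count for 2 points. -/
theorem dod_counts_aux_two (d : Finset GolayPt) (hd : d ∈ dodecads)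
    (h4 : (octF.filter (fun o => (o ∩ d).card = 4)).card = 495)
    (h6 : (octF.filter (fun o => (o ∩ d).card = 6)).card = 132) :
    (octF.filter (fun o => (o ∩ d).card = 2)).card = 132 := by
  have hmaps : ∀ o ∈ octF, (o ∩ d).card ∈ ({2, 4, 6} : Finset ℕ) := by
    intro o ho
    simp only [Finset.mem_insert, Finset.mem_singleton]
    exact octad_inter_dodecad ((mem_octF o).1 ho) hd
  have hsum := Finset.card_eq_sum_card_fiberwise hmaps
  have h246 : (2 : ℕ) ∉ ({4, 6} : Finset ℕ) := by decide
  have h46 : (4 : ℕ) ∉ ({6} : Finset ℕ) := by decide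
  rw [Finset.sum_insert h246, Finset.sum_insert h46, Finset.sum_singleton, h4, h6,
    card_octF] at hsum
  generalize (octF.filter (fun o => (o ∩ d).card = 2)).card = x at hsum ⊢
  omega

theorem pt_23 : pt 23 = none := by simp [pt]

theorem none_mem_of_shift (d : Finset GolayPt) (h : Nat.shiftRight (enc d) 23 = 1) :
    none ∈ d := by
  have h1 : (enc d).testBit 23 = true := by
    rw [testBit_iff_shift']
    show (Nat.shiftRight (enc d) 23) % 2 = 1
    rw [h]
  rw [testBit_enc, pt_23] at h1
  simpa using h1

theorem card_inter_compl (o d : Finset GolayPt) : (o ∩ dᶜ).card + (o ∩ d).card = o.card := by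
  rw [← Finset.sdiff_eq_inter_compl]
  exact Finset.card_sdiff_add_card_inter o d

theorem dodecads_compl {d : Finset GolayPt} (hd : d ∈ dodecads) : dᶜ ∈ dodecads := by
  refine ⟨supports_compl (dodecads_supports hd), ?_⟩
  rw [Finset.card_compl, dodecads_card hd, card_golayPt]

theorem filter_inter_eq_enc (d : Finset GolayPt) (n : ℕ) :
    octF.filter (fun o => (o ∩ d).card = n) =
      octF.filter (fun b => (fun m => Nat.beq (pc24 (Nat.land (enc d) m)) n) (enc b) = true) := by
  apply Finset.filter_congr
  intro b _
  rw [Nat.beq_eq, card_eq_pc24, enc_inter]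
  have : Nat.land (enc d) (enc b) = enc b &&& enc d := Nat.land_comm _ _
  rw [this]

theorem dod_counts_aux (d : Finset GolayPt) (hd : d ∈ dodecads) (hn : none ∉ d) :
    (octF.filter (fun o => (o ∩ d).card = 4)).card = 495 ∧
      (octF.filter (fun o => (o ∩ d).card = 6)).card = 132 := by
  have h := allL_spec _ _ dod_check (enc d) ((mem_dodL_iff d).2 hd)
  simp only [Bool.or_eq_true, Bool.and_eq_true] at h
  rcases h with h | ⟨h4, h6⟩
  · exact absurd (none_mem_of_shift d (Nat.eq_of_beq_eq_true h)) hn
  · refine ⟨?_, ?_⟩
    · rw [filter_inter_eq_enc, card_filter_octF (fun m => Nat.beq (pc24 (Nat.land (enc d) m)) 4)]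
      exact Nat.eq_of_beq_eq_true h4
    · rw [filter_inter_eq_enc, card_filter_octF (fun m => Nat.beq (pc24 (Nat.land (enc d) m)) 6)]
      exact Nat.eq_of_beq_eq_true h6

/-- a dodecad meets exactly 495 octads in 4 points and exactly 132 octads in 6 points. -/
theorem dod_counts (d : Finset GolayPt) (hd : d ∈ dodecads) :
    (octF.filter (fun o => (o ∩ d).card = 4)).card = 495 ∧
      (octF.filter (fun o => (o ∩ d).card = 6)).card = 132 ∧
      (octF.filter (fun o => (o ∩ d).card = 2)).card = 132 := by
  by_cases hn : none ∈ d
  · have hn' : none ∉ dᶜ := by simpa using hn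
    obtain ⟨h4, h6⟩ := dod_counts_aux dᶜ (dodecads_compl hd) hn'
    have e : ∀ (a b : ℕ), a + b = 8 →
        octF.filter (fun o => (o ∩ d).card = a) = octF.filter (fun o => (o ∩ dᶜ).card = b) := by
      intro a b hab
      apply Finset.filter_congr
      intro o ho
      have h1 := card_inter_compl o d
      rw [octads_card ((mem_octF o).1 ho)] at h1
      omega
    have h2 := dod_counts_aux_two dᶜ (dodecads_compl hd) h4 h6
    rw [e 4 4 rfl, e 6 2 rfl, e 2 6 rfl]
    exact ⟨h4, h2, h6⟩
  · obtain ⟨h4, h6⟩ := dod_counts_aux d hd hn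
    exact ⟨h4, h6, dod_counts_aux_two d hd h4 h6⟩

/-! ### Dodecads against a dodecad -/

/-- two dodecads are equal or meet in 0, 4, 6 or 8 points. -/
theorem dodecads_inter {d d' : Finset GolayPt} (hd : d ∈ dodecads) (hd' : d' ∈ dodecads) :
    d = d' ∨ (d ∩ d').card = 0 ∨ (d ∩ d').card = 4 ∨ (d ∩ d').card = 6 ∨
      (d ∩ d').card = 8 := by
  have h1 := card_symmDiff_add d d'
  rw [dodecads_card hd, dodecads_card hd'] at h1
  have h2 := card_of_mem_supports
    (supports_symmDiff (dodecads_supports hd) (dodecads_supports hd'))
  have h3 : (d ∩ d').card = 12 → d = d' := by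
    intro h
    have hab : d ∩ d' = d :=
      Finset.eq_of_subset_of_card_le Finset.inter_subset_left (by rw [h, dodecads_card hd])
    have hba : d ∩ d' = d' :=
      Finset.eq_of_subset_of_card_le Finset.inter_subset_right (by rw [h, dodecads_card hd'])
    rw [← hab, hba]
  rcases h2 with h | h | h | h | h
  · left; exact h3 (by omega)
  · right; right; right; right; omega
  · right; right; right; left; omega
  · right; right; left; omega
  · right; left; omega

/-- a dodecad meets exactly 495 dodecads in 8 points. -/
theorem card_dod_inter_eight (d : Finset GolayPt) (hd : d ∈ dodecads) :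
    (dodF.filter (fun d' => (d ∩ d').card = 8)).card = 495 := by
  rw [← (dod_counts d hd).1]
  apply Finset.card_nbij' (fun d' => symmDiff d d') (fun o => symmDiff d o)
  · intro d' hd'
    simp only [Finset.mem_coe, Finset.mem_filter, mem_dodF] at hd'
    simp only [Finset.mem_coe, Finset.mem_filter, mem_octF]
    obtain ⟨hd'1, h8⟩ := hd'
    have hc := card_symmDiff_add d d'
    rw [dodecads_card hd, dodecads_card hd'1, h8] at hc
    have hi : symmDiff d d' ∩ d = d \ d' := by
      ext p
      simp only [Finset.mem_inter, Finset.mem_symmDiff, Finset.mem_sdiff]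
      constructor
      · rintro ⟨h1 | h1, h2⟩
        · exact h1
        · exact absurd h2 h1.2
      · intro h1
        exact ⟨Or.inl h1, h1.1⟩
    have hs := Finset.card_sdiff_add_card_inter d d'
    rw [dodecads_card hd, h8] at hs
    refine ⟨⟨supports_symmDiff (dodecads_supports hd) (dodecads_supports hd'1), by omega⟩, ?_⟩
    rw [hi]; omega
  · intro o ho
    simp only [Finset.mem_coe, Finset.mem_filter, mem_octF] at ho
    simp only [Finset.mem_coe, Finset.mem_filter, mem_dodF]
    obtain ⟨ho1, h4⟩ := ho
    rw [Finset.inter_comm] at h4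
    have hc := card_symmDiff_add d o
    rw [dodecads_card hd, octads_card ho1, h4] at hc
    have hi : d ∩ symmDiff d o = d \ o := by
      ext p
      simp only [Finset.mem_inter, Finset.mem_symmDiff, Finset.mem_sdiff]
      constructor
      · rintro ⟨h2, h1 | h1⟩
        · exact h1
        · exact absurd h2 h1.2
      · intro h1
        exact ⟨h1.1, Or.inl h1⟩
    have hs := Finset.card_sdiff_add_card_inter d o
    rw [dodecads_card hd, h4] at hs
    refine ⟨⟨supports_symmDiff (dodecads_supports hd) (octads_supports ho1), by omega⟩, ?_⟩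
    rw [hi]; omega
  · intro d' _
    exact symmDiff_symmDiff_cancel_left d d'
  · intro o _
    exact symmDiff_symmDiff_cancel_left d o

/-- a dodecad meets exactly 495 dodecads in 4 points. -/
theorem card_dod_inter_four (d : Finset GolayPt) (hd : d ∈ dodecads) :
    (dodF.filter (fun d' => (d ∩ d').card = 4)).card = 495 := by
  rw [← card_dod_inter_eight d hd]
  apply Finset.card_nbij' (fun d' => d'ᶜ) (fun d' => d'ᶜ)
  · intro d' hd'
    simp only [Finset.mem_coe, Finset.mem_filter, mem_dodF] at hd' ⊢
    have h := card_inter_compl d d'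
    rw [dodecads_card hd, hd'.2] at h
    exact ⟨dodecads_compl hd'.1, by omega⟩
  · intro d' hd'
    simp only [Finset.mem_coe, Finset.mem_filter, mem_dodF] at hd' ⊢
    have h := card_inter_compl d d'
    rw [dodecads_card hd, hd'.2] at h
    exact ⟨dodecads_compl hd'.1, by omega⟩
  · intro d' _
    exact compl_compl d'
  · intro d' _
    exact compl_compl d'

/-- a dodecad meets exactly 1584 dodecads in 6 points. -/
theorem card_dod_inter_six (d : Finset GolayPt) (hd : d ∈ dodecads) :
    (dodF.filter (fun d' => (d ∩ d').card = 6)).card = 1584 := by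
  have hmaps : ∀ d' ∈ dodF, (d ∩ d').card ∈ ({0, 4, 6, 8, 12} : Finset ℕ) := by
    intro d' hd'
    simp only [Finset.mem_insert, Finset.mem_singleton]
    rcases dodecads_inter hd ((mem_dodF d').1 hd') with h | h | h | h | h
    · right; right; right; right
      rw [← h, Finset.inter_self, dodecads_card hd]
    · left; exact h
    · right; left; exact h
    · right; right; left; exact h
    · right; right; right; left; exact h
  have hsum := Finset.card_eq_sum_card_fiberwise hmaps
  have h12 : (dodF.filter (fun d' => (d ∩ d').card = 12)).card = 1 := by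
    have : dodF.filter (fun d' => (d ∩ d').card = 12) = {d} := by
      ext d'
      simp only [Finset.mem_filter, mem_dodF, Finset.mem_singleton]
      constructor
      · rintro ⟨hd', h⟩
        rcases dodecads_inter hd hd' with h' | h' | h' | h' | h'
        · exact h'.symm
        all_goals omega
      · rintro rfl
        exact ⟨hd, by rw [Finset.inter_self, dodecads_card hd]⟩
    rw [this, Finset.card_singleton]
  have h0 : (dodF.filter (fun d' => (d ∩ d').card = 0)).card = 1 := by
    have : dodF.filter (fun d' => (d ∩ d').card = 0) = {dᶜ} := by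
      ext d'
      simp only [Finset.mem_filter, mem_dodF, Finset.mem_singleton]
      constructor
      · rintro ⟨hd', h⟩
        have hsub : d' ⊆ dᶜ := by
          intro p hp
          rw [Finset.mem_compl]
          intro hpd
          have hm : p ∈ d ∩ d' := Finset.mem_inter.2 ⟨hpd, hp⟩
          rw [Finset.card_eq_zero.1 h] at hm
          simp at hm
        exact Finset.eq_of_subset_of_card_le hsub
          (by rw [dodecads_card (dodecads_compl hd), dodecads_card hd'])
      · rintro rfl
        refine ⟨dodecads_compl hd, ?_⟩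
        have h := card_inter_compl d d
        rw [Finset.inter_self] at h
        omega
    rw [this, Finset.card_singleton]
  have m1 : (0 : ℕ) ∉ ({4, 6, 8, 12} : Finset ℕ) := by decide
  have m2 : (4 : ℕ) ∉ ({6, 8, 12} : Finset ℕ) := by decide
  have m3 : (6 : ℕ) ∉ ({8, 12} : Finset ℕ) := by decide
  have m4 : (8 : ℕ) ∉ ({12} : Finset ℕ) := by decide
  rw [Finset.sum_insert m1, Finset.sum_insert m2, Finset.sum_insert m3, Finset.sum_insert m4,
    Finset.sum_singleton, h0, h12, card_dod_inter_four d hd, card_dod_inter_eight d hd,
    card_dodF] at hsum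
  generalize (dodF.filter (fun d' => (d ∩ d').card = 6)).card = x at hsum ⊢
  omega

end Cfsg.Agent.Helper26
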