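import Cfsg.Agent.Helper26.GolaySextet

/-!
# Leech-triangle counts: octads through a pair, octads meeting an octad in a prescribed set
-/

set_option autoImplicit false
set_option linter.constructorNameAsVariable false

namespace Cfsg.Agent.Helper26

open Cfsg

/-- the number of `k`-subsets of `o` containing a given subset `s`. -/
theorem card_powersetCard_filter_subset {α : Type*} [DecidableEq α] (o s : Finset α)
    (hs : s ⊆ o) (k : ℕ) (hk : s.card ≤ k) :
    ((Finset.powersetCard k o).filter (fun u => s ⊆ u)).card =
      (o.card - s.card).choose (k - s.card) := by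
  rw [← Finset.card_sdiff_of_subset hs, ← Finset.card_powersetCard]
  apply Finset.card_nbij' (fun u => u \ s) (fun v => v ∪ s)
  · intro u hu
    simp only [Finset.coe_filter, Finset.mem_powersetCard, Set.mem_ofPred_eq] at hu
    simp only [Finset.mem_coe, Finset.mem_powersetCard]
    refine ⟨Finset.sdiff_subset_sdiff hu.1.1 (Finset.Subset.refl s), ?_⟩
    rw [Finset.card_sdiff_of_subset hu.2, hu.1.2]
  · intro v hv
    simp only [Finset.mem_coe, Finset.mem_powersetCard] at hv
    simp only [Finset.coe_filter, Finset.mem_powersetCard, Set.mem_ofPred_eq]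
    have hdis : Disjoint v s := by
      rw [Finset.disjoint_left]
      intro x hx hxs
      exact (Finset.mem_sdiff.1 (hv.1 hx)).2 hxs
    refine ⟨⟨Finset.union_subset (hv.1.trans Finset.sdiff_subset) hs, ?_⟩,
      Finset.subset_union_right⟩
    rw [Finset.card_union_of_disjoint hdis, hv.2]
    omega
  · intro u hu
    simp only [Finset.coe_filter, Finset.mem_powersetCard, Set.mem_ofPred_eq] at hu
    exact Finset.sdiff_union_of_subset hu.2
  · intro v hv
    simp only [Finset.mem_coe, Finset.mem_powersetCard] at hv
    have hdis : Disjoint v s := by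
      rw [Finset.disjoint_left]
      intro x hx hxs
      exact (Finset.mem_sdiff.1 (hv.1 hx)).2 hxs
    exact Finset.union_sdiff_cancel_right hdis

theorem testBit_iff_shift (m i : ℕ) : m.testBit i = true ↔ (m >>> i) % 2 = 1 := by
  rw [Nat.testBit_eq_decide_div_mod_eq, decide_eq_true_iff, Nat.shiftRight_eq_div_pow]

theorem and_mod_two (a b : ℕ) : (a &&& b) % 2 = 1 ↔ a % 2 = 1 ∧ b % 2 = 1 := by
  have h := Nat.testBit_and a b 0
  simp only [Nat.testBit_zero] at h
  have h' := congrArg (fun c => c = true) h
  simp only [decide_eq_true_eq, Bool.and_eq_true] at h'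
  exact iff_of_eq h'

theorem bits_and (m i j : ℕ) :
    Nat.beq (Nat.land (Nat.land (Nat.shiftRight m i) (Nat.shiftRight m j)) 1) 1 = true ↔
      (m.testBit i = true ∧ m.testBit j = true) := by
  rw [Nat.beq_eq, testBit_iff_shift, testBit_iff_shift, ← and_mod_two]
  show ((m >>> i) &&& (m >>> j)) &&& 1 = 1 ↔ _
  rw [Nat.and_one_is_mod]

theorem card_octsThrough_pair_aux (p q : GolayPt) (h : idx q < idx p) :
    (octsThrough {p, q}).card = 77 := by
  have hc := allBelow_spec _ _ (allBelow_spec _ _ pair77_check (idx p) (idx_lt p)) (idx q) h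
  have h1 := card_filter_octF (fun m =>
    Nat.beq (Nat.land (Nat.land (Nat.shiftRight m (idx p)) (Nat.shiftRight m (idx q))) 1) 1)
  have h3 : octsThrough {p, q} = octF.filter (fun b => (fun m =>
      Nat.beq (Nat.land (Nat.land (Nat.shiftRight m (idx p)) (Nat.shiftRight m (idx q))) 1) 1)
        (enc b) = true) := by
    unfold octsThrough
    apply Finset.filter_congr
    intro b _
    rw [bits_and, testBit_enc_idx, testBit_enc_idx, Finset.insert_subset_iff,
      Finset.singleton_subset_iff]
    simp
  rw [h3, h1]
  exact Nat.eq_of_beq_eq_true hc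

/-- a pair of points lies in exactly 77 octads. -/
theorem card_octsThrough_two (s : Finset GolayPt) (hs : s.card = 2) :
    (octsThrough s).card = 77 := by
  obtain ⟨p, q, hpq, rfl⟩ := Finset.card_eq_two.1 hs
  rcases lt_or_gt_of_ne (fun h => hpq (idx_injective h)) with h | h
  · rw [Finset.pair_comm]
    exact card_octsThrough_pair_aux q p h
  · exact card_octsThrough_pair_aux p q h

/-- an octad meets exactly 4 other octads in a prescribed 4-subset. -/
theorem card_inter_eq_four (o : Finset GolayPt) (ho : o ∈ octads) (s : Finset GolayPt)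
    (hs : s ⊆ o) (h4 : s.card = 4) : (octF.filter (fun o' => o ∩ o' = s)).card = 4 := by
  have h1 : octF.filter (fun o' => o ∩ o' = s) = (octsThrough s).erase o := by
    ext o'
    simp only [Finset.mem_filter, mem_octF, Finset.mem_erase, mem_octsThrough]
    constructor
    · rintro ⟨ho', hi⟩
      refine ⟨?_, ho', ?_⟩
      · rintro rfl
        rw [Finset.inter_self] at hi
        rw [← hi, octads_card ho'] at h4
        omega
      · rw [← hi]; exact Finset.inter_subset_right
    · rintro ⟨hne, ho', hso'⟩
      exact ⟨ho', octads_inter_eq_of_four h4 ho ho' (Ne.symm hne) hs hso'⟩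
  rw [h1, Finset.card_erase_of_mem (mem_octsThrough.2 ⟨ho, hs⟩), card_octsThrough_four s h4]

/-- an octad meets exactly 16 other octads in a prescribed 2-subset. -/
theorem card_inter_eq_two (o : Finset GolayPt) (ho : o ∈ octads) (s : Finset GolayPt)
    (hs : s ⊆ o) (h2 : s.card = 2) : (octF.filter (fun o' => o ∩ o' = s)).card = 16 := by
  classical
  -- the octads through `s`, by the size of their intersection with `o`
  have hmaps : ∀ o' ∈ octsThrough s, (o ∩ o').card ∈ ({2, 4, 8} : Finset ℕ) := by
    intro o' ho'
    rw [mem_octsThrough] at ho'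
    have hle : s.card ≤ (o ∩ o').card := Finset.card_le_card (Finset.subset_inter hs ho'.2)
    simp only [Finset.mem_insert, Finset.mem_singleton]
    rcases octads_inter ho ho'.1 with h | h | h | h
    · right; right
      rw [← h, Finset.inter_self, octads_card ho]
    · omega
    · left; exact h
    · right; left; exact h
  have hsum := Finset.card_eq_sum_card_fiberwise hmaps
  rw [card_octsThrough_two s h2] at hsum
  -- the fibre over 8
  have hf8 : ((octsThrough s).filter (fun o' => (o ∩ o').card = 8)).card = 1 := by
    have : (octsThrough s).filter (fun o' => (o ∩ o').card = 8) = {o} := by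
      ext o'
      simp only [Finset.mem_filter, mem_octsThrough, Finset.mem_singleton]
      constructor
      · rintro ⟨⟨ho', _⟩, h8⟩
        rcases octads_inter ho ho' with h | h | h | h
        · exact h.symm
        all_goals omega
      · rintro rfl
        exact ⟨⟨ho, hs⟩, by rw [Finset.inter_self, octads_card ho]⟩
    rw [this, Finset.card_singleton]
  -- the fibre over 2
  have hf2 : (octsThrough s).filter (fun o' => (o ∩ o').card = 2) =
      octF.filter (fun o' => o ∩ o' = s) := by
    ext o'
    simp only [Finset.mem_filter, mem_octsThrough, mem_octF]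
    constructor
    · rintro ⟨⟨ho', hso'⟩, hc⟩
      exact ⟨ho', (Finset.eq_of_subset_of_card_le (Finset.subset_inter hs hso')
        (by rw [hc, h2])).symm⟩
    · rintro ⟨ho', hi⟩
      refine ⟨⟨ho', ?_⟩, by rw [hi, h2]⟩
      rw [← hi]; exact Finset.inter_subset_right
  -- the fibre over 4
  have hf4 : ((octsThrough s).filter (fun o' => (o ∩ o').card = 4)).card = 15 * 4 := by
    have hm : ∀ o' ∈ (octsThrough s).filter (fun o' => (o ∩ o').card = 4),
        o ∩ o' ∈ (Finset.powersetCard 4 o).filter (fun u => s ⊆ u) := by
      intro o' ho'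
      simp only [Finset.mem_filter, mem_octsThrough] at ho'
      simp only [Finset.mem_filter, Finset.mem_powersetCard]
      exact ⟨⟨Finset.inter_subset_left, ho'.2⟩, Finset.subset_inter hs ho'.1.2⟩
    have hfib : ∀ u ∈ (Finset.powersetCard 4 o).filter (fun u => s ⊆ u),
        (((octsThrough s).filter (fun o' => (o ∩ o').card = 4)).filter
          (fun o' => o ∩ o' = u)).card = 4 := by
      intro u hu
      simp only [Finset.mem_filter, Finset.mem_powersetCard] at hu
      have : ((octsThrough s).filter (fun o' => (o ∩ o').card = 4)).filter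
          (fun o' => o ∩ o' = u) = octF.filter (fun o' => o ∩ o' = u) := by
        ext o'
        simp only [Finset.mem_filter, mem_octsThrough, mem_octF]
        constructor
        · rintro ⟨⟨⟨ho', _⟩, _⟩, hi⟩
          exact ⟨ho', hi⟩
        · rintro ⟨ho', hi⟩
          refine ⟨⟨⟨ho', ?_⟩, by rw [hi, hu.1.2]⟩, hi⟩
          exact hu.2.trans (by rw [← hi]; exact Finset.inter_subset_right)
      rw [this]
      exact card_inter_eq_four o ho u hu.1.1 hu.1.2
    have h := fiber_count _ _ (fun o' => o ∩ o') 4 hm hfib
    rw [h, card_powersetCard_filter_subset o s hs 4 (by omega), octads_card ho, h2]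
    rfl
  have h248 : (2 : ℕ) ∉ ({4, 8} : Finset ℕ) := by decide
  have h48 : (4 : ℕ) ∉ ({8} : Finset ℕ) := by decide
  rw [Finset.sum_insert h248, Finset.sum_insert h48, Finset.sum_singleton, hf8, hf4, hf2] at hsum
  generalize (octF.filter (fun o' => o ∩ o' = s)).card = x at hsum ⊢
  omega

end Cfsg.Agent.Helper26
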