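import Cfsg.Agent.Helper26.HSTrans

/-!
# A fixed-point-free involution of the Higman–Sims group on its 100 points

`invW` is a word fixing `V = Spor.leechV` and `U' = Spor.leechU'` whose element of `Co0` is an
involution moving each of the 100 points of the standard Higman–Sims configuration
(`hs_invol` transports this to every such configuration).
-/

set_option autoImplicit false
set_option maxRecDepth 1000000

namespace Cfsg.Agent.Helper26

open Cfsg

theorem cond_move (c a n : ℕ)
    (h : cond (Nat.beq c 1) (not (Nat.beq a n)) true = true) (hc : c = 1) : a ≠ n := by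
  subst hc
  intro e
  subst e
  simp at h

/-- a word of the joint stabiliser of `V` and `U'`. -/
noncomputable def invW : List Ltr := [Ltr.mono 92 16 76 72 36 44 88 68 80 48 12 28 56 64 8 40 60 52 32 20 24 0 4 84 74567753201795877038520733455 4971183546786391802568048897 11437653, Ltr.xi, Ltr.mono 80 68 36 16 88 12 40 72 24 92 48 84 20 60 4 56 28 64 0 52 32 76 44 8 19267549249314982676401920 1284503283287665511760128 1675812, Ltr.xi, Ltr.mono 0 48 68 76 52 60 80 36 32 88 56 8 20 44 24 92 12 84 16 28 72 40 4 64 78918748341088917357267579120 5261249889405927823817838608 12871690]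

theorem invW_ok : wordOK invW = true := by decide +kernel

theorem invW_ok2 : wordOK (invW ++ invW) = true := by decide +kernel

theorem invW_V : actW invW pvHV = pvHV := by decide +kernel

theorem invW_U : actW invW pvHU = pvHU := by decide +kernel

theorem invW_sq : ∀ q : GolayPt, q ≠ none →
    actW (invW ++ invW) (pk ((Cfsg.Agent.Helper92.P none q : leechLattice) : GolayPt → ℤ)) =
      pk ((Cfsg.Agent.Helper92.P none q : leechLattice) : GolayPt → ℤ) := by decide +kernel

/-- the test: a packed vector of class `1` is moved by `invW`. -/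
noncomputable def fpP (n : ℕ) : Bool :=
  cond (Nat.beq (clsH n) 1) (not (Nat.beq (actW invW n) n)) true

theorem fpA : blockA (fun _ => fpP) 0 = true := by decide +kernel

theorem fpB : segB (fun _ => fpP) octL = true := by decide +kernel

theorem fpC : allBelowR (fun k => blockC (fun _ => fpP) k 0) 4096 = true := by decide +kernel

/-- the involution in the standard configuration. -/
theorem invol_std : ∃ g : Co0, g • Spor.leechV = Spor.leechV ∧ g • Spor.leechU' = Spor.leechU' ∧
    g * g = 1 ∧ ∀ z : leechLattice, sqNorm (z : GolayPt → ℤ) = 32 →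
      clsH (pk (z : GolayPt → ℤ)) = 1 → g • z ≠ z := by
  have hV : semW invW • Spor.leechV = Spor.leechV :=
    word_maps invW invW_ok _ _ (by rw [sqNorm_leechV48]; norm_num)
      (by rw [sqNorm_leechV48]; norm_num) (by rw [pk_HV]; exact invW_V)
  have hU : semW invW • Spor.leechU' = Spor.leechU' :=
    word_maps invW invW_ok _ _ (by rw [sqNorm_leechU'32]; norm_num)
      (by rw [sqNorm_leechU'32]; norm_num) (by rw [pk_HU]; exact invW_U)
  refine ⟨semW invW, hV, hU, ?_, ?_⟩
  · apply eq_one_of_fix
    · intro q hq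
      have hn : sqNorm ((Cfsg.Agent.Helper92.P none q : leechLattice) : GolayPt → ℤ) < 64 := by
        rw [Cfsg.Agent.Helper92.sqNorm_P_of_ne (Ne.symm hq)]; norm_num
      rw [← semW_append]
      exact word_maps (invW ++ invW) invW_ok2 _ _ hn hn (invW_sq q hq)
    · rw [mul_smul, hU, hU]
  · intro z hn hc hz
    have h := minAll0 fpP fpA fpB fpC (z : GolayPt → ℤ) z.2 hn
    have hs := actW_sound invW invW_ok z (by rw [hn]; norm_num)
    rw [hz] at hs
    exact cond_move (clsH (pk (z : GolayPt → ℤ))) (actW invW (pk (z : GolayPt → ℤ)))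
      (pk (z : GolayPt → ℤ)) h hc hs.symm

/-- **A fixed-point-free involution of the Higman–Sims group on its 100 points.** -/
theorem hs_invol (v w : leechLattice) (hv : sqNorm (v : GolayPt → ℤ) = 48)
    (hw : sqNorm (w : GolayPt → ℤ) = 48)
    (hvw : dotInt (v : GolayPt → ℤ) (w : GolayPt → ℤ) = -32) :
    ∃ g : Co0, g • v = v ∧ g • w = w ∧ orderOf g = 2 ∧
      ∀ x ∈ {x : leechLattice | sqNorm (x : GolayPt → ℤ) = 32 ∧
        dotInt (v : GolayPt → ℤ) (x : GolayPt → ℤ) = 24 ∧
        dotInt (w : GolayPt → ℤ) (x : GolayPt → ℤ) = -24}, g • x ≠ x := by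
  obtain ⟨k, h1, h2⟩ := pair48 v w hv hw hvw
  obtain ⟨g, a, b, hsq, hfp⟩ := invol_std
  have key : ∀ x : leechLattice, (sqNorm (x : GolayPt → ℤ) = 32 ∧
      dotInt (v : GolayPt → ℤ) (x : GolayPt → ℤ) = 24 ∧
      dotInt (w : GolayPt → ℤ) (x : GolayPt → ℤ) = -24) ↔
      (sqNorm ((k • x : leechLattice) : GolayPt → ℤ) = 32 ∧
        clsH (pk ((k • x : leechLattice) : GolayPt → ℤ)) = 1) := by
    intro x
    rw [← hs100_iff, co0_norm, dot_map k v _ h1, dot_map k w _ h2]
  have hmove : ∀ x : leechLattice, (sqNorm (x : GolayPt → ℤ) = 32 ∧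
      dotInt (v : GolayPt → ℤ) (x : GolayPt → ℤ) = 24 ∧
      dotInt (w : GolayPt → ℤ) (x : GolayPt → ℤ) = -24) → (k⁻¹ * g * k) • x ≠ x := by
    intro x hx hfix
    have hx' := (key x).1 hx
    apply hfp (k • x) hx'.1 hx'.2
    rw [mul_smul, mul_smul] at hfix
    have := congrArg (fun y => k • y) hfix
    simpa using this
  have hsq' : (k⁻¹ * g * k) * (k⁻¹ * g * k) = 1 := by
    have e : (k⁻¹ * g * k) * (k⁻¹ * g * k) = k⁻¹ * (g * g) * k := by group
    rw [e, hsq]
    group
  refine ⟨k⁻¹ * g * k, conj_fix k g v (by rw [h1]; exact a),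
    conj_fix k g w (by rw [h2]; exact fix_W0 g a b), ?_, fun x hx => hmove x hx⟩
  have hne : k⁻¹ * g * k ≠ 1 := by
    intro h1'
    have hx0 : sqNorm ((k⁻¹ • (-Spor.leechU) : leechLattice) : GolayPt → ℤ) = 32 ∧
        dotInt (v : GolayPt → ℤ) ((k⁻¹ • (-Spor.leechU) : leechLattice) : GolayPt → ℤ) = 24 ∧
        dotInt (w : GolayPt → ℤ) ((k⁻¹ • (-Spor.leechU) : leechLattice) : GolayPt → ℤ) = -24 := by
      rw [key, smul_inv_smul]
      exact ⟨sqNorm_negU, clsH_negU⟩
    apply hmove _ hx0
    rw [h1', one_smul]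
  exact orderOf_eq_prime (by rw [pow_two]; exact hsq') hne

end Cfsg.Agent.Helper26
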