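import Cfsg.Agent.Helper26.HSTrans

/-!
# The rank 3 action of the Higman–Sims group on its 100 points

`hs_rank3`: in the Higman–Sims configuration the stabiliser of a point `x` has the orbits
of sizes `22` and `77` on the other points, distinguished by the inner product with `x`.
-/

set_option autoImplicit false

namespace Cfsg.Agent.Helper26

open Cfsg

/-- a triple `(v, w, x)` of the Higman–Sims configuration is conjugate to
`(V, -U' - V, -U)`. -/
theorem hs_triple (v w x : leechLattice) (hv : sqNorm (v : GolayPt → ℤ) = 48)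
    (hw : sqNorm (w : GolayPt → ℤ) = 48)
    (hvw : dotInt (v : GolayPt → ℤ) (w : GolayPt → ℤ) = -32)
    (hx : sqNorm (x : GolayPt → ℤ) = 32 ∧
      dotInt (v : GolayPt → ℤ) (x : GolayPt → ℤ) = 24 ∧
      dotInt (w : GolayPt → ℤ) (x : GolayPt → ℤ) = -24) :
    ∃ g : Co0, g • v = Spor.leechV ∧ g • w = -Spor.leechU' - Spor.leechV ∧
      g • x = -Spor.leechU := by
  obtain ⟨g, h1, h2⟩ := pair48 v w hv hw hvw
  have hx' : sqNorm ((g • x : leechLattice) : GolayPt → ℤ) = 32 ∧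
      clsH (pk ((g • x : leechLattice) : GolayPt → ℤ)) = 1 := by
    rw [← hs100_iff, co0_norm, dot_map g v _ h1, dot_map g w _ h2]
    exact hx
  obtain ⟨h, a, b, c⟩ := hs_trans 0 (g • x) (-Spor.leechU) hx'.1 sqNorm_negU hx'.2 clsH_negU
  exact ⟨h * g, by rw [mul_smul, h1, a], by rw [mul_smul, h2, fix_W0 h a b],
    by rw [mul_smul, c]⟩

theorem dot_U_negU : dotInt (Spor.leechU : GolayPt → ℤ)
    ((-Spor.leechU : leechLattice) : GolayPt → ℤ) = -32 := by decide +kernel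

/-- the classes of the points of the standard Higman–Sims configuration. -/
theorem m22_cases (z : leechLattice) (hn : sqNorm (z : GolayPt → ℤ) = 32)
    (hV : dotInt (Spor.leechV : GolayPt → ℤ) (z : GolayPt → ℤ) = 24)
    (hU' : dotInt (Spor.leechU' : GolayPt → ℤ) (z : GolayPt → ℤ) = 0) :
    (clsM (pk (z : GolayPt → ℤ)) = 1 ∧
      dotInt (Spor.leechU : GolayPt → ℤ) (z : GolayPt → ℤ) = -16) ∨
    (clsM (pk (z : GolayPt → ℤ)) = 2 ∧
      dotInt (Spor.leechU : GolayPt → ℤ) (z : GolayPt → ℤ) = -8) ∨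
    z = -Spor.leechU := by
  have h := clsM_spec _ z.2 hn
  rw [if_pos hV, if_pos hU'] at h
  by_cases h1 : dotInt (Spor.leechU : GolayPt → ℤ) (z : GolayPt → ℤ) = -16
  · left
    rw [if_pos h1] at h
    exact ⟨h, h1⟩
  · rw [if_neg h1] at h
    by_cases h2 : dotInt (Spor.leechU : GolayPt → ℤ) (z : GolayPt → ℤ) = -8
    · right; left
      rw [if_pos h2] at h
      exact ⟨h, h2⟩
    · right; right
      rw [if_neg h2] at h
      exact m22_catch3 z hn h

theorem m22_of_cls (z : leechLattice) (hn : sqNorm (z : GolayPt → ℤ) = 32) (c : ℕ)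
    (hc : clsM (pk (z : GolayPt → ℤ)) = c) (h12 : c = 1 ∨ c = 2) :
    dotInt (Spor.leechV : GolayPt → ℤ) (z : GolayPt → ℤ) = 24 ∧
    dotInt (Spor.leechU' : GolayPt → ℤ) (z : GolayPt → ℤ) = 0 ∧
    dotInt (Spor.leechU : GolayPt → ℤ) (z : GolayPt → ℤ) = 8 * (c : ℤ) - 24 := by
  rw [clsM_spec _ z.2 hn] at hc
  split_ifs at hc <;> omega

/-- **The rank 3 action of the Higman–Sims group on 100 points.** -/
theorem hs_rank3 (v w x : leechLattice) (hv : sqNorm (v : GolayPt → ℤ) = 48)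
    (hw : sqNorm (w : GolayPt → ℤ) = 48)
    (hvw : dotInt (v : GolayPt → ℤ) (w : GolayPt → ℤ) = -32)
    (hx : x ∈ {x : leechLattice | sqNorm (x : GolayPt → ℤ) = 32 ∧
      dotInt (v : GolayPt → ℤ) (x : GolayPt → ℤ) = 24 ∧
      dotInt (w : GolayPt → ℤ) (x : GolayPt → ℤ) = -24}) :
    {y : leechLattice | y ∈ {x : leechLattice | sqNorm (x : GolayPt → ℤ) = 32 ∧
      dotInt (v : GolayPt → ℤ) (x : GolayPt → ℤ) = 24 ∧
      dotInt (w : GolayPt → ℤ) (x : GolayPt → ℤ) = -24} ∧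
      dotInt (x : GolayPt → ℤ) (y : GolayPt → ℤ) = 8}.ncard = 22 ∧
    {y : leechLattice | y ∈ {x : leechLattice | sqNorm (x : GolayPt → ℤ) = 32 ∧
      dotInt (v : GolayPt → ℤ) (x : GolayPt → ℤ) = 24 ∧
      dotInt (w : GolayPt → ℤ) (x : GolayPt → ℤ) = -24} ∧ y ≠ x ∧
      dotInt (x : GolayPt → ℤ) (y : GolayPt → ℤ) ≠ 8}.ncard = 77 ∧
    ∀ y ∈ {x : leechLattice | sqNorm (x : GolayPt → ℤ) = 32 ∧
      dotInt (v : GolayPt → ℤ) (x : GolayPt → ℤ) = 24 ∧
      dotInt (w : GolayPt → ℤ) (x : GolayPt → ℤ) = -24},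
    ∀ y' ∈ {x : leechLattice | sqNorm (x : GolayPt → ℤ) = 32 ∧
      dotInt (v : GolayPt → ℤ) (x : GolayPt → ℤ) = 24 ∧
      dotInt (w : GolayPt → ℤ) (x : GolayPt → ℤ) = -24},
    y ≠ x → y' ≠ x →
    (dotInt (x : GolayPt → ℤ) (y : GolayPt → ℤ) = 8 ↔
      dotInt (x : GolayPt → ℤ) (y' : GolayPt → ℤ) = 8) →
    ∃ g : Co0, g • v = v ∧ g • w = w ∧ g • x = x ∧ g • y = y' := by
  obtain ⟨g, h1, h2, h3⟩ := hs_triple v w x hv hw hvw hx
  -- membership in the configuration, transported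
  have memS : ∀ y : leechLattice, (sqNorm (y : GolayPt → ℤ) = 32 ∧
      dotInt (v : GolayPt → ℤ) (y : GolayPt → ℤ) = 24 ∧
      dotInt (w : GolayPt → ℤ) (y : GolayPt → ℤ) = -24) ↔
      (sqNorm ((g • y : leechLattice) : GolayPt → ℤ) = 32 ∧
        dotInt (Spor.leechV : GolayPt → ℤ) ((g • y : leechLattice) : GolayPt → ℤ) = 24 ∧
        dotInt (Spor.leechU' : GolayPt → ℤ) ((g • y : leechLattice) : GolayPt → ℤ) = 0) := by
    intro y
    rw [← dot_map g v _ h1 y, ← dot_map g w _ h2 y, dot_W0, co0_norm]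
    constructor
    · rintro ⟨a, b, c⟩
      exact ⟨a, b, by omega⟩
    · rintro ⟨a, b, c⟩
      exact ⟨a, b, by omega⟩
  have dotx : ∀ y : leechLattice, dotInt (x : GolayPt → ℤ) (y : GolayPt → ℤ) =
      -dotInt (Spor.leechU : GolayPt → ℤ) ((g • y : leechLattice) : GolayPt → ℤ) := by
    intro y
    rw [← dot_negU, dot_map g x _ h3 y]
  have neq : ∀ y : leechLattice, y ≠ x ↔ g • y ≠ -Spor.leechU := by
    intro y
    rw [← h3]
    exact (MulAction.injective g).ne_iff.symm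
  have keyA : ∀ y : leechLattice, ((sqNorm (y : GolayPt → ℤ) = 32 ∧
      dotInt (v : GolayPt → ℤ) (y : GolayPt → ℤ) = 24 ∧
      dotInt (w : GolayPt → ℤ) (y : GolayPt → ℤ) = -24) ∧
      dotInt (x : GolayPt → ℤ) (y : GolayPt → ℤ) = 8) ↔
      (sqNorm ((g • y : leechLattice) : GolayPt → ℤ) = 32 ∧
        clsM (pk ((g • y : leechLattice) : GolayPt → ℤ)) = 2) := by
    intro y
    rw [memS, dotx]
    constructor
    · rintro ⟨⟨a, b, c⟩, d⟩
      refine ⟨a, ?_⟩
      rcases m22_cases (g • y) a b c with h | h | h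
      · omega
      · exact h.1
      · rw [h, dot_U_negU] at d
        omega
    · rintro ⟨a, b⟩
      have := m22_of_cls (g • y) a 2 b (Or.inr rfl)
      exact ⟨⟨a, this.1, this.2.1⟩, by omega⟩
  have keyB : ∀ y : leechLattice, ((sqNorm (y : GolayPt → ℤ) = 32 ∧
      dotInt (v : GolayPt → ℤ) (y : GolayPt → ℤ) = 24 ∧
      dotInt (w : GolayPt → ℤ) (y : GolayPt → ℤ) = -24) ∧ y ≠ x ∧
      dotInt (x : GolayPt → ℤ) (y : GolayPt → ℤ) ≠ 8) ↔
      (sqNorm ((g • y : leechLattice) : GolayPt → ℤ) = 32 ∧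
        clsM (pk ((g • y : leechLattice) : GolayPt → ℤ)) = 1) := by
    intro y
    rw [memS, dotx, neq]
    constructor
    · rintro ⟨⟨a, b, c⟩, d, e⟩
      refine ⟨a, ?_⟩
      rcases m22_cases (g • y) a b c with h | h | h
      · exact h.1
      · omega
      · exact absurd h d
    · rintro ⟨a, b⟩
      have := m22_of_cls (g • y) a 1 b (Or.inl rfl)
      refine ⟨⟨a, this.1, this.2.1⟩, ?_, by omega⟩
      intro hy
      rw [hy, clsM_negU] at b
      omega
  refine ⟨?_, ?_, ?_⟩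
  · exact (ncard_smul g _ _ keyA).trans (ncard_cls clsM 2 22 cnt_M2)
  · exact (ncard_smul g _ _ keyB).trans (ncard_cls clsM 1 77 cnt_M1)
  · intro y hy y' hy' hne hne' hiff
    have my := (memS y).1 hy
    have my' := (memS y').1 hy'
    rw [dotx, dotx] at hiff
    have hc : ∃ c, clsM (pk ((g • y : leechLattice) : GolayPt → ℤ)) = c + 1 ∧
        clsM (pk ((g • y' : leechLattice) : GolayPt → ℤ)) = c + 1 := by
      rcases m22_cases (g • y) my.1 my.2.1 my.2.2 with h | h | h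
      · rcases m22_cases (g • y') my'.1 my'.2.1 my'.2.2 with h' | h' | h'
        · exact ⟨0, h.1, h'.1⟩
        · omega
        · exact absurd h' ((neq y').1 hne')
      · rcases m22_cases (g • y') my'.1 my'.2.1 my'.2.2 with h' | h' | h'
        · omega
        · exact ⟨1, h.1, h'.1⟩
        · exact absurd h' ((neq y').1 hne')
      · exact absurd h ((neq y).1 hne)
    obtain ⟨c, hc1, hc2⟩ := hc
    obtain ⟨k, a, b, d, e⟩ := m22_trans c (g • y) (g • y') my.1 my'.1 hc1 hc2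
    exact ⟨g⁻¹ * k * g, conj_fix g k v (by rw [h1]; exact a),
      conj_fix g k w (by rw [h2]; exact fix_W0 k a b),
      conj_fix g k x (by rw [h3, co0_neg, d]), conj_map g k y y' e⟩

end Cfsg.Agent.Helper26
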