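import Cfsg.Agent.Helper92.LeechCross
import Cfsg.Agent.Helper26.LeechMin

/-!
# Orthogonal pairs of minimal vectors

* `exists_smul_eq_single8`: every lattice vector of squared length 64 is carried to `(8, 0^23)`
  by an automorphism.
* `orth_decomp`: two minimal vectors with sum `(8, 0^23)` are `(4, ±4, 0^22)` and `(4, ∓4, 0^22)`.
* `orth_normal`: an orthogonal pair of minimal vectors is carried by an automorphism to the pair
  `(4, 4, 0^22)`, `(4, -4, 0^22)`; hence the automorphism group is transitive on ordered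
  orthogonal pairs of minimal vectors (`orth_trans`).
-/

set_option autoImplicit false

namespace Cfsg.Agent.Helper26

open Cfsg

/-- every vector of squared length 64 is carried to `(8, 0^23)` by an automorphism -/
theorem exists_smul_eq_single8 (u : leechLattice) (hu : sqNorm (u : GolayPt → ℤ) = 64) :
    ∃ g : Co0, ((g • u : leechLattice) : GolayPt → ℤ) = Pi.single none 8 := by
  obtain ⟨g, z, hz⟩ := Helper92.orb_U4_of_norm u hu
  have hy : sqNorm ((g • u : leechLattice) : GolayPt → ℤ) = 64 := by
    rw [Helper92.co0_sqNorm, hu]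
  have hU4 : ((Helper92.U4 : leechLattice) : GolayPt → ℤ) = Pi.single none 8 :=
    Helper92.P_diag_val none
  have hz' : ((g • u : leechLattice) : GolayPt → ℤ) =
      (Pi.single none 8 : GolayPt → ℤ) + ((z : GolayPt → ℤ) + (z : GolayPt → ℤ)) := by
    rw [← hU4, hz]; rfl
  have hd : (Pi.single none 8 : GolayPt → ℤ) - ((g • u : leechLattice) : GolayPt → ℤ) =
      (2 : ℤ) • ((-z : leechLattice) : GolayPt → ℤ) := by
    rw [hz', two_smul]
    show _ = -(z : GolayPt → ℤ) + -(z : GolayPt → ℤ)
    abel
  obtain ⟨i, s, hs, hi⟩ :=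
    Helper92.mem_stdCross_of_cong (g • u).2 (-z).2 none 8 (Or.inl rfl) hy hd
  obtain ⟨σ, hσ, hσi⟩ := Helper7.m24_trans1 i none
  rcases hs with rfl | rfl
  · refine ⟨Helper92.permAut σ hσ * g, ?_⟩
    rw [mul_smul, Helper92.permAut_smul]
    show Helper92.permFun σ ((g • u : leechLattice) : GolayPt → ℤ) = _
    rw [hi, Helper92.permFun_single, hσi]
  · refine ⟨Helper92.negAut * (Helper92.permAut σ hσ * g), ?_⟩
    rw [mul_smul, Helper92.negAut_smul, mul_smul]
    show -(Helper92.permFun σ ((g • u : leechLattice) : GolayPt → ℤ)) = _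
    rw [hi, Helper92.permFun_single, hσi, ← Pi.single_neg]
    norm_num

/-- a lattice vector with an odd coordinate has all coordinates odd -/
theorem sq_add_le_of_odd {x : GolayPt → ℤ} (hx : x ∈ leechLattice) (j : GolayPt)
    (hj : x j % 2 = 1) : x j ^ 2 + 23 ≤ sqNorm x := by
  obtain ⟨m, h1, -, -⟩ := (Helper92.mem_leechLattice_iff x).1 hx
  have hm : m % 2 = 1 := by
    have := h1 j
    unfold Int.ModEq at this
    omega
  have hodd : ∀ i, 1 ≤ x i ^ 2 := by
    intro i
    have h2 := h1 i
    unfold Int.ModEq at h2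
    have h' : x i ≤ -1 ∨ 1 ≤ x i := by omega
    rcases h' with h | h <;> nlinarith
  have hsplit : sqNorm x = x j ^ 2 + ∑ i ∈ Finset.univ.erase j, x i ^ 2 :=
    (Finset.add_sum_erase _ _ (Finset.mem_univ j)).symm
  have h23 : (23 : ℤ) ≤ ∑ i ∈ Finset.univ.erase j, x i ^ 2 := by
    have := Finset.sum_le_sum (s := Finset.univ.erase j) (f := fun _ => (1 : ℤ))
      (g := fun i => x i ^ 2) (fun i _ => hodd i)
    rw [Finset.sum_const, Finset.card_erase_of_mem (Finset.mem_univ j), Finset.card_univ,
      card_golayPt] at this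
    simpa using this
  linarith

/-- two minimal vectors with sum `(8, 0^23)` -/
theorem orth_decomp {v w : GolayPt → ℤ} (hv : v ∈ leechLattice) (hw : w ∈ leechLattice)
    (hvn : sqNorm v = 32) (hwn : sqNorm w = 32) (hsum : v + w = Pi.single none 8) :
    ∃ j : GolayPt, j ≠ none ∧ ∃ s : ℤ, (s = 4 ∨ s = -4) ∧
      v = Pi.single none 4 + Pi.single j s ∧ w = Pi.single none 4 - Pi.single j s := by
  have h0 : v none + w none = 8 := by
    have := congrFun hsum none
    simpa using this
  have hrest : ∀ i, i ≠ none → w i = - v i := by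
    intro i hi
    have := congrFun hsum i
    simp only [Pi.add_apply, Pi.single_apply, if_neg hi] at this
    linarith
  have hv5 : v none ^ 2 ≤ 32 := hvn ▸ sq_le_sqNorm v none
  have hw5 : w none ^ 2 ≤ 32 := hwn ▸ sq_le_sqNorm w none
  have hvle : v none ≤ 5 := by nlinarith
  have hwle : w none ≤ 5 := by nlinarith
  have hv4 : v none = 4 := by
    have hvo : ¬ (v none % 2 = 1) := by
      intro ho
      have h1 := sq_add_le_of_odd hv none ho
      have h2 : w none % 2 = 1 := by omega
      have h3 := sq_add_le_of_odd hw none h2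
      rw [hvn] at h1
      rw [hwn] at h3
      have h4 : v none ≤ 3 := by nlinarith
      have h5 : w none ≤ 3 := by nlinarith
      omega
    omega
  have hw4 : w none = 4 := by omega
  have hmod := Helper92.four_dvd_of_min hv hvn none (by rw [hv4]; norm_num) (by rw [hv4]; norm_num)
  have hsplit : sqNorm v = v none ^ 2 + ∑ i ∈ Finset.univ.erase none, v i ^ 2 :=
    (Finset.add_sum_erase _ _ (Finset.mem_univ none)).symm
  have h16 : ∑ i ∈ Finset.univ.erase (none : GolayPt), v i ^ 2 = 16 := by
    rw [hvn, hv4] at hsplit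
    linarith
  obtain ⟨j, hjm, hj0⟩ : ∃ j ∈ Finset.univ.erase (none : GolayPt), v j ≠ 0 := by
    by_contra hcon
    push Not at hcon
    have : ∑ i ∈ Finset.univ.erase (none : GolayPt), v i ^ 2 = 0 :=
      Finset.sum_eq_zero (fun i hi => by rw [hcon i hi]; norm_num)
    omega
  have hjn : j ≠ none := Finset.ne_of_mem_erase hjm
  have hj16 := Helper92.sixteen_le_sq (v j) (hmod j) hj0
  have hsplit2 := Finset.add_sum_erase (Finset.univ.erase (none : GolayPt)) (fun i => v i ^ 2) hjm
  have hnn : 0 ≤ ∑ i ∈ (Finset.univ.erase (none : GolayPt)).erase j, v i ^ 2 :=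
    Finset.sum_nonneg (fun i _ => sq_nonneg _)
  have hz : ∑ i ∈ (Finset.univ.erase (none : GolayPt)).erase j, v i ^ 2 = 0 := by linarith
  have hsq : v j ^ 2 = 16 := by linarith
  have hother : ∀ i, i ≠ none → i ≠ j → v i = 0 := by
    intro i hi hij
    have := (Finset.sum_eq_zero_iff_of_nonneg (fun i _ => sq_nonneg (v i))).1 hz i
      (Finset.mem_erase.2 ⟨hij, Finset.mem_erase.2 ⟨hi, Finset.mem_univ _⟩⟩)
    exact (pow_eq_zero_iff two_ne_zero).1 this
  have hv' : ∀ k, v k = (Pi.single none 4 + Pi.single j (v j) : GolayPt → ℤ) k := by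
    intro k
    rw [Pi.add_apply, Pi.single_apply, Pi.single_apply]
    by_cases hk : k = none
    · rw [if_pos hk, if_neg (fun h : k = j => hjn (h.symm.trans hk)), hk, hv4]; norm_num
    · rw [if_neg hk]
      by_cases hkj : k = j
      · rw [if_pos hkj, hkj]; norm_num
      · rw [if_neg hkj, hother k hk hkj]; norm_num
  refine ⟨j, hjn, v j, sq_eq_sixteen hsq, funext hv', ?_⟩
  funext k
  rw [Pi.sub_apply, Pi.single_apply, Pi.single_apply]
  by_cases hk : k = none
  · rw [if_pos hk, if_neg (fun h : k = j => hjn (h.symm.trans hk)), hk, hw4]; norm_num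
  · rw [if_neg hk, hrest k hk]
    by_cases hkj : k = j
    · rw [if_pos hkj, hkj]; norm_num
    · rw [if_neg hkj, hother k hk hkj]; norm_num

/-- an orthogonal pair of minimal vectors is carried to `(4, 4, 0^22)`, `(4, -4, 0^22)` -/
theorem orth_normal (v w : leechLattice) (hv : sqNorm (v : GolayPt → ℤ) = 32)
    (hw : sqNorm (w : GolayPt → ℤ) = 32)
    (hd : dotInt (v : GolayPt → ℤ) (w : GolayPt → ℤ) = 0) :
    ∃ g : Co0,
      ((g • v : leechLattice) : GolayPt → ℤ) = Pi.single none 4 + Pi.single (some 0) 4 ∧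
      ((g • w : leechLattice) : GolayPt → ℤ) = Pi.single none 4 - Pi.single (some 0) 4 := by
  have hu : sqNorm ((v + w : leechLattice) : GolayPt → ℤ) = 64 := by
    show sqNorm ((v : GolayPt → ℤ) + (w : GolayPt → ℤ)) = 64
    rw [Helper92.sqNorm_add, hv, hw, hd]; norm_num
  obtain ⟨g, hg⟩ := exists_smul_eq_single8 (v + w) hu
  have hsum : ((g • v : leechLattice) : GolayPt → ℤ) + ((g • w : leechLattice) : GolayPt → ℤ) =
      Pi.single none 8 := by
    rw [← hg, Helper92.co0_add]; rfl
  obtain ⟨j, hj, s, hs, h1, h2⟩ := orth_decomp (g • v).2 (g • w).2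
    (by rw [Helper92.co0_sqNorm, hv]) (by rw [Helper92.co0_sqNorm, hw]) hsum
  obtain ⟨σ, hσ, hσ1, hσ2⟩ := Helper7.m24_trans2 (p := none) (q := j) (p' := none)
    (q' := some 0) (Ne.symm hj) (by decide)
  have e1 : ((Helper92.permAut σ hσ • (g • v) : leechLattice) : GolayPt → ℤ) =
      Pi.single none 4 + Pi.single (some 0) s := by
    rw [Helper92.permAut_smul]
    show Helper92.permFun σ ((g • v : leechLattice) : GolayPt → ℤ) = _
    rw [h1, Helper92.permFun_add, Helper92.permFun_single, Helper92.permFun_single, hσ1, hσ2]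
  have e2 : ((Helper92.permAut σ hσ • (g • w) : leechLattice) : GolayPt → ℤ) =
      Pi.single none 4 - Pi.single (some 0) s := by
    rw [Helper92.permAut_smul]
    show Helper92.permFun σ ((g • w : leechLattice) : GolayPt → ℤ) = _
    rw [h2, sub_eq_add_neg, ← Pi.single_neg, Helper92.permFun_add, Helper92.permFun_single,
      Helper92.permFun_single, hσ1, hσ2, Pi.single_neg, ← sub_eq_add_neg]
  rcases hs with rfl | rfl
  · exact ⟨Helper92.permAut σ hσ * g, by rw [mul_smul]; exact e1, by rw [mul_smul]; exact e2⟩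
  · obtain ⟨C, hC, hC0, hCn⟩ := Helper92.exists_sep none (some 0) (by decide)
    refine ⟨Helper92.signAut C hC * (Helper92.permAut σ hσ * g), ?_, ?_⟩
    · rw [mul_smul, mul_smul, Helper92.signAut_smul]
      show Helper92.signFun C ((Helper92.permAut σ hσ • (g • v) : leechLattice) : GolayPt → ℤ) = _
      rw [e1]
      funext k
      rw [Helper92.signFun_apply]
      by_cases hk : k = none
      · subst hk
        rw [if_neg hCn]
        simp
      · by_cases hk0 : k = some 0
        · subst hk0
          rw [if_pos hC0]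
          simp
        · simp [hk, hk0]
    · rw [mul_smul, mul_smul, Helper92.signAut_smul]
      show Helper92.signFun C ((Helper92.permAut σ hσ • (g • w) : leechLattice) : GolayPt → ℤ) = _
      rw [e2]
      funext k
      rw [Helper92.signFun_apply]
      by_cases hk : k = none
      · subst hk
        rw [if_neg hCn]
        simp
      · by_cases hk0 : k = some 0
        · subst hk0
          rw [if_pos hC0]
          simp
        · simp [hk, hk0]

/-- the automorphism group is transitive on ordered orthogonal pairs of minimal vectors -/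
theorem orth_trans (v w v' w' : leechLattice) (hv : sqNorm (v : GolayPt → ℤ) = 32)
    (hw : sqNorm (w : GolayPt → ℤ) = 32) (hv' : sqNorm (v' : GolayPt → ℤ) = 32)
    (hw' : sqNorm (w' : GolayPt → ℤ) = 32)
    (hd : dotInt (v : GolayPt → ℤ) (w : GolayPt → ℤ) = 0)
    (hd' : dotInt (v' : GolayPt → ℤ) (w' : GolayPt → ℤ) = 0) :
    ∃ g : Co0, g • v = v' ∧ g • w = w' := by
  obtain ⟨g1, a1, b1⟩ := orth_normal v w hv hw hd
  obtain ⟨g2, a2, b2⟩ := orth_normal v' w' hv' hw' hd'
  refine ⟨g2⁻¹ * g1, ?_, ?_⟩
  · rw [mul_smul, show g1 • v = g2 • v' from Subtype.ext (a1.trans a2.symm), inv_smul_smul]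
  · rw [mul_smul, show g1 • w = g2 • w' from Subtype.ext (b1.trans b2.symm), inv_smul_smul]

end Cfsg.Agent.Helper26
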