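import Cfsg.Agent.Helper26.McLTrans

/-!
# The rank 3 action of the McLaughlin group on its 275 points

`mcl_rank3`: in the McLaughlin configuration the stabiliser of a point `x` has the orbits of
sizes `112` and `162` on the other points, distinguished by the inner product with `x`.
-/

set_option autoImplicit false

namespace Cfsg.Agent.Helper26

open Cfsg

theorem dot_X_X : dotInt (leechX : GolayPt → ℤ) (leechX : GolayPt → ℤ) = 32 := by
  rw [Cfsg.Agent.Helper92.dotInt_self, sqNorm_leechX]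

/-- the classes of the points of the standard McLaughlin configuration. -/
theorem u43_cases (z : leechLattice) (hn : sqNorm (z : GolayPt → ℤ) = 32)
    (hV : dotInt (Spor.leechV : GolayPt → ℤ) (z : GolayPt → ℤ) = 24)
    (hU : dotInt (Spor.leechU : GolayPt → ℤ) (z : GolayPt → ℤ) = -16) :
    (clsX (pk (z : GolayPt → ℤ)) = 1 ∧
      dotInt (leechX : GolayPt → ℤ) (z : GolayPt → ℤ) = 8) ∨
    (clsX (pk (z : GolayPt → ℤ)) = 2 ∧
      dotInt (leechX : GolayPt → ℤ) (z : GolayPt → ℤ) = 16) ∨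
    z = leechX := by
  have h := clsX_spec _ z.2 hn
  rw [if_pos hV, if_pos hU] at h
  by_cases h1 : dotInt (leechX : GolayPt → ℤ) (z : GolayPt → ℤ) = 8
  · left
    rw [if_pos h1] at h
    exact ⟨h, h1⟩
  · rw [if_neg h1] at h
    by_cases h2 : dotInt (leechX : GolayPt → ℤ) (z : GolayPt → ℤ) = 16
    · right; left
      rw [if_pos h2] at h
      exact ⟨h, h2⟩
    · right; right
      rw [if_neg h2] at h
      exact u43_catch z hn h

theorem u43_of_cls (z : leechLattice) (hn : sqNorm (z : GolayPt → ℤ) = 32) (c : ℕ)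
    (hc : clsX (pk (z : GolayPt → ℤ)) = c) (h12 : c = 1 ∨ c = 2) :
    dotInt (Spor.leechV : GolayPt → ℤ) (z : GolayPt → ℤ) = 24 ∧
    dotInt (Spor.leechU : GolayPt → ℤ) (z : GolayPt → ℤ) = -16 ∧
    dotInt (leechX : GolayPt → ℤ) (z : GolayPt → ℤ) = 8 * (c : ℤ) := by
  rw [clsX_spec _ z.2 hn] at hc
  split_ifs at hc <;> omega

/-- a triple `(u, v, x)` of the McLaughlin configuration is conjugate to `(V, -U, X)`. -/
theorem mcl_triple (u v x : leechLattice) (hu : sqNorm (u : GolayPt → ℤ) = 48)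
    (hv : sqNorm (v : GolayPt → ℤ) = 32 ∧ sqNorm ((u - v) : GolayPt → ℤ) = 32)
    (hx : sqNorm (x : GolayPt → ℤ) = 32 ∧ sqNorm ((u - x) : GolayPt → ℤ) = 32 ∧
      dotInt (v : GolayPt → ℤ) (x : GolayPt → ℤ) = 16) :
    ∃ g : Co0, g • u = Spor.leechV ∧ g • v = -Spor.leechU ∧ g • x = leechX := by
  obtain ⟨g, h1, h2⟩ := pairMcL u v hu hv.1 ((dot_of_sub hu hv.1).1 hv.2)
  have hn : sqNorm ((g • x : leechLattice) : GolayPt → ℤ) = 32 := by rw [co0_norm]; exact hx.1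
  have e1 : dotInt (Spor.leechV : GolayPt → ℤ) ((g • x : leechLattice) : GolayPt → ℤ) = 24 := by
    rw [dot_map g u _ h1]; exact (dot_of_sub hu hx.1).1 hx.2.1
  have e2 : dotInt (Spor.leechU : GolayPt → ℤ) ((g • x : leechLattice) : GolayPt → ℤ) = -16 := by
    have := dot_map g v _ h2 x
    rw [dot_negU] at this
    omega
  have hc : clsL (pk ((g • x : leechLattice) : GolayPt → ℤ)) = 1 := by
    rw [clsL_spec _ (g • x).2 hn, if_pos e1, if_pos e2]
  obtain ⟨h, a, b, c⟩ := mcl_trans 0 (g • x) leechX hn sqNorm_leechX hc clsL_X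
  exact ⟨h * g, by rw [mul_smul, h1, a], by rw [mul_smul, h2, co0_neg, b], by rw [mul_smul, c]⟩

/-- **The rank 3 action of the McLaughlin group on 275 points.** -/
theorem mcl_rank3 (u v x : ↥Cfsg.leechLattice) (hu : Cfsg.sqNorm (u : Cfsg.GolayPt → ℤ) = 48) (hv : Cfsg.sqNorm (v : Cfsg.GolayPt → ℤ) = 32 ∧ Cfsg.sqNorm ((u - v) : Cfsg.GolayPt → ℤ) = 32) (hx : x ∈ {x : ↥Cfsg.leechLattice | Cfsg.sqNorm (x : Cfsg.GolayPt → ℤ) = 32 ∧ Cfsg.sqNorm ((u - x) : Cfsg.GolayPt → ℤ) = 32 ∧ Cfsg.dotInt (v : Cfsg.GolayPt → ℤ) (x : Cfsg.GolayPt → ℤ) = 16}) : {y : ↥Cfsg.leechLattice | y ∈ {x : ↥Cfsg.leechLattice | Cfsg.sqNorm (x : Cfsg.GolayPt → ℤ) = 32 ∧ Cfsg.sqNorm ((u - x) : Cfsg.GolayPt → ℤ) = 32 ∧ Cfsg.dotInt (v : Cfsg.GolayPt → ℤ) (x : Cfsg.GolayPt → ℤ) = 16} ∧ Cfsg.dotInt (x : Cfsg.GolayPt → ℤ) (y : Cfsg.GolayPt → ℤ) = 8}.ncard = 112 ∧ {y : ↥Cfsg.leechLattice | y ∈ {x : ↥Cfsg.leechLattice | Cfsg.sqNorm (x :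 Cfsg.GolayPt → ℤ) = 32 ∧ Cfsg.sqNorm ((u - x) : Cfsg.GolayPt → ℤ) = 32 ∧ Cfsg.dotInt (v : Cfsg.GolayPt → ℤ) (x : Cfsg.GolayPt → ℤ) = 16} ∧ y ≠ x ∧ Cfsg.dotInt (x : Cfsg.GolayPt → ℤ) (y : Cfsg.GolayPt → ℤ) = 16}.ncard = 162 ∧ ∀ y ∈ {x : ↥Cfsg.leechLattice | Cfsg.sqNorm (x : Cfsg.GolayPt → ℤ) = 32 ∧ Cfsg.sqNorm ((u - x) : Cfsg.GolayPt → ℤ) = 32 ∧ Cfsg.dotInt (v : Cfsg.GolayPt → ℤ) (x : Cfsg.GolayPt → ℤ) = 16}, ∀ y' ∈ {x : ↥Cfsg.leechLattice | Cfsg.sqNorm (x : Cfsg.GolayPt → ℤ) = 32 ∧ Cfsg.sqNorm ((u - x) : Cfsg.GolayPt → ℤ) = 32 ∧ Cfsg.dotInt (v : Cfsg.GolayPt → ℤ) (x : Cfsg.GolayPt → ℤ) = 16}, y ≠ x → y' ≠ x → Cfsg.dotInt (x : Cfsg.GolayPt → ℤ) (y : Cfsg.GolayPt → ℤ) = Cfsg.dotInt (x : Cfsg.GolayPt → ℤ) (y' : Cfsg.GolayPt → ℤ) → ∃ g : ↥Cfsg.Co0, g • u = u ∧ g • v = v ∧ g • x = x ∧ g • y = y' := by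
  obtain ⟨g, h1, h2, h3⟩ := mcl_triple u v x hu hv hx
  have memS : ∀ y : leechLattice, (sqNorm (y : GolayPt → ℤ) = 32 ∧
      sqNorm ((u - y) : GolayPt → ℤ) = 32 ∧
      dotInt (v : GolayPt → ℤ) (y : GolayPt → ℤ) = 16) ↔
      (sqNorm ((g • y : leechLattice) : GolayPt → ℤ) = 32 ∧
        dotInt (Spor.leechV : GolayPt → ℤ) ((g • y : leechLattice) : GolayPt → ℤ) = 24 ∧
        dotInt (Spor.leechU : GolayPt → ℤ) ((g • y : leechLattice) : GolayPt → ℤ) = -16) := by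
    intro y
    have e := dot_map g v _ h2 y
    rw [dot_negU] at e
    have e1 := dot_map g u _ h1 y
    constructor
    · rintro ⟨a, b, c⟩
      have := (dot_of_sub hu a).1 b
      exact ⟨by rw [co0_norm]; exact a, by omega, by omega⟩
    · rintro ⟨a, b, c⟩
      have hn : sqNorm (y : GolayPt → ℤ) = 32 := by rw [← co0_norm g y]; exact a
      exact ⟨hn, (dot_of_sub hu hn).2 (by omega), by omega⟩
  have dotx : ∀ y : leechLattice, dotInt (x : GolayPt → ℤ) (y : GolayPt → ℤ) =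
      dotInt (leechX : GolayPt → ℤ) ((g • y : leechLattice) : GolayPt → ℤ) := by
    intro y
    rw [dot_map g x _ h3 y]
  have neq : ∀ y : leechLattice, y ≠ x ↔ g • y ≠ leechX := by
    intro y
    rw [← h3]
    exact (MulAction.injective g).ne_iff.symm
  have keyA : ∀ y : leechLattice, ((sqNorm (y : GolayPt → ℤ) = 32 ∧
      sqNorm ((u - y) : GolayPt → ℤ) = 32 ∧
      dotInt (v : GolayPt → ℤ) (y : GolayPt → ℤ) = 16) ∧
      dotInt (x : GolayPt → ℤ) (y : GolayPt → ℤ) = 8) ↔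
      (sqNorm ((g • y : leechLattice) : GolayPt → ℤ) = 32 ∧
        clsX (pk ((g • y : leechLattice) : GolayPt → ℤ)) = 1) := by
    intro y
    rw [memS, dotx]
    constructor
    · rintro ⟨⟨a, b, c⟩, d⟩
      refine ⟨a, ?_⟩
      rcases u43_cases (g • y) a b c with h | h | h
      · exact h.1
      · omega
      · rw [h, dot_X_X] at d
        omega
    · rintro ⟨a, b⟩
      have := u43_of_cls (g • y) a 1 b (Or.inl rfl)
      exact ⟨⟨a, this.1, this.2.1⟩, by omega⟩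
  have keyB : ∀ y : leechLattice, ((sqNorm (y : GolayPt → ℤ) = 32 ∧
      sqNorm ((u - y) : GolayPt → ℤ) = 32 ∧
      dotInt (v : GolayPt → ℤ) (y : GolayPt → ℤ) = 16) ∧ y ≠ x ∧
      dotInt (x : GolayPt → ℤ) (y : GolayPt → ℤ) = 16) ↔
      (sqNorm ((g • y : leechLattice) : GolayPt → ℤ) = 32 ∧
        clsX (pk ((g • y : leechLattice) : GolayPt → ℤ)) = 2) := by
    intro y
    rw [memS, dotx, neq]
    constructor
    · rintro ⟨⟨a, b, c⟩, d, e⟩
      refine ⟨a, ?_⟩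
      rcases u43_cases (g • y) a b c with h | h | h
      · omega
      · exact h.1
      · exact absurd h d
    · rintro ⟨a, b⟩
      have := u43_of_cls (g • y) a 2 b (Or.inr rfl)
      refine ⟨⟨a, this.1, this.2.1⟩, ?_, by omega⟩
      intro hy
      rw [hy, clsX_X] at b
      omega
  refine ⟨?_, ?_, ?_⟩
  · exact (ncard_smul g _ _ keyA).trans (ncard_cls clsX 1 112 cnt_X1)
  · exact (ncard_smul g _ _ keyB).trans (ncard_cls clsX 2 162 cnt_X2)
  · intro y hy y' hy' hne hne' heq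
    have my := (memS y).1 hy
    have my' := (memS y').1 hy'
    rw [dotx, dotx] at heq
    have hc : ∃ c, clsX (pk ((g • y : leechLattice) : GolayPt → ℤ)) = c + 1 ∧
        clsX (pk ((g • y' : leechLattice) : GolayPt → ℤ)) = c + 1 := by
      rcases u43_cases (g • y) my.1 my.2.1 my.2.2 with h | h | h
      · rcases u43_cases (g • y') my'.1 my'.2.1 my'.2.2 with h' | h' | h'
        · exact ⟨0, h.1, h'.1⟩
        · omega
        · exact absurd h' ((neq y').1 hne')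
      · rcases u43_cases (g • y') my'.1 my'.2.1 my'.2.2 with h' | h' | h'
        · omega
        · exact ⟨1, h.1, h'.1⟩
        · exact absurd h' ((neq y').1 hne')
      · exact absurd h ((neq y).1 hne)
    obtain ⟨c, hc1, hc2⟩ := hc
    obtain ⟨k, a, b, d, e⟩ := u43_trans c (g • y) (g • y') my.1 my'.1 hc1 hc2
    exact ⟨g⁻¹ * k * g, conj_fix g k u (by rw [h1]; exact a),
      conj_fix g k v (by rw [h2, co0_neg, b]),
      conj_fix g k x (by rw [h3]; exact d), conj_map g k y y' e⟩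

end Cfsg.Agent.Helper26
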