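import Cfsg.Agent.Helper26.Co0Multi
import Cfsg.Agent.Helper92.LeechSimple

/-!
# Monomial words and the shape of a minimal vector

* `shpN`, `shp`: the shape of a (packed) minimal vector; it is invariant under the monomial
  group (the stabiliser `Helper92.monoSub` of the standard cross).
* `tabMono`: a table of words all of whose letters are monomial; the elements of such words lie
  in `Helper92.monoSub`.
-/

set_option autoImplicit false

namespace Cfsg.Agent.Helper26

open Cfsg

/-! ### The shape of a packed minimal vector -/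

theorem and_split (k a b A B : ℕ) (hA : A < 2 ^ k) (hB : B < 2 ^ k) :
    (A + a * 2 ^ k) &&& (B + b * 2 ^ k) = (A &&& B) + (a &&& b) * 2 ^ k := by
  have hAB : A &&& B < 2 ^ k := Nat.and_lt_two_pow A hB
  apply Nat.eq_of_testBit_eq
  intro j
  have e1 : A + a * 2 ^ k = 2 ^ k * a + A := by ring
  have e2 : B + b * 2 ^ k = 2 ^ k * b + B := by ring
  have e3 : (A &&& B) + (a &&& b) * 2 ^ k = 2 ^ k * (a &&& b) + (A &&& B) := by ring
  rw [Nat.testBit_and, e1, e2, e3, Nat.testBit_two_pow_mul_add a hA,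
    Nat.testBit_two_pow_mul_add b hB, Nat.testBit_two_pow_mul_add (a &&& b) hAB]
  by_cases hj : j < k
  · simp only [hj, if_true, Nat.testBit_and]
  · simp only [hj, if_false, Nat.testBit_and]

theorem range_and (F G : ℕ → ℕ) (hF : ∀ i, F i < 16) (hG : ∀ i, G i < 16) (n : ℕ) :
    (∑ i ∈ Finset.range n, F i * 16 ^ i) &&& (∑ i ∈ Finset.range n, G i * 16 ^ i) =
      ∑ i ∈ Finset.range n, (F i &&& G i) * 16 ^ i := by
  induction n with
  | zero => simp
  | succ n ih =>
    rw [Finset.sum_range_succ, Finset.sum_range_succ, Finset.sum_range_succ, ← ih]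
    have h16 : (16 : ℕ) ^ n = 2 ^ (4 * n) := by rw [pow_mul]; norm_num
    rw [h16]
    apply and_split
    · rw [← h16]; exact range_sum_lt F hF n
    · rw [← h16]; exact range_sum_lt G hG n

theorem pkN_and (g m : GolayPt → ℕ) (hg : ∀ p, g p < 16) (hm : ∀ p, m p < 16) :
    pkN g &&& pkN m = pkN (fun p => g p &&& m p) := by
  rw [pkN_eq_range, pkN_eq_range, pkN_eq_range]
  exact range_and (fun i => g (pt i)) (fun i => m (pt i)) (fun i => hg _) (fun i => hm _) 24

/-- all nibbles `3`. -/
def mask3 : ℕ := 0x333333333333333333333333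

theorem mask3_eq : pkN (fun _ => 3) = mask3 := by
  rw [pkN_eq_range]
  simp only [Finset.sum_range_succ, Finset.sum_range_zero]
  norm_num [mask3]

theorem and_three : ∀ a < 16, a &&& 3 = a % 4 := by decide

theorem pkN_eq_zero (f : GolayPt → ℕ) : pkN f = 0 ↔ ∀ p, f p = 0 := by
  unfold pkN
  rw [Finset.sum_eq_zero_iff]
  constructor
  · intro h p
    have := h p (Finset.mem_univ p)
    rcases Nat.mul_eq_zero.1 this with h1 | h1
    · exact h1
    · exact absurd h1 (by positivity)
  · intro h p _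
    rw [h p, zero_mul]

/-- all the coordinates of the packed vector are divisible by `4`. -/
theorem mask3_spec {w : GolayPt → ℤ} (hS : Short w) :
    Nat.land (pk w) mask3 = 0 ↔ ∀ p, (4 : ℤ) ∣ w p := by
  have e : Nat.land (pk w) mask3 = pkN (fun p => nibOf w p &&& 3) := by
    rw [← mask3_eq]
    exact pkN_and _ _ (nibOf_lt hS) (fun _ => by norm_num)
  rw [e, pkN_eq_zero]
  constructor
  · intro h p
    have h1 := h p
    rw [and_three _ (nibOf_lt hS p)] at h1
    have h2 := nibOf_cast hS p
    omega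
  · intro h p
    rw [and_three _ (nibOf_lt hS p)]
    have h1 := h p
    have h2 := nibOf_cast hS p
    omega

/-- the coordinate `0` of the packed vector is odd. -/
theorem odd0_spec {w : GolayPt → ℤ} (hS : Short w) :
    Nat.mod (Nat.land (pk w) 15) 2 = 1 ↔ w (some 0) % 2 = 1 := by
  have h := nib_cast0 hS
  have e : Nat.mod (Nat.land (pk w) 15) 2 = (Nat.land (pk w) 15) % 2 := rfl
  rw [e]
  omega

/-- the shape of a packed minimal vector: `1` for `(±4, ±4, 0^22)`, `2` for `(∓3, ±1^23)`, `3`
for `(±2^8, 0^16)`. -/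
def shpN (n : ℕ) : ℕ :=
  cond (Nat.beq (Nat.mod (Nat.land n 15) 2) 1) 2 (cond (Nat.beq (Nat.land n mask3) 0) 1 3)

/-- the shape of a vector: `2` if the coordinates are odd, `1` if they are all divisible by `4`,
`3` otherwise. -/
noncomputable def shp (w : GolayPt → ℤ) : ℕ :=
  open Classical in
  if w (some 0) % 2 = 1 then 2 else if ∀ p, (4 : ℤ) ∣ w p then 1 else 3

theorem cond_beq' {α : Type} (a b : ℕ) (x y : α) :
    cond (Nat.beq a b) x y = if a = b then x else y := by
  by_cases h : a = b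
  · subst h
    rw [Nat.beq_refl, if_pos rfl]
    rfl
  · rw [if_neg h]
    have : Nat.beq a b = false := by
      cases hb : Nat.beq a b
      · rfl
      · exact absurd (Nat.eq_of_beq_eq_true hb) h
    rw [this]
    rfl

theorem shpN_pk {w : GolayPt → ℤ} (hS : Short w) : shpN (pk w) = shp w := by
  unfold shpN shp
  rw [cond_beq', cond_beq']
  simp only [odd0_spec hS, mask3_spec hS]

theorem shp_cases (w : GolayPt → ℤ) : shp w = 1 ∨ shp w = 2 ∨ shp w = 3 := by
  unfold shp
  split_ifs
  · right; left; rfl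
  · left; rfl
  · right; right; rfl

theorem shp_one {w : GolayPt → ℤ} (h : shp w = 1) : ∀ p, (4 : ℤ) ∣ w p := by
  by_contra hcon
  unfold shp at h
  by_cases h1 : w (some 0) % 2 = 1
  · rw [if_pos h1] at h
    omega
  · rw [if_neg h1, if_neg hcon] at h
    omega

theorem shp_one_of {w : GolayPt → ℤ} (h : ∀ p, (4 : ℤ) ∣ w p) : shp w = 1 := by
  unfold shp
  have h0 := h (some 0)
  rw [if_neg (by omega), if_pos h]

/-- the coordinates of a lattice vector have the same parity. -/
theorem parity_eq {w : GolayPt → ℤ} (hw : w ∈ leechLattice) (p q : GolayPt) :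
    w p % 2 = w q % 2 := by
  obtain ⟨m, h1, -, -⟩ := (Helper92.mem_leechLattice_iff w).1 hw
  have a := h1 p
  have b := h1 q
  unfold Int.ModEq at a b
  omega

/-- the shape is invariant under the stabiliser of the standard cross. -/
theorem shp_smul (g : Co0) (hg : g ∈ Helper92.monoSub) (w : leechLattice) :
    shp ((g • w : leechLattice) : GolayPt → ℤ) = shp (w : GolayPt → ℤ) := by
  obtain ⟨c, hc, σ, hσ, rfl⟩ := Helper92.stabCross_eq hg
  have h1 : (((Helper92.signAut c hc * Helper92.permAut σ hσ) • w : leechLattice) :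
      GolayPt → ℤ) = Helper92.signFun c (Helper92.permFun σ (w : GolayPt → ℤ)) := rfl
  have hval : ∀ p, Helper92.signFun c (Helper92.permFun σ (w : GolayPt → ℤ)) p =
      (w : GolayPt → ℤ) (σ.symm p) ∨
      Helper92.signFun c (Helper92.permFun σ (w : GolayPt → ℤ)) p =
      -(w : GolayPt → ℤ) (σ.symm p) := by
    intro p
    rw [Helper92.signFun_apply, Helper92.permFun_apply]
    by_cases h : p ∈ c
    · right; rw [if_pos h]
    · left; rw [if_neg h]
  have e1 : Helper92.signFun c (Helper92.permFun σ (w : GolayPt → ℤ)) (some 0) % 2 = 1 ↔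
      (w : GolayPt → ℤ) (some 0) % 2 = 1 := by
    have hp := parity_eq w.2 (σ.symm (some 0)) (some 0)
    rcases hval (some 0) with h | h <;> rw [h] <;> omega
  have e2 : (∀ p, (4 : ℤ) ∣ Helper92.signFun c (Helper92.permFun σ (w : GolayPt → ℤ)) p) ↔
      ∀ p, (4 : ℤ) ∣ (w : GolayPt → ℤ) p := by
    constructor
    · intro h p
      have h2 := h (σ p)
      rcases hval (σ p) with h3 | h3 <;> rw [h3, Equiv.symm_apply_apply] at h2
      · exact h2
      · exact (dvd_neg.1 h2)
    · intro h p
      rcases hval p with h3 | h3 <;> rw [h3]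
      · exact h _
      · exact (dvd_neg.2 (h _))
  rw [h1]
  unfold shp
  simp only [e1, e2]

theorem shpN_smul (g : Co0) (hg : g ∈ Helper92.monoSub) (w : leechLattice)
    (hw : sqNorm (w : GolayPt → ℤ) < 64) :
    shpN (pk ((g • w : leechLattice) : GolayPt → ℤ)) = shpN (pk (w : GolayPt → ℤ)) := by
  rw [shpN_pk (short_of_sqNorm hw), shpN_pk (short_of_sqNorm (by rw [co0_norm]; exact hw)),
    shp_smul g hg w]

/-! ### Monomial letters and words -/

/-- a monomial letter. -/
def isMono : Ltr → Bool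
  | Ltr.mono _ _ _ _ _ _ _ _ _ _ _ _ _ _ _ _ _ _ _ _ _ _ _ _ _ _ _ => true
  | Ltr.xi => false

/-- all the words of a table are valid words in monomial letters. -/
noncomputable def tabMono (tab : List (List Ltr)) : Bool :=
  tab.all (fun wd => wordOK wd && wd.all isMono)

theorem mono_sound' (sh : List ℕ) (M S D : ℕ) (h : monoOK sh M S D = true) :
    ∃ (σ : Equiv.Perm GolayPt) (hσ : σ ∈ M24) (c : Finset GolayPt)
      (hC : c ∈ supports (golayCode : Set (GolayPt → ZMod 2))),
      ∀ w : leechLattice, sqNorm (w : GolayPt → ℤ) < 64 →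
      pk ((monoCo0 σ hσ c hC • w : leechLattice) : GolayPt → ℤ) =
        Nat.add (Nat.xor (∑ i ∈ Finset.range 24, nib (pk (w : GolayPt → ℤ)) i * 2 ^ (sh.getD i 0)) M) S := by
  simp only [monoOK, Bool.and_eq_true, beq_iff_eq, List.all_eq_true] at h
  obtain ⟨⟨⟨⟨⟨h4, hv⟩, h24⟩, hD⟩, hS⟩, hM⟩ := h
  have hσ := Cfsg.Agent.Helper91.permT_mem_M24 hv h24
  have hDlt : D < 2 ^ 24 := by
    rw [isCode_iff] at hD
    rw [← hD]; exact codeOf_lt D
  have hC : dec D ∈ supports (golayCode : Set (GolayPt → ZMod 2)) := by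
    rw [mem_supports_iff, enc_dec D hDlt]; exact hD
  refine ⟨_, hσ, _, hC, fun w hw => ?_⟩
  rw [monoCo0_smul]
  have hx : Short (w : GolayPt → ℤ) := short_of_sqNorm hw
  have hx' : Short (monoFun (Cfsg.Agent.Helper91.permT (sh.map (· / 4)) hv) (dec D) w) :=
    short_of_sqNorm (by rw [sqNorm_monoFun]; exact hw)
  have hlen : sh.length = 24 := by
    have := Cfsg.Agent.Helper91.validTab_length hv
    simpa using this
  -- the permutation part
  have e1 : ∑ i ∈ Finset.range 24, nib (pk (w : GolayPt → ℤ)) i * 2 ^ (sh.getD i 0) =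
      pkN (fun q => nibOf (w : GolayPt → ℤ)
        ((Cfsg.Agent.Helper91.permT (sh.map (· / 4)) hv).symm q)) := by
    unfold pkN
    rw [← Equiv.sum_comp (Cfsg.Agent.Helper91.permT (sh.map (· / 4)) hv), sum_pt]
    apply Finset.sum_congr rfl
    intro i hi
    have hi' := Finset.mem_range.1 hi
    beta_reduce
    rw [Equiv.symm_apply_apply, nib_pk' hx i hi', Cfsg.Agent.Helper91.permT_apply, ← idx91,
      Cfsg.Agent.Helper91.idx_tabFun hv, idx91, idx_pt i hi']
    have h5 : (sh.map (· / 4)).getD i 0 = sh.getD i 0 / 4 := by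
      have := List.getD_map sh 0 (n := i) (fun s => s / 4)
      simpa using this
    have h6 : sh.getD i 0 % 4 = 0 := by
      rw [List.getD_eq_getElem _ _ (by omega)]
      exact h4 _ (List.getElem_mem _)
    rw [h5]
    have h7 : sh.getD i 0 = 4 * (sh.getD i 0 / 4) := by omega
    conv_lhs => rw [h7, pow_mul]
    norm_num
  rw [e1, hM, hS, gsum_pow_eq, ← pkN_mul]
  have hg : ∀ q, nibOf (w : GolayPt → ℤ)
      ((Cfsg.Agent.Helper91.permT (sh.map (· / 4)) hv).symm q) < 16 := fun q => nibOf_lt hx _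
  have hm : ∀ q : GolayPt, 15 * (if q ∈ dec D then 1 else 0) < 16 := by
    intro q; split_ifs <;> norm_num
  show _ = (pkN _ ^^^ pkN _) + pkN _
  rw [pkN_xor _ _ hg hm, ← pkN_add]
  unfold pk
  refine congrArg pkN ?_
  funext q
  have h8 := nibOf_cast hx ((Cfsg.Agent.Helper91.permT (sh.map (· / 4)) hv).symm q)
  have h9 := nibOf_cast hx' q
  have h10 := nibOf_lt hx ((Cfsg.Agent.Helper91.permT (sh.map (· / 4)) hv).symm q)
  have h11 := nibOf_pos hx ((Cfsg.Agent.Helper91.permT (sh.map (· / 4)) hv).symm q)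
  by_cases hq : q ∈ dec D
  · simp only [if_pos hq, mul_one]
    rw [xor_fifteen _ h10]
    have hv9 : monoFun (Cfsg.Agent.Helper91.permT (sh.map (· / 4)) hv) (dec D) (w : GolayPt → ℤ) q =
        -(w : GolayPt → ℤ) ((Cfsg.Agent.Helper91.permT (sh.map (· / 4)) hv).symm q) := by
      unfold monoFun; rw [if_pos hq]
    rw [hv9] at h9
    omega
  · simp only [if_neg hq, mul_zero, Nat.xor_zero, add_zero]
    have hv9 : monoFun (Cfsg.Agent.Helper91.permT (sh.map (· / 4)) hv) (dec D) (w : GolayPt → ℤ) q =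
        (w : GolayPt → ℤ) ((Cfsg.Agent.Helper91.permT (sh.map (· / 4)) hv).symm q) := by
      unfold monoFun; rw [if_neg hq]
    rw [hv9] at h9
    omega

theorem stabCross_monoCo0 (σ : Equiv.Perm GolayPt) (hσ : σ ∈ M24) (c : Finset GolayPt)
    (hC : c ∈ supports (golayCode : Set (GolayPt → ZMod 2))) :
    Helper92.StabCross (monoCo0 σ hσ c hC) := by
  rintro v ⟨i, a, ha, hv⟩
  rw [monoCo0_smul, hv]
  refine ⟨σ i, if σ i ∈ c then -a else a, ?_, ?_⟩
  · split_ifs <;> rcases ha with h | h <;> rw [h] <;> simp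
  · funext q
    unfold monoFun
    rw [Pi.single_apply, Pi.single_apply]
    by_cases hq : q = σ i
    · subst hq
      rw [Equiv.symm_apply_apply]
      simp
    · have hq' : σ.symm q ≠ i := fun h => hq (by rw [← h, Equiv.apply_symm_apply])
      rw [if_neg hq, if_neg hq']
      simp

/-- two automorphisms which agree on the vectors of squared length below `64` are equal. -/
theorem co0_eq_of_short (g g' : Co0)
    (h : ∀ w : leechLattice, sqNorm (w : GolayPt → ℤ) < 64 → g • w = g' • w) : g = g' := by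
  apply Helper92.co0_eq_of_F_eq
  intro i
  obtain ⟨j, -, hj⟩ := Helper92.exists_third i i
  have hij : i ≠ j := fun e => hj e.symm
  rw [Helper92.P_diag_eq i j, co0_add, co0_add,
    h _ (by rw [Helper92.sqNorm_P_of_ne hij]; norm_num),
    h _ (by rw [Helper92.sqNorm_Pm_of_ne hij]; norm_num)]

theorem semL_mem_monoSub (l : Ltr) (hl : ltrOK l = true) (hm : isMono l = true) :
    semL l ∈ Helper92.monoSub := by
  cases l with
  | mono s0 s1 s2 s3 s4 s5 s6 s7 s8 s9 s10 s11 s12 s13 s14 s15 s16 s17 s18 s19 s20 s21 s22 s23 M S D =>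
    obtain ⟨σ, hσ, c, hC, hg⟩ := mono_sound' [s0, s1, s2, s3, s4, s5, s6, s7, s8, s9, s10, s11, s12, s13, s14, s15, s16, s17, s18, s19, s20, s21, s22, s23] M S D hl
    have e : semL (Ltr.mono s0 s1 s2 s3 s4 s5 s6 s7 s8 s9 s10 s11 s12 s13 s14 s15 s16 s17 s18 s19 s20 s21 s22 s23 M S D) = monoCo0 σ hσ c hC := by
      apply co0_eq_of_short
      intro w hw
      apply Subtype.ext
      apply pk_injective (short_of_sqNorm (by rw [co0_norm]; exact hw))
        (short_of_sqNorm (by rw [co0_norm]; exact hw))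
      rw [semL_spec _ hl w hw, hg w hw, ← perm24_eq]
      rfl
    rw [e]
    exact stabCross_monoCo0 σ hσ c hC
  | xi => exact absurd hm (by decide)

theorem semW_mem_monoSub (wd : List Ltr) (h : wordOK wd = true) (hm : wd.all isMono = true) :
    semW wd ∈ Helper92.monoSub := by
  induction wd with
  | nil => exact Helper92.monoSub.one_mem
  | cons l wd ih =>
    simp only [wordOK, List.all_cons, Bool.and_eq_true] at h hm
    rw [semW]
    exact Helper92.monoSub.mul_mem (ih h.2 hm.2) (semL_mem_monoSub l h.1 hm.1)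

theorem tabMono_spec (tab : List (List Ltr)) (h : tabMono tab = true) :
    ∀ wd ∈ tab, wordOK wd = true ∧ semW wd ∈ Helper92.monoSub := by
  intro wd hwd
  unfold tabMono at h
  rw [List.all_eq_true] at h
  have h1 := h wd hwd
  rw [Bool.and_eq_true] at h1
  exact ⟨h1.1, semW_mem_monoSub wd h1.1 h1.2⟩

/-- counting a class of minimal vectors given by a packed class function. -/
theorem ncard_clsN (cls : ℕ → ℕ) (c N : ℕ) (h : cntAll (fun n => Nat.beq (cls n) c) = N) :
    {x : leechLattice | sqNorm (x : GolayPt → ℤ) = 32 ∧ cls (pk (x : GolayPt → ℤ)) = c}.ncard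
      = N := by
  apply ncard_class _ (fun n => Nat.beq (cls n) c) N _ h
  intro x
  constructor
  · rintro ⟨h1, h2⟩
    refine ⟨h1, ?_⟩
    show Nat.beq (cls (pk (x : GolayPt → ℤ))) c = true
    rw [h2]
    exact Nat.beq_refl c
  · rintro ⟨h1, h2⟩
    exact ⟨h1, Nat.eq_of_beq_eq_true h2⟩

end Cfsg.Agent.Helper26
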