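import Mathlib
import Cfsg.Agent.Helper96.OHDefs
import Cfsg.Agent.Helper31.OHOFIX
import Cfsg.Agent.Helper31.OHOPERP
import Cfsg.Agent.Helper26.OHOATOM

set_option autoImplicit false
set_option linter.unusedSectionVars false
set_option linter.unusedVariables false

namespace Cfsg.Agent.Helper26.OH5992

open Module Polynomial Cfsg Cfsg.Geo
open Cfsg.Agent.Helper13.TIu Cfsg.Agent.Helper96.OH

variable {ι : Type} [Fintype ι] [DecidableEq ι] {F : Type*} [Field F] (Q : (ι → F) → F)

/-- OCDVD (uses OFIX, OATOM, OPERP): OFIX gives `N = (N ⊓ ker (T - 1)) ⊕ P` with `P` invariant,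
nondegenerate, without fixed vectors; strong induction on the dimension: a nonzero such `P` contains
an atom `E` of dimension `c` (OATOM), and the perp of `E` in `P` (OPERP) is again invariant,
nondegenerate, without fixed vectors. -/
theorem o_cdvd [Fintype F] (hQ : IsNondegenerateQuadraticForm Q) (h2 : (2 : F) ≠ 0)
    (T : Module.End F (ι → F)) (hT : OPres Q T) (r : ℕ) [Fact r.Prime] (hr2 : 2 < r)
    (hrF : (r : F) ≠ 0) (hTr : T ^ r = 1) (i c : ℕ)
    (hi : i = orderOf ((Fintype.card F : ℕ) : ZMod r)) (hc : c = if Even i then i else 2 * i)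
    (N : Submodule F (ι → F)) (hNT : N.map T ≤ N) (hN : ONd Q N) :
    c ∣ finrank F N - finrank F (N ⊓ LinearMap.ker (T - 1) : Submodule F (ι → F)) := by
  have hr : r.Prime := Fact.out
  have hrpos : 0 < r := hr.pos
  have hi0 : 0 < i := by
    rw [hi]
    have hx : ((Fintype.card F : ℕ) : ZMod r) ≠ 0 := by
      intro h0
      rw [ZMod.natCast_eq_zero_iff] at h0
      obtain ⟨p, hp⟩ := CharP.exists F
      haveI := hp
      obtain ⟨n, hpp, hcard⟩ := FiniteField.card F p
      rw [hcard] at h0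
      have h1 := hr.dvd_of_dvd_pow h0
      have h2' : r = p := (Nat.prime_dvd_prime_iff_eq hr hpp).mp h1
      apply hrF
      rw [h2']
      exact CharP.cast_eq_zero F p
    obtain ⟨u, hu'⟩ := IsUnit.mk0 _ hx
    rw [← hu', orderOf_units]
    exact orderOf_pos u
  have hc0 : 0 < c := by
    rw [hc]; split_ifs <;> omega
  have key : ∀ n : ℕ, ∀ P : Submodule F (ι → F), finrank F P = n → P.map T ≤ P → ONd Q P →
      P ⊓ LinearMap.ker (T - 1) = ⊥ → c ∣ finrank F P := by
    intro n
    induction n using Nat.strong_induction_on with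
    | _ n ih =>
      intro P hPn hPT hPnd hPk
      by_cases hP0 : P = ⊥
      · rw [hP0, finrank_bot]; exact dvd_zero c
      · obtain ⟨E, hEP, hET, hEnd, hEdim⟩ :=
          Cfsg.Agent.Helper26.OH5992.o_atom Q hQ h2 T hT r hr2 hrF hTr i c hi hc P hPT hPnd hP0 hPk
        obtain ⟨P', hP'P, hP'T, hP'nd, -, -, -, hdim⟩ :=
          Cfsg.Agent.Helper31.OH5992.o_perp Q hQ T hT r hrpos hTr P E hPnd hEnd hEP hPT hET
        have hlt : finrank F P' < n := by omega
        have hP'k : P' ⊓ LinearMap.ker (T - 1) = ⊥ := by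
          rw [eq_bot_iff, ← hPk]; exact inf_le_inf_right _ hP'P
        have h1 := ih (finrank F P') hlt P' rfl hP'T hP'nd hP'k
        rw [← hdim, hEdim]
        exact dvd_add h1 (dvd_refl c)
  obtain ⟨-, P, -, hPT, hPnd, hPk, -, -, hdim⟩ := Cfsg.Agent.Helper31.OH5992.o_fix Q hQ T hT r hrpos hrF hTr N hNT hN
  have h1 := key _ P rfl hPT hPnd hPk
  have h2' : finrank F N - finrank F (N ⊓ LinearMap.ker (T - 1) : Submodule F (ι → F)) =
      finrank F P := by omega
  rw [h2']; exact h1

end Cfsg.Agent.Helper26.OH5992
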