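import Mathlib

set_option autoImplicit false

namespace Cfsg.Agent.Helper26.TERANK

open Matrix Polynomial
open scoped Kronecker

/-- the pure tensor `u ⊗ w` as a vector indexed by pairs -/
def tv {F : Type*} [Field F] {a b : ℕ} (u : Fin a → F) (w : Fin b → F) : Fin a × Fin b → F :=
  fun p => u p.1 * w p.2

theorem kron_mulVec_tv {F : Type*} [Field F] {a b : ℕ} (A : Matrix (Fin a) (Fin a) F)
    (B : Matrix (Fin b) (Fin b) F) (u : Fin a → F) (w : Fin b → F) :
    (A ⊗ₖ B) *ᵥ (tv u w) = tv (A *ᵥ u) (B *ᵥ w) := by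
  ext ⟨i, k⟩
  simp only [Matrix.mulVec, dotProduct, Matrix.kroneckerMap_apply, tv]
  rw [Fintype.sum_prod_type, Finset.sum_mul_sum]
  refine Finset.sum_congr rfl (fun j _ => Finset.sum_congr rfl (fun l _ => ?_))
  ring

/-- `u ↦ u ⊗ w` as a linear map -/
def tvL {F : Type*} [Field F] {a b : ℕ} (w : Fin b → F) : (Fin a → F) →ₗ[F] (Fin a × Fin b → F) where
  toFun u := tv u w
  map_add' u v := by ext p; simp [tv, add_mul]
  map_smul' c u := by ext p; simp [tv, mul_assoc]

/-- `w ↦ u ⊗ w` as a linear map -/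
def tvR {F : Type*} [Field F] {a b : ℕ} (u : Fin a → F) : (Fin b → F) →ₗ[F] (Fin a × Fin b → F) where
  toFun w := tv u w
  map_add' v w := by ext p; simp [tv, mul_add]
  map_smul' c w := by ext p; simp [tv, mul_left_comm]

theorem exists_ker {F : Type*} [Field F] {n : Type*} [Fintype n] [DecidableEq n] {V : Type*}
    [AddCommGroup V] [Module F V] [FiniteDimensional F V] (M : Matrix n n F)
    (T : V →ₗ[F] (n → F)) (h : M.rank < Module.finrank F V) : ∃ v : V, v ≠ 0 ∧ M *ᵥ (T v) = 0 := by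
  have hk : LinearMap.ker ((M.mulVecLin.rangeRestrict).comp T) ≠ ⊥ :=
    LinearMap.ker_ne_bot_of_finrank_lt h
  obtain ⟨v, hv, hv0⟩ := Submodule.exists_mem_ne_zero_of_ne_bot hk
  refine ⟨v, hv0, ?_⟩
  have h1 : (M.mulVecLin.rangeRestrict) (T v) = 0 := LinearMap.mem_ker.mp hv
  have h2 := congrArg Subtype.val h1
  simpa using h2

theorem tv_eq_zero {F : Type*} [Field F] {a b : ℕ} {u : Fin a → F} {w : Fin b → F}
    (h : tv u w = 0) : u = 0 ∨ w = 0 := by
  by_contra hc
  rw [not_or] at hc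
  obtain ⟨i, hi⟩ := Function.ne_iff.mp hc.1
  obtain ⟨k, hk⟩ := Function.ne_iff.mp hc.2
  have := congrFun h (i, k)
  simp only [tv, Pi.zero_apply, mul_eq_zero] at this
  rcases this with h1 | h1
  · exact hi h1
  · exact hk h1

theorem kron_rank {F : Type*} [Field F] {a b : ℕ} (hab : a ≤ b)
    (A : Matrix (Fin a) (Fin a) F) (B : Matrix (Fin b) (Fin b) F)
    (h : (A ⊗ₖ B - 1).rank < a) : A ⊗ₖ B = 1 := by
  have ha : 0 < a := lt_of_le_of_lt (Nat.zero_le _) h
  have hb : 0 < b := lt_of_lt_of_le ha hab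
  -- every nonzero w is an eigenvector of B with nonzero eigenvalue
  have step1 : ∀ w : Fin b → F, w ≠ 0 → ∃ κ : F, κ ≠ 0 ∧ B *ᵥ w = κ • w := by
    intro w hw
    have hfr : (A ⊗ₖ B - 1).rank < Module.finrank F (Fin a → F) := by
      rw [Module.finrank_fin_fun]; exact h
    obtain ⟨u, hu, hM⟩ := exists_ker (A ⊗ₖ B - 1) (tvL (a := a) w) hfr
    have hM' : tv (A *ᵥ u) (B *ᵥ w) = tv u w := by
      have : (A ⊗ₖ B - 1) *ᵥ (tv u w) = 0 := hM
      rw [Matrix.sub_mulVec, Matrix.one_mulVec, kron_mulVec_tv, sub_eq_zero] at this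
      exact this
    obtain ⟨i, hi⟩ := Function.ne_iff.mp hu
    obtain ⟨k0, hk0⟩ := Function.ne_iff.mp hw
    have hAi : (A *ᵥ u) i ≠ 0 := by
      intro h0
      have := congrFun hM' (i, k0)
      simp only [tv, h0, zero_mul] at this
      rcases mul_eq_zero.mp this.symm with h1 | h1
      · exact hi h1
      · exact hk0 h1
    refine ⟨u i / (A *ᵥ u) i, div_ne_zero hi hAi, ?_⟩
    ext k
    have := congrFun hM' (i, k)
    simp only [tv] at this
    simp only [Pi.smul_apply, smul_eq_mul]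
    field_simp
    linear_combination this
  -- B is scalar
  have step2 : ∃ β : F, β ≠ 0 ∧ B = β • (1 : Matrix (Fin b) (Fin b) F) := by
    have hsingle : ∀ k : Fin b, (Pi.single k (1 : F) : Fin b → F) ≠ 0 := by
      intro k hk
      have := congrFun hk k
      simp at this
    choose κ hκ0 hκ using fun k => step1 _ (hsingle k)
    have hcol : ∀ i k : Fin b, B i k = κ k * (if i = k then 1 else 0) := by
      intro i k
      have := congrFun (hκ k) i
      simp only [Matrix.mulVec_single, MulOpposite.op_one, one_smul, Matrix.col_apply,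
        Pi.smul_apply, Pi.single_apply, smul_eq_mul] at this
      exact this
    have heq : ∀ k l : Fin b, κ k = κ l := by
      intro k l
      by_cases hkl : k = l
      · rw [hkl]
      have hw : (Pi.single k (1 : F) + Pi.single l (1 : F) : Fin b → F) ≠ 0 := by
        intro h0
        have := congrFun h0 k
        simp [hkl] at this
      obtain ⟨c, hc0, hc⟩ := step1 _ hw
      rw [Matrix.mulVec_add, hκ k, hκ l] at hc
      have e1 := congrFun hc k
      have e2 := congrFun hc l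
      simp [hkl, Ne.symm hkl] at e1 e2
      rw [e1, e2]
    refine ⟨κ ⟨0, hb⟩, hκ0 _, ?_⟩
    ext i k
    rw [hcol i k, heq k ⟨0, hb⟩, Matrix.smul_apply, Matrix.one_apply, smul_eq_mul]
  obtain ⟨β, hβ, hB⟩ := step2
  -- A ⊗ B - 1 = (β A - 1) ⊗ 1
  have hrw : A ⊗ₖ B - 1 = (β • A - 1) ⊗ₖ (1 : Matrix (Fin b) (Fin b) F) := by
    have e : (β • A - 1) ⊗ₖ (1 : Matrix (Fin b) (Fin b) F) + 1 =
        (β • A) ⊗ₖ (1 : Matrix (Fin b) (Fin b) F) := by
      rw [← Matrix.one_kronecker_one (m := Fin a) (n := Fin b) (α := F), ← Matrix.add_kronecker,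
        sub_add_cancel]
    rw [hB, Matrix.kronecker_smul, ← Matrix.smul_kronecker, ← e, add_sub_cancel_right]
  have hC : β • A - 1 = 0 := by
    by_contra hC
    obtain ⟨i, j, hij⟩ : ∃ i j, (β • A - 1) i j ≠ 0 := by
      by_contra hne
      refine hC ?_
      ext i j
      by_contra hij
      exact hne ⟨i, j, hij⟩
    have hu1 : (β • A - 1) *ᵥ (Pi.single j (1 : F)) ≠ 0 := by
      intro h0
      have := congrFun h0 i
      simp only [Matrix.mulVec_single, MulOpposite.op_one, one_smul, Matrix.col_apply,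
        Pi.zero_apply] at this
      exact hij this
    have hfr : ((β • A - 1) ⊗ₖ (1 : Matrix (Fin b) (Fin b) F)).rank <
        Module.finrank F (Fin b → F) := by
      rw [Module.finrank_fin_fun, ← hrw]; exact lt_of_lt_of_le h hab
    obtain ⟨w, hw, hM⟩ := exists_ker ((β • A - 1) ⊗ₖ (1 : Matrix (Fin b) (Fin b) F))
      (tvR (b := b) (Pi.single j (1 : F))) hfr
    have : tv ((β • A - 1) *ᵥ (Pi.single j (1 : F))) w = 0 := by
      have h3 : ((β • A - 1) ⊗ₖ (1 : Matrix (Fin b) (Fin b) F)) *ᵥ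
          (tv (Pi.single j (1 : F)) w) = 0 := hM
      rw [kron_mulVec_tv, Matrix.one_mulVec] at h3
      exact h3
    rcases tv_eq_zero this with h1 | h1
    · exact hu1 h1
    · exact hw h1
  have hA : A = β⁻¹ • (1 : Matrix (Fin a) (Fin a) F) := by
    have h1 : β • A = 1 := sub_eq_zero.mp hC
    calc A = β⁻¹ • (β • A) := by rw [smul_smul, inv_mul_cancel₀ hβ, one_smul]
      _ = β⁻¹ • (1 : Matrix (Fin a) (Fin a) F) := by rw [h1]
  rw [hA, hB, Matrix.smul_kronecker, Matrix.kronecker_smul, smul_smul, inv_mul_cancel₀ hβ,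
    one_smul, Matrix.one_kronecker_one]

end Cfsg.Agent.Helper26.TERANK
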