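import Cfsg.Agent.Helper26.U35MaxA
import Cfsg.Agent.Helper26.U35Pts

/-!
# The proper subgroups of `PSU(3, 5)` have index at least 50

`PSU(3, 5)` is the group `u35mK` generated by the permutations `u35s1`, `u35s2` of degree 252.
* Sifting through an exact stabiliser chain shows that a subgroup of order 7 has normaliser of
  order 21 (`u35m_all_seven`).
* A subgroup of order greater than 2520 containing the root element `u35mz` is the whole group
  (`u35m_root`).
* Sylow arithmetic then shows that a proper subgroup has order at most 2520 (`u35m_main`).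
-/

set_option autoImplicit false

namespace Cfsg.Agent.Helper26

theorem u35mCh_exact : u35mExact u35mK u35mCh := by
  have h := u35m_chain_exact u35mCh [] u35mCh_chk
    (by rw [u35mStab_nil, u35mCh_prod]; exact u35_card_eq.le)
  rwa [u35mStab_nil] at h

theorem u35ms1_pow_apply (n : ℕ) (z : Fin 252) : (u35s1 ^ n) z = u35f1^[n] z := by
  rw [← Equiv.Perm.iterate_eq_pow]; rfl

theorem u35ms1_pow7 : u35s1 ^ 7 = 1 :=
  Equiv.ext fun z => by rw [u35ms1_pow_apply]; exact u35m_x7 z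

theorem u35ms1_ne : u35s1 ≠ 1 := fun h =>
  u35m_xne (congrArg (fun f : Equiv.Perm (Fin 252) => f 0) h)

theorem u35ms1_mem : u35s1 ∈ u35mK := Subgroup.subset_closure (by simp)

/-- an element conjugating `u35s1` to its `k`-th power sifts. -/
theorem u35m_conj_sift (c : Equiv.Perm (Fin 252)) (hc : c ∈ u35mK) (k : ℕ)
    (h : c * u35s1 * c⁻¹ = u35s1 ^ k) : u35msift u35mCh (u35mtg k (c 0)) = true := by
  have hj : ∀ j : ℕ, c (u35f1^[j] (0 : Fin 252)) = u35f1^[k * j] (c 0) := by
    intro j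
    have e1 : c * u35s1 ^ j * c⁻¹ = u35s1 ^ (k * j) := by
      rw [← conj_pow, h, ← pow_mul]
    have e2 : c * u35s1 ^ j = u35s1 ^ (k * j) * c := by
      rw [← e1, inv_mul_cancel_right]
    have e3 := congrArg (fun f : Equiv.Perm (Fin 252) => f 0) e2
    simp only [Equiv.Perm.mul_apply] at e3
    rw [u35ms1_pow_apply, u35ms1_pow_apply] at e3
    exact e3
  have hs := u35msift_sound u35mCh u35mK u35mCh_exact c hc
  have e : u35mCh.map (fun p => c p.1) = u35mtg k (c 0) := by
    have e0 : u35mCh.map (fun p => c p.1) = (u35mCh.map Prod.fst).map c := by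
      rw [List.map_map]; rfl
    rw [e0, u35mCh_base, List.map_map]
    exact List.map_congr_left fun j _ => hj j
  rwa [e] at hs

/-- an element of the group commuting with `u35s1` is a power of it. -/
theorem u35m_comm_mem (c : Equiv.Perm (Fin 252)) (hc : c ∈ u35mK) (h : c * u35s1 = u35s1 * c) :
    ∃ i : Fin 7, c = u35s1 ^ i.val := by
  have h1 : c * u35s1 * c⁻¹ = u35s1 ^ 1 := by rw [h, mul_inv_cancel_right, pow_one]
  have hs := u35m_conj_sift c hc 1 h1
  obtain ⟨i, hi⟩ := (u35m_sift 1 (c 0) hs).2 rfl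
  refine ⟨i, ?_⟩
  have hd : (u35s1 ^ i.val)⁻¹ * c ∈ u35mK :=
    Subgroup.mul_mem _ (Subgroup.inv_mem _ (Subgroup.pow_mem _ u35ms1_mem _)) hc
  have hcomm : ∀ n : ℕ, c * u35s1 ^ n = u35s1 ^ n * c := fun n =>
    (Commute.pow_right (show Commute c u35s1 from h) n)
  have hfix : ∀ j : ℕ, ((u35s1 ^ i.val)⁻¹ * c) (u35f1^[j] (0 : Fin 252)) = u35f1^[j] 0 := by
    intro j
    rw [Equiv.Perm.mul_apply, Equiv.Perm.inv_eq_iff_eq, ← u35ms1_pow_apply j 0,
      ← Equiv.Perm.mul_apply, ← Equiv.Perm.mul_apply, hcomm j, Equiv.Perm.mul_apply,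
      ← pow_add, add_comm, pow_add, Equiv.Perm.mul_apply, u35ms1_pow_apply i.val 0, hi]
  have hone := u35mExact_trivial u35mCh u35mK u35mCh_exact _ hd (by
    intro p hp
    have hp' : p.1 ∈ u35mCh.map Prod.fst := List.mem_map_of_mem hp
    rw [u35mCh_base] at hp'
    obtain ⟨j, _, hj⟩ := List.mem_map.1 hp'
    rw [← hj]
    exact hfix j)
  exact (inv_mul_eq_one.1 hone).symm

/-- the normalising element. -/
def u35mn0 : Equiv.Perm (Fin 252) := u35nevP u35mWn

theorem u35mn0_mem : u35mn0 ∈ u35mK := u35nevP_mem _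

theorem u35ms1_apply (z : Fin 252) : u35s1 z = u35f1 z := rfl

theorem u35mn0_apply (z : Fin 252) : u35mn0 z = u35nev u35mWn z := u35nevP_apply _ z

theorem u35mn0_conj : u35mn0 * u35s1 * u35mn0⁻¹ = u35s1 ^ 2 := by
  rw [mul_inv_eq_iff_eq_mul]
  refine Equiv.ext fun z => ?_
  rw [Equiv.Perm.mul_apply, Equiv.Perm.mul_apply, pow_two, Equiv.Perm.mul_apply,
    u35mn0_apply, u35mn0_apply, u35ms1_apply, u35ms1_apply, u35ms1_apply]
  exact u35m_nconj z

theorem u35mn0_pow3 : u35mn0 ^ 3 = 1 := by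
  refine Equiv.ext fun z => ?_
  rw [← Equiv.Perm.iterate_eq_pow]
  have e : ⇑u35mn0 = u35nev u35mWn := funext (u35nevP_apply _)
  rw [e]
  exact u35m_n3 z

theorem u35mn0_ne : u35mn0 ≠ 1 := fun h =>
  u35m_nne (by
    rw [← u35mn0_apply, h]; rfl)

theorem u35m_conj_aux {G : Type*} [Group G] (c n x y : G) (hn : n * x * n⁻¹ = y)
    (hc : c * x * c⁻¹ = y) : (n⁻¹ * c) * x = x * (n⁻¹ * c) := by
  have e : c * x * c⁻¹ = n * x * n⁻¹ := hc.trans hn.symm
  calc n⁻¹ * c * x = n⁻¹ * (c * x * c⁻¹) * c := by group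
    _ = n⁻¹ * (n * x * n⁻¹) * c := by rw [e]
    _ = x * (n⁻¹ * c) := by group

theorem u35mn0_conj2 : u35mn0 ^ 2 * u35s1 * (u35mn0 ^ 2)⁻¹ = u35s1 ^ 4 := by
  calc u35mn0 ^ 2 * u35s1 * (u35mn0 ^ 2)⁻¹ = u35mn0 * (u35mn0 * u35s1 * u35mn0⁻¹) * u35mn0⁻¹ := by
        rw [pow_two, mul_inv_rev]; simp only [mul_assoc]
    _ = (u35s1 ^ 2) ^ 2 := by rw [u35mn0_conj, ← conj_pow, u35mn0_conj]
    _ = u35s1 ^ 4 := by rw [← pow_mul]

/-- an element of the group normalising `⟨u35s1⟩` is `u35mn0 ^ j * u35s1 ^ i`. -/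
theorem u35m_norm_mem (c : Equiv.Perm (Fin 252)) (hc : c ∈ u35mK) (z : ℤ)
    (h : c * u35s1 * c⁻¹ = u35s1 ^ z) :
    ∃ j : Fin 3, ∃ i : Fin 7, c = u35mn0 ^ j.val * u35s1 ^ i.val := by
  have h7 : (7 : ℤ) ≠ 0 := by norm_num
  have hk : (z % 7).toNat < 7 := by
    have := Int.emod_lt_of_pos z (by norm_num : (0 : ℤ) < 7)
    have := Int.emod_nonneg z h7
    omega
  have hz : u35s1 ^ z = u35s1 ^ (z % 7).toNat := by
    have e1 : z = 7 * (z / 7) + z % 7 := (Int.mul_ediv_add_emod z 7).symm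
    have e2 : (((z % 7).toNat : ℕ) : ℤ) = z % 7 := Int.toNat_of_nonneg (Int.emod_nonneg z h7)
    have e3 : u35s1 ^ (7 : ℤ) = 1 := by
      rw [show (7 : ℤ) = ((7 : ℕ) : ℤ) from rfl, zpow_natCast]; exact u35ms1_pow7
    have e4 : u35s1 ^ (z % 7) = u35s1 ^ (z % 7).toNat := by
      rw [← zpow_natCast, e2]
    calc u35s1 ^ z = u35s1 ^ (7 * (z / 7) + z % 7) := by rw [← e1]
      _ = (u35s1 ^ (7 : ℤ)) ^ (z / 7) * u35s1 ^ (z % 7) := by rw [zpow_add, zpow_mul]
      _ = u35s1 ^ (z % 7).toNat := by rw [e3, one_zpow, one_mul, e4]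
  have h' : c * u35s1 * c⁻¹ = u35s1 ^ (z % 7).toNat := h.trans hz
  have hs := u35m_conj_sift c hc _ h'
  have hcase := (u35m_sift ⟨(z % 7).toNat, hk⟩ (c 0) hs).1
  rcases hcase with h1 | h2 | h4
  · have h1' : (z % 7).toNat = 1 := h1
    rw [h1', pow_one] at h'
    obtain ⟨i, hi⟩ := u35m_comm_mem c hc (mul_inv_eq_iff_eq_mul.1 h')
    exact ⟨0, i, by rw [hi]; simp⟩
  · have h2' : (z % 7).toNat = 2 := h2
    rw [h2'] at h'
    obtain ⟨i, hi⟩ := u35m_comm_mem (u35mn0⁻¹ * c)
      (Subgroup.mul_mem _ (Subgroup.inv_mem _ u35mn0_mem) hc)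
      (u35m_conj_aux c u35mn0 u35s1 _ u35mn0_conj h')
    exact ⟨1, i, by rw [← hi]; simp⟩
  · have h4' : (z % 7).toNat = 4 := h4
    rw [h4'] at h'
    obtain ⟨i, hi⟩ := u35m_comm_mem ((u35mn0 ^ 2)⁻¹ * c)
      (Subgroup.mul_mem _ (Subgroup.inv_mem _ (Subgroup.pow_mem _ u35mn0_mem _)) hc)
      (u35m_conj_aux c (u35mn0 ^ 2) u35s1 _ u35mn0_conj2 h')
    exact ⟨2, i, by rw [← hi]; simp⟩

/-- the element of order 7, in the group. -/
def u35mx : ↥u35mK := ⟨u35s1, u35ms1_mem⟩

/-- the normalising element, in the group. -/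
def u35mn : ↥u35mK := ⟨u35mn0, u35mn0_mem⟩

theorem u35mx_coe : (u35mx : Equiv.Perm (Fin 252)) = u35s1 := rfl

theorem u35mn_coe : (u35mn : Equiv.Perm (Fin 252)) = u35mn0 := rfl

theorem u35mx_order : orderOf u35mx = 7 := by
  have : Fact (Nat.Prime 7) := ⟨by norm_num⟩
  refine orderOf_eq_prime (Subtype.ext ?_) (fun h => u35ms1_ne ?_)
  · rw [Subgroup.coe_pow, u35mx_coe, Subgroup.coe_one]; exact u35ms1_pow7
  · have h' := congrArg Subtype.val h
    rwa [u35mx_coe, Subgroup.coe_one] at h'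

theorem u35mn_order : orderOf u35mn = 3 := by
  have : Fact (Nat.Prime 3) := ⟨by norm_num⟩
  refine orderOf_eq_prime (Subtype.ext ?_) (fun h => u35mn0_ne ?_)
  · rw [Subgroup.coe_pow, u35mn_coe, Subgroup.coe_one]; exact u35mn0_pow3
  · have h' := congrArg Subtype.val h
    rwa [u35mn_coe, Subgroup.coe_one] at h'

theorem u35mn_conj' : u35mn * u35mx * u35mn⁻¹ = u35mx ^ 2 := by
  refine Subtype.ext ?_
  rw [Subgroup.coe_mul, Subgroup.coe_mul, Subgroup.coe_inv, Subgroup.coe_pow, u35mn_coe, u35mx_coe]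
  exact u35mn0_conj

theorem u35mn_mem_normalizer :
    u35mn ∈ Subgroup.normalizer ((Subgroup.zpowers u35mx : Subgroup ↥u35mK) : Set ↥u35mK) := by
  have hx7 : u35mx ^ 7 = 1 := by rw [← u35mx_order]; exact pow_orderOf_eq_one _
  have hinv : u35mn⁻¹ * u35mx * u35mn = u35mx ^ 4 := by
    have e : u35mn * u35mx ^ 4 * u35mn⁻¹ = u35mx := by
      rw [← conj_pow, u35mn_conj', ← pow_mul]
      calc u35mx ^ (2 * 4) = u35mx ^ 7 * u35mx := by rw [← pow_succ]
        _ = u35mx := by rw [hx7, one_mul]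
    calc u35mn⁻¹ * u35mx * u35mn = u35mn⁻¹ * (u35mn * u35mx ^ 4 * u35mn⁻¹) * u35mn := by rw [e]
      _ = u35mx ^ 4 := by group
  rw [Subgroup.mem_normalizer_iff]
  intro h
  constructor
  · intro hh
    obtain ⟨a, rfl⟩ := Subgroup.mem_zpowers_iff.1 hh
    rw [← conj_zpow, u35mn_conj']
    exact Subgroup.zpow_mem _ (Subgroup.pow_mem _ (Subgroup.mem_zpowers _) _) _
  · intro hh
    obtain ⟨a, ha⟩ := Subgroup.mem_zpowers_iff.1 hh
    have e : h = (u35mx ^ 4) ^ a := by
      rw [← hinv]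
      have e1 : (u35mn⁻¹ * u35mx * u35mn) ^ a = u35mn⁻¹ * u35mx ^ a * u35mn := by
        have := conj_zpow (a := u35mn⁻¹) (b := u35mx) (i := a)
        rwa [inv_inv] at this
      rw [e1, ha]; group
    rw [e]
    exact Subgroup.zpow_mem _ (Subgroup.pow_mem _ (Subgroup.mem_zpowers _) _) _

/-- **The normaliser and the centraliser of `⟨u35mx⟩`.** -/
theorem u35m_final_aux :
    Nat.card ↥(Subgroup.normalizer ((Subgroup.zpowers u35mx : Subgroup ↥u35mK) : Set ↥u35mK)) = 21 ∧
      Subgroup.centralizer ((Subgroup.zpowers u35mx : Subgroup ↥u35mK) : Set ↥u35mK) =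
        Subgroup.zpowers u35mx := by
  have hcent : ∀ c : ↥u35mK, c * u35mx = u35mx * c → ∃ i : Fin 7, c = u35mx ^ i.val := by
    intro c h
    have h' := congrArg Subtype.val h
    rw [Subgroup.coe_mul, Subgroup.coe_mul, u35mx_coe] at h'
    obtain ⟨i, hi⟩ := u35m_comm_mem c.1 c.2 h'
    refine ⟨i, Subtype.ext ?_⟩
    rw [Subgroup.coe_pow, u35mx_coe]
    exact hi
  constructor
  · have hsub : ∀ c ∈ Subgroup.normalizer
        ((Subgroup.zpowers u35mx : Subgroup ↥u35mK) : Set ↥u35mK),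
        ∃ j : Fin 3, ∃ i : Fin 7, c = u35mn ^ j.val * u35mx ^ i.val := by
      intro c hc
      have h1 : c * u35mx * c⁻¹ ∈ Subgroup.zpowers u35mx :=
        ((Subgroup.mem_normalizer_iff.1 hc) u35mx).1 (Subgroup.mem_zpowers _)
      obtain ⟨z, hz⟩ := Subgroup.mem_zpowers_iff.1 h1
      have hz' : c.1 * u35s1 * c.1⁻¹ = u35s1 ^ z := by
        have h2 := congrArg Subtype.val hz
        rw [Subgroup.coe_mul, Subgroup.coe_mul, Subgroup.coe_inv, Subgroup.coe_zpow,
          u35mx_coe] at h2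
        exact h2.symm
      obtain ⟨j, i, e⟩ := u35m_norm_mem c.1 c.2 z hz'
      refine ⟨j, i, Subtype.ext ?_⟩
      rw [Subgroup.coe_mul, Subgroup.coe_pow, Subgroup.coe_pow, u35mn_coe, u35mx_coe]
      exact e
    choose fj fi hf using fun c : ↥(Subgroup.normalizer
      ((Subgroup.zpowers u35mx : Subgroup ↥u35mK) : Set ↥u35mK)) => hsub c.1 c.2
    have hinj : Function.Injective (fun c : ↥(Subgroup.normalizer
        ((Subgroup.zpowers u35mx : Subgroup ↥u35mK) : Set ↥u35mK)) => (fj c, fi c)) := by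
      intro c c' e
      have e1 : fj c = fj c' := congrArg Prod.fst e
      have e2 : fi c = fi c' := congrArg Prod.snd e
      exact Subtype.ext (by rw [hf c, hf c', e1, e2])
    have hle : Nat.card ↥(Subgroup.normalizer
        ((Subgroup.zpowers u35mx : Subgroup ↥u35mK) : Set ↥u35mK)) ≤ 21 := by
      have := Nat.card_le_card_of_injective _ hinj
      rwa [Nat.card_prod, Nat.card_fin, Nat.card_fin] at this
    have h7 : 7 ∣ Nat.card ↥(Subgroup.normalizer
        ((Subgroup.zpowers u35mx : Subgroup ↥u35mK) : Set ↥u35mK)) := by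
      have := orderOf_dvd_natCard (⟨u35mx, Subgroup.le_normalizer (Subgroup.mem_zpowers _)⟩ :
        ↥(Subgroup.normalizer ((Subgroup.zpowers u35mx : Subgroup ↥u35mK) : Set ↥u35mK)))
      rwa [Subgroup.orderOf_mk, u35mx_order] at this
    have h3 : 3 ∣ Nat.card ↥(Subgroup.normalizer
        ((Subgroup.zpowers u35mx : Subgroup ↥u35mK) : Set ↥u35mK)) := by
      have := orderOf_dvd_natCard (⟨u35mn, u35mn_mem_normalizer⟩ :
        ↥(Subgroup.normalizer ((Subgroup.zpowers u35mx : Subgroup ↥u35mK) : Set ↥u35mK)))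
      rwa [Subgroup.orderOf_mk, u35mn_order] at this
    have h21 : 21 ∣ Nat.card ↥(Subgroup.normalizer
        ((Subgroup.zpowers u35mx : Subgroup ↥u35mK) : Set ↥u35mK)) :=
      Nat.Coprime.mul_dvd_of_dvd_of_dvd (by norm_num : Nat.Coprime 3 7) h3 h7
    exact Nat.le_antisymm hle (Nat.le_of_dvd Nat.card_pos h21)
  · ext c
    constructor
    · intro hc
      have h := (Subgroup.mem_centralizer_iff.1 hc) u35mx (Subgroup.mem_zpowers _)
      obtain ⟨i, hi⟩ := hcent c h.symm
      rw [hi]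
      exact Subgroup.pow_mem _ (Subgroup.mem_zpowers _) _
    · intro hc
      rw [Subgroup.mem_centralizer_iff]
      intro h hh
      obtain ⟨a, rfl⟩ := Subgroup.mem_zpowers_iff.1 hh
      obtain ⟨b, rfl⟩ := Subgroup.mem_zpowers_iff.1 hc
      rw [← zpow_add, ← zpow_add, add_comm]

/-- transport of the statement along an isomorphism. -/
theorem u35m_transport {G G' : Type*} [Group G] [Group G'] (e : G ≃* G') (X : Subgroup G)
    (h : Nat.card ↥(Subgroup.normalizer (X : Set G)) = 21 ∧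
      Subgroup.centralizer (X : Set G) = X) :
    Nat.card ↥(Subgroup.normalizer ((X.map e.toMonoidHom : Subgroup G') : Set G')) = 21 ∧
      Subgroup.centralizer ((X.map e.toMonoidHom : Subgroup G') : Set G') =
        X.map e.toMonoidHom := by
  constructor
  · rw [← Subgroup.map_equiv_normalizer_eq, ← h.1]
    exact (Nat.card_congr (e.subgroupMap _).toEquiv).symm
  · ext c
    rw [Subgroup.mem_centralizer_iff, Subgroup.mem_map_equiv]
    conv_rhs => rw [← h.2, Subgroup.mem_centralizer_iff]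
    constructor
    · intro hc y hy
      have := hc (e y) (Subgroup.mem_map_of_mem _ hy)
      apply e.injective
      rw [map_mul, map_mul, e.apply_symm_apply]
      exact this
    · intro hc y hy
      have hy' : e.symm y ∈ X := Subgroup.mem_map_equiv.1 hy
      have := hc (e.symm y) hy'
      apply e.symm.injective
      rw [map_mul, map_mul]
      exact this

/-- **Every subgroup of order 7 of the group has normaliser of order 21 and is its own
centraliser.** -/
theorem u35m_all_seven (X : Subgroup ↥u35mK) (hX : Nat.card X = 7) :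
    Nat.card ↥(Subgroup.normalizer (X : Set ↥u35mK)) = 21 ∧
      Subgroup.centralizer (X : Set ↥u35mK) = X := by
  have : Fact (Nat.Prime 7) := ⟨by norm_num⟩
  have hfac : (Nat.card ↥u35mK).factorization 7 = 1 := by
    rw [u35_card_eq, show (126000 : ℕ) = 7 * 18000 from by norm_num,
      Nat.factorization_mul (by norm_num) (by norm_num), Finsupp.add_apply,
      Nat.Prime.factorization_self (by norm_num),
      Nat.factorization_eq_zero_of_not_dvd (by norm_num)]
  have hX0 : Nat.card (Subgroup.zpowers u35mx) = 7 := by rw [Nat.card_zpowers, u35mx_order]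
  let P : Sylow 7 ↥u35mK := Sylow.ofCard X (by rw [hX, hfac, pow_one])
  let P0 : Sylow 7 ↥u35mK := Sylow.ofCard (Subgroup.zpowers u35mx) (by rw [hX0, hfac, pow_one])
  obtain ⟨g, hg⟩ := MulAction.exists_smul_eq ↥u35mK P0 P
  have e : X = (Subgroup.zpowers u35mx).map (MulAut.conj g).toMonoidHom := by
    have := congrArg (fun Q : Sylow 7 ↥u35mK => (Q : Subgroup ↥u35mK)) hg
    exact this.symm
  rw [e]
  exact u35m_transport (MulAut.conj g) _ u35m_final_aux


/-! ### The root element -/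

/-- an element of order 5 fixing the point `0`. -/
def u35ma : Equiv.Perm (Fin 252) := u35nevP u35mWa

/-- another element of order 5 fixing the point `0`. -/
def u35mb : Equiv.Perm (Fin 252) := u35nevP u35mWb

/-- the root element. -/
def u35mz : Equiv.Perm (Fin 252) := u35nevP u35mWz

/-- a conjugate of the root element. -/
def u35my : Equiv.Perm (Fin 252) := u35nevP u35mWy

theorem u35ma_apply (x : Fin 252) : u35ma x = u35nev u35mWa x := u35nevP_apply _ x
theorem u35mb_apply (x : Fin 252) : u35mb x = u35nev u35mWb x := u35nevP_apply _ x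
theorem u35mz_apply (x : Fin 252) : u35mz x = u35nev u35mWz x := u35nevP_apply _ x

theorem u35ma_mem : u35ma ∈ u35mK := u35nevP_mem _
theorem u35mb_mem : u35mb ∈ u35mK := u35nevP_mem _
theorem u35mz_mem : u35mz ∈ u35mK := u35nevP_mem _
theorem u35my_mem : u35my ∈ u35mK := u35nevP_mem _

theorem u35m_ab : u35ma * u35mb = u35mz * u35mb * u35ma := by
  refine Equiv.ext fun x => ?_
  simp only [Equiv.Perm.mul_apply, u35ma_apply, u35mb_apply, u35mz_apply]
  exact u35m_r1 x

theorem u35m_za : u35mz * u35ma = u35ma * u35mz := by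
  refine Equiv.ext fun x => ?_
  simp only [Equiv.Perm.mul_apply, u35ma_apply, u35mz_apply]
  exact u35m_r2 x

theorem u35m_zb : u35mz * u35mb = u35mb * u35mz := by
  refine Equiv.ext fun x => ?_
  simp only [Equiv.Perm.mul_apply, u35mb_apply, u35mz_apply]
  exact u35m_r3 x

theorem u35ma_pow5 : u35ma ^ 5 = 1 := by
  refine Equiv.ext fun x => ?_
  rw [← Equiv.Perm.iterate_eq_pow]
  have e : ⇑u35ma = u35nev u35mWa := funext u35ma_apply
  rw [e]
  exact u35m_r4 x

theorem u35mb_pow5 : u35mb ^ 5 = 1 := by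
  refine Equiv.ext fun x => ?_
  rw [← Equiv.Perm.iterate_eq_pow]
  have e : ⇑u35mb = u35nev u35mWb := funext u35mb_apply
  rw [e]
  exact u35m_r5 x

theorem u35mz_pow5 : u35mz ^ 5 = 1 := by
  refine Equiv.ext fun x => ?_
  rw [← Equiv.Perm.iterate_eq_pow]
  have e : ⇑u35mz = u35nev u35mWz := funext u35mz_apply
  rw [e]
  exact u35m_r6 x

theorem u35mz_ne : u35mz ≠ 1 := fun h =>
  u35m_r7 (by rw [← u35mz_apply, h]; rfl)

theorem u35ma_fix : u35ma (0 : Fin 252) = 0 := by rw [u35ma_apply]; exact u35m_r8.1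

theorem u35mb_fix : u35mb (0 : Fin 252) = 0 := by rw [u35mb_apply]; exact u35m_r8.2

theorem u35my_eq : u35my = u35s1 * u35mz * u35s1⁻¹ := by
  show u35nevP (u35mWz ++ [0]) * u35stpP 2 = u35s1 * u35mz * u35s1⁻¹
  rw [u35nevP_append]
  show (1 * u35stpP 0) * u35nevP u35mWz * u35stpP 2 = u35s1 * u35mz * u35s1⁻¹
  rw [one_mul]
  rfl

theorem u35my_pow5 : u35my ^ 5 = 1 := by
  rw [u35my_eq, conj_pow, u35mz_pow5, mul_one, mul_inv_cancel]

theorem u35m_conj_inv {G : Type*} [Group G] (a z : G) : a * z⁻¹ * a⁻¹ = (a * z * a⁻¹)⁻¹ := by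
  group

/-- the stabiliser of the point `0` normalises the root group, acting by `±1`. -/
theorem u35m_stab_conj (g : Equiv.Perm (Fin 252)) (hg : g ∈ u35mK) (h0 : g 0 = 0) :
    g * u35mz * g⁻¹ = u35mz ∨ g * u35mz * g⁻¹ = u35mz⁻¹ := by
  have hE : u35mExact (u35mK ⊓ MulAction.stabilizer (Equiv.Perm (Fin 252)) (0 : Fin 252))
      u35mCh.tail := u35mCh_exact.2.2
  refine u35mExact_induction
    (fun g => g * u35mz * g⁻¹ = u35mz ∨ g * u35mz * g⁻¹ = u35mz⁻¹) ?_ ?_ u35mCh.tail _ hE ?_ g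
    (Subgroup.mem_inf.2 ⟨hg, MulAction.mem_stabilizer_iff.2 h0⟩)
  · left; simp
  · intro a b ha hb
    have e : a * b * u35mz * (a * b)⁻¹ = a * (b * u35mz * b⁻¹) * a⁻¹ := by group
    rw [e]
    rcases hb with hb | hb <;> rcases ha with ha | ha
    · left; rw [hb, ha]
    · right; rw [hb, ha]
    · right; rw [hb, u35m_conj_inv, ha]
    · left; rw [hb, u35m_conj_inv, ha, inv_inv]
  · intro p hp w hw
    rcases u35m_lvl p hp w hw with h | h
    · left
      rw [mul_inv_eq_iff_eq_mul]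
      refine Equiv.ext fun x => ?_
      simp only [Equiv.Perm.mul_apply, u35mz_apply, u35nevP_apply]
      exact h x
    · right
      rw [mul_inv_eq_iff_eq_mul]
      refine Equiv.ext fun x => ?_
      have e : u35mz⁻¹ = u35nevP (u35minvW u35mWz) := (u35nevP_inv _).symm
      rw [e]
      simp only [Equiv.Perm.mul_apply, u35mz_apply, u35nevP_apply]
      exact h x

/-- two elements of the group with the same image of `0` conjugate the root element to the same
element, up to inversion. -/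
theorem u35m_conj_of_eq (g t : Equiv.Perm (Fin 252)) (hg : g ∈ u35mK) (ht : t ∈ u35mK)
    (h : g 0 = t 0) :
    g * u35mz * g⁻¹ = t * u35mz * t⁻¹ ∨ g * u35mz * g⁻¹ = t * u35mz⁻¹ * t⁻¹ := by
  have h0 : (t⁻¹ * g) 0 = 0 := by
    rw [Equiv.Perm.mul_apply, Equiv.Perm.inv_eq_iff_eq]; exact h
  have e : g * u35mz * g⁻¹ = t * ((t⁻¹ * g) * u35mz * (t⁻¹ * g)⁻¹) * t⁻¹ := by group
  rcases u35m_stab_conj (t⁻¹ * g) (Subgroup.mul_mem _ (Subgroup.inv_mem _ ht) hg) h0 with e1 | e1
  · left; rw [e, e1]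
  · right; rw [e, e1]

/-- the stabiliser of the point `0` has order at most 500. -/
theorem u35m_stab_card :
    Nat.card ↥(u35mK ⊓ MulAction.stabilizer (Equiv.Perm (Fin 252)) (0 : Fin 252)) ≤ 500 := by
  have h0 := u35_chain_step u35mK (0 : Fin 252) 252 (fun s => u35evP (u35W0.getD s.val []))
    (fun s => u35evP_mem _)
    (by
      intro s s' e
      have e' : u35evP (u35W0.getD s.val []) 0 = u35evP (u35W0.getD s'.val []) 0 := e
      rw [u35evP_apply, u35evP_apply, u35_c0, u35_c0] at e'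
      exact e')
  rw [u35_card_eq] at h0
  omega

/-- a bound for the order of a permutation group by the images of a point. -/
theorem u35m_orbit_bound {α : Type*} (H : Subgroup (Equiv.Perm α)) [Finite H] (x : α)
    (S : Finset α) (hS : ∀ h ∈ H, h x ∈ S) :
    Nat.card ↥H ≤ S.card * Nat.card ↥(H ⊓ MulAction.stabilizer (Equiv.Perm α) x) := by
  classical
  have hr : ∀ s : ↥S, ∃ r : Equiv.Perm α, r ∈ H ∧ ((∃ h ∈ H, h x = s.1) → r x = s.1) := by
    intro s
    by_cases hex : ∃ h ∈ H, h x = s.1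
    · obtain ⟨h, hh, e⟩ := hex
      exact ⟨h, hh, fun _ => e⟩
    · exact ⟨1, H.one_mem, fun h' => absurd h' hex⟩
  choose r hrH hrx using hr
  let f : ↥H → ↥S × ↥(H ⊓ MulAction.stabilizer (Equiv.Perm α) x) := fun h =>
    (⟨h.1 x, hS h.1 h.2⟩, ⟨(r ⟨h.1 x, hS h.1 h.2⟩)⁻¹ * h.1,
      Subgroup.mem_inf.2 ⟨H.mul_mem (H.inv_mem (hrH _)) h.2, MulAction.mem_stabilizer_iff.2 (by
        show ((r ⟨h.1 x, hS h.1 h.2⟩)⁻¹ * h.1) x = x
        rw [Equiv.Perm.mul_apply, Equiv.Perm.inv_eq_iff_eq]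
        exact (hrx ⟨h.1 x, hS h.1 h.2⟩ ⟨h.1, h.2, rfl⟩).symm)⟩⟩)
  have hinj : Function.Injective f := by
    intro h h' e
    have e1 : h.1 x = h'.1 x := congrArg (fun p => (p.1 : α)) e
    have e2 : (r ⟨h.1 x, hS h.1 h.2⟩)⁻¹ * h.1 = (r ⟨h'.1 x, hS h'.1 h'.2⟩)⁻¹ * h'.1 :=
      congrArg (fun p => (p.2 : Equiv.Perm α)) e
    have e3 : (⟨h.1 x, hS h.1 h.2⟩ : ↥S) = ⟨h'.1 x, hS h'.1 h'.2⟩ := Subtype.ext e1
    rw [e3] at e2
    exact Subtype.ext (mul_left_cancel e2)
  haveI : Finite ↥(H ⊓ MulAction.stabilizer (Equiv.Perm α) x) :=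
    Finite.of_injective (fun k => (⟨k.1, (Subgroup.mem_inf.1 k.2).1⟩ : ↥H))
      (fun a b e => Subtype.ext (congrArg (fun t : ↥H => (t : Equiv.Perm α)) e))
  have := Nat.card_le_card_of_injective f hinj
  rwa [Nat.card_prod, Nat.card_eq_fintype_card (α := ↥S), Fintype.card_coe] at this

/-- a root element at a point off the block generates the group together with the two root
elements of the block. -/
theorem u35m_gen (g : Equiv.Perm (Fin 252)) (hg : g ∈ u35mK) (hO : u35minO (g 0) = false) :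
    u35mK ≤ Subgroup.closure ({u35mz, u35my, g * u35mz * g⁻¹} : Set (Equiv.Perm (Fin 252))) := by
  set C := Subgroup.closure ({u35mz, u35my, g * u35mz * g⁻¹} : Set (Equiv.Perm (Fin 252)))
    with hC
  have hz : u35mz ∈ C := Subgroup.subset_closure (by simp)
  have hy : u35my ∈ C := Subgroup.subset_closure (by simp)
  have hw : g * u35mz * g⁻¹ ∈ C := Subgroup.subset_closure (by simp)
  have hzy : ∀ c, u35nevP (u35mzy c) ∈ C := fun c => by
    unfold u35mzy
    split_ifs
    · exact hz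
    · exact hy
  set l := u35nevP (u35mflat u35mzy (u35mLr.getD (g 0).val [])) with hl
  have hlC : l ∈ C := u35mflat_mem C u35mzy hzy _
  have hlK : l ∈ u35mK := u35nevP_mem _
  have hl0 : (l * g) 0 = 2 ∨ (l * g) 0 = 3 := by
    rw [Equiv.Perm.mul_apply, hl, u35nevP_apply]
    exact u35m_lr (g 0) hO
  have hconj : (l * g) * u35mz * (l * g)⁻¹ ∈ C := by
    have e : (l * g) * u35mz * (l * g)⁻¹ = l * (g * u35mz * g⁻¹) * l⁻¹ := by group
    rw [e]
    exact C.mul_mem (C.mul_mem hlC hw) (C.inv_mem hlC)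
  have key : ∀ (T G1 G2 : List ℕ) (t0 : Fin 252), u35nev T (0 : Fin 252) = t0 →
      (l * g) 0 = t0 →
      (∀ x : Fin 252, u35nev (u35mflat (fun c => if c = 0 then u35mWz else if c = 1 then u35mWy
        else u35minvW T ++ (u35mWz ++ T)) G1) x = u35f1 x) →
      (∀ x : Fin 252, u35nev (u35mflat (fun c => if c = 0 then u35mWz else if c = 1 then u35mWy
        else u35minvW T ++ (u35mWz ++ T)) G2) x = u35f2 x) → u35mK ≤ C := by
    intro T G1 G2 t0 hT h0 hG1 hG2
    have ht : u35nevP T (0 : Fin 252) = t0 := by rw [u35nevP_apply]; exact hT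
    have hwT : u35nevP (u35minvW T ++ (u35mWz ++ T)) = u35nevP T * u35mz * (u35nevP T)⁻¹ := by
      rw [u35nevP_append, u35nevP_append, u35nevP_inv]; rfl
    have hwC : u35nevP (u35minvW T ++ (u35mWz ++ T)) ∈ C := by
      rcases u35m_conj_of_eq (l * g) (u35nevP T) (Subgroup.mul_mem _ hlK hg) (u35nevP_mem _)
        (h0.trans ht.symm) with e | e
      · rw [hwT, ← e]; exact hconj
      · have e2 : u35nevP T * u35mz * (u35nevP T)⁻¹ = ((l * g) * u35mz * (l * g)⁻¹)⁻¹ := by
          rw [e, ← u35m_conj_inv, inv_inv]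
        rw [hwT, e2]
        exact C.inv_mem hconj
    have hgen : ∀ c, u35nevP ((fun c => if c = 0 then u35mWz else if c = 1 then u35mWy
        else u35minvW T ++ (u35mWz ++ T)) c) ∈ C := fun c => by
      show u35nevP (if c = 0 then u35mWz else if c = 1 then u35mWy
        else u35minvW T ++ (u35mWz ++ T)) ∈ C
      split_ifs
      · exact hz
      · exact hy
      · exact hwC
    have h1 : u35s1 ∈ C := by
      have e : u35s1 = u35nevP (u35mflat (fun c => if c = 0 then u35mWz else if c = 1 then u35mWy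
          else u35minvW T ++ (u35mWz ++ T)) G1) :=
        Equiv.ext fun x => by rw [u35nevP_apply]; exact (hG1 x).symm
      rw [e]
      exact u35mflat_mem C _ hgen _
    have h2 : u35s2 ∈ C := by
      have e : u35s2 = u35nevP (u35mflat (fun c => if c = 0 then u35mWz else if c = 1 then u35mWy
          else u35minvW T ++ (u35mWz ++ T)) G2) :=
        Equiv.ext fun x => by rw [u35nevP_apply]; exact (hG2 x).symm
      rw [e]
      exact u35mflat_mem C _ hgen _
    refine (Subgroup.closure_le C).2 ?_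
    rintro x (rfl | rfl)
    · exact h1
    · exact h2
  rcases hl0 with h2 | h3
  · exact key u35mT2 u35mG21 u35mG22 2 u35m_t.1 h2 u35m_gen2.1 u35m_gen2.2
  · exact key u35mT3 u35mG31 u35mG32 3 u35m_t.2 h3 u35m_gen3.1 u35m_gen3.2


/-- a subgroup of order greater than 2520 containing the two root elements of the block is the
whole group. -/
theorem u35m_rootD (H : Subgroup (Equiv.Perm (Fin 252))) (hH : H ≤ u35mK) (hz : u35mz ∈ H)
    (hy : u35my ∈ H) (hc : 2520 < Nat.card H) : u35mK ≤ H := by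
  by_cases hex : ∃ h ∈ H, u35minO (h 0) = false
  · obtain ⟨h, hh, hO⟩ := hex
    refine (u35m_gen h (hH hh) hO).trans ((Subgroup.closure_le H).2 ?_)
    rintro x (rfl | rfl | rfl)
    · exact hz
    · exact hy
    · exact H.mul_mem (H.mul_mem hh hz) (H.inv_mem hh)
  · exfalso
    have hex' : ∀ h ∈ H, u35minO (h 0) = true := fun h hh => by
      by_contra hne
      exact hex ⟨h, hh, by simpa using hne⟩
    have hS : ∀ h ∈ H, h (0 : Fin 252) ∈
        Finset.univ.filter (fun x : Fin 252 => u35minO x = true) :=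
      fun h hh => Finset.mem_filter.2 ⟨Finset.mem_univ _, hex' h hh⟩
    have hb := u35m_orbit_bound H (0 : Fin 252) _ hS
    rw [u35m_inO_card] at hb
    have hle : H ⊓ MulAction.stabilizer (Equiv.Perm (Fin 252)) (0 : Fin 252) ≤
        u35mK ⊓ MulAction.stabilizer (Equiv.Perm (Fin 252)) (0 : Fin 252) :=
      inf_le_inf_right _ hH
    have hG0c := u35m_stab_card
    have h211 : 211 ≤
        Nat.card ↥(H ⊓ MulAction.stabilizer (Equiv.Perm (Fin 252)) (0 : Fin 252)) := by omega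
    have ha : u35ma ∈ H := by
      have haG0 : u35ma ∈ u35mK ⊓ MulAction.stabilizer (Equiv.Perm (Fin 252)) (0 : Fin 252) :=
        Subgroup.mem_inf.2 ⟨u35ma_mem, MulAction.mem_stabilizer_iff.2 u35ma_fix⟩
      have hcard := Subgroup.card_mul_index
        ((H ⊓ MulAction.stabilizer (Equiv.Perm (Fin 252)) (0 : Fin 252)).subgroupOf
          (u35mK ⊓ MulAction.stabilizer (Equiv.Perm (Fin 252)) (0 : Fin 252)))
      rw [Nat.card_congr (Subgroup.subgroupOfEquivOfLe hle).toEquiv] at hcard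
      have hi2 : ((H ⊓ MulAction.stabilizer (Equiv.Perm (Fin 252)) (0 : Fin 252)).subgroupOf
          (u35mK ⊓ MulAction.stabilizer (Equiv.Perm (Fin 252)) (0 : Fin 252))).index ≤ 2 := by
        by_contra hi
        have h3 : 3 ≤ ((H ⊓ MulAction.stabilizer (Equiv.Perm (Fin 252)) (0 : Fin 252)).subgroupOf
          (u35mK ⊓ MulAction.stabilizer (Equiv.Perm (Fin 252)) (0 : Fin 252))).index := by omega
        have := Nat.mul_le_mul h211 h3
        omega
      have hi0 : ((H ⊓ MulAction.stabilizer (Equiv.Perm (Fin 252)) (0 : Fin 252)).subgroupOf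
          (u35mK ⊓ MulAction.stabilizer (Equiv.Perm (Fin 252)) (0 : Fin 252))).index ≠ 0 := by
        intro h0
        rw [h0, Nat.mul_zero] at hcard
        have := Nat.card_pos
          (α := ↥(u35mK ⊓ MulAction.stabilizer (Equiv.Perm (Fin 252)) (0 : Fin 252)))
        omega
      have hi : ((H ⊓ MulAction.stabilizer (Equiv.Perm (Fin 252)) (0 : Fin 252)).subgroupOf
          (u35mK ⊓ MulAction.stabilizer (Equiv.Perm (Fin 252)) (0 : Fin 252))).index = 1 ∨
          ((H ⊓ MulAction.stabilizer (Equiv.Perm (Fin 252)) (0 : Fin 252)).subgroupOf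
          (u35mK ⊓ MulAction.stabilizer (Equiv.Perm (Fin 252)) (0 : Fin 252))).index = 2 := by
        omega
      rcases hi with h1 | h2
      · have ht := Subgroup.index_eq_one.1 h1
        have := Subgroup.subgroupOf_eq_top.1 ht
        exact (Subgroup.mem_inf.1 (this haG0)).1
      · have hm := Subgroup.mul_self_mem_of_index_two h2
          (⟨u35ma, haG0⟩ : ↥(u35mK ⊓ MulAction.stabilizer (Equiv.Perm (Fin 252)) (0 : Fin 252)))
        have haa : u35ma * u35ma ∈
            H ⊓ MulAction.stabilizer (Equiv.Perm (Fin 252)) (0 : Fin 252) :=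
          Subgroup.mem_subgroupOf.1 hm
        have haa' : u35ma * u35ma ∈ H := (Subgroup.mem_inf.1 haa).1
        have e : u35ma = (u35ma * u35ma) ^ 3 := by
          rw [← pow_two, ← pow_mul]
          calc u35ma = u35ma ^ 5 * u35ma := by rw [u35ma_pow5, one_mul]
            _ = u35ma ^ (2 * 3) := by rw [← pow_succ]
        rw [e]
        exact H.pow_mem haa' 3
    have hl0 : u35nevP (u35mflat u35mzy u35mL0) ∈ H := u35mflat_mem H u35mzy (fun c => by
      unfold u35mzy
      split_ifs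
      · exact hz
      · exact hy) _
    have hbad := hex' (u35ma * u35nevP (u35mflat u35mzy u35mL0)) (H.mul_mem ha hl0)
    rw [Equiv.Perm.mul_apply, u35nevP_apply, u35m_l0, u35ma_apply, u35m_a26] at hbad
    exact Bool.false_ne_true hbad

/-- **A subgroup of order greater than 2520 containing the root element is the whole
group.** -/
theorem u35m_root (H : Subgroup (Equiv.Perm (Fin 252))) (hH : H ≤ u35mK) (hz : u35mz ∈ H)
    (hc : 2520 < Nat.card H) : u35mK ≤ H := by
  have hex : ∃ h ∈ H, 2 ≤ (h (0 : Fin 252)).val := by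
    by_contra hne
    have hS : ∀ h ∈ H, h (0 : Fin 252) ∈ ({0, 1} : Finset (Fin 252)) := fun h hh => by
      have hv : (h (0 : Fin 252)).val < 2 := by
        by_contra hv
        exact hne ⟨h, hh, by omega⟩
      have h01 : (h (0 : Fin 252)).val = 0 ∨ (h (0 : Fin 252)).val = 1 := by omega
      rw [Finset.mem_insert, Finset.mem_singleton]
      rcases h01 with e | e
      · left; exact Fin.ext e
      · right; exact Fin.ext e
    have hb := u35m_orbit_bound H (0 : Fin 252) {0, 1} hS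
    rw [Finset.card_pair (by decide)] at hb
    have hle : Nat.card ↥(H ⊓ MulAction.stabilizer (Equiv.Perm (Fin 252)) (0 : Fin 252)) ≤
        Nat.card ↥(u35mK ⊓ MulAction.stabilizer (Equiv.Perm (Fin 252)) (0 : Fin 252)) :=
      Subgroup.card_le_of_le (inf_le_inf_right _ hH)
    have := u35m_stab_card
    omega
  obtain ⟨h, hh, hr⟩ := hex
  set u := u35nevP (u35mflat u35mab (u35mU.getD (h 0).val [])) with hu
  have huK : u ∈ u35mK := u35nevP_mem _
  have huz : u35mz * u = u * u35mz := by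
    have hcen : u ∈ Subgroup.centralizer ({u35mz} : Set (Equiv.Perm (Fin 252))) :=
      u35mflat_mem _ u35mab (fun c => by
        unfold u35mab
        split_ifs
        · exact Subgroup.mem_centralizer_iff.2 (fun x hx => by
            rw [Set.mem_singleton_iff.1 hx]; exact u35m_za)
        · exact Subgroup.mem_centralizer_iff.2 (fun x hx => by
            rw [Set.mem_singleton_iff.1 hx]; exact u35m_zb)) _
    exact Subgroup.mem_centralizer_iff.1 hcen u35mz rfl
  have hu0 : (u * h) 0 = 26 ∨ (u * h) 0 = 27 := by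
    rw [Equiv.Perm.mul_apply, hu, u35nevP_apply]
    exact u35m_u (h 0) hr
  set H' := H.map (MulAut.conj u).toMonoidHom with hH'
  have hmem : ∀ x, x ∈ H → u * x * u⁻¹ ∈ H' := fun x hx => ⟨x, hx, by simp [MulAut.conj_apply]⟩
  have hH'K : H' ≤ u35mK := by
    rintro _ ⟨x, hx, rfl⟩
    have e : (MulAut.conj u).toMonoidHom x = u * x * u⁻¹ := by simp [MulAut.conj_apply]
    rw [e]
    exact Subgroup.mul_mem _ (Subgroup.mul_mem _ huK (hH hx)) (Subgroup.inv_mem _ huK)
  have hcard : Nat.card H' = Nat.card H :=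
    (Nat.card_congr ((MulAut.conj u).subgroupMap H).toEquiv).symm
  have hzH' : u35mz ∈ H' := by
    have h1 := hmem u35mz hz
    have e : u * u35mz * u⁻¹ = u35mz := by rw [← huz, mul_inv_cancel_right]
    rwa [e] at h1
  have hyH' : u35my ∈ H' := by
    have hc1 : (u * h) * u35mz * (u * h)⁻¹ ∈ H' := by
      have e : (u * h) * u35mz * (u * h)⁻¹ = u * (h * u35mz * h⁻¹) * u⁻¹ := by group
      rw [e]
      exact hmem _ (H.mul_mem (H.mul_mem hh hz) (H.inv_mem hh))
    have huh : u * h ∈ u35mK := Subgroup.mul_mem _ huK (hH hh)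
    have hs1 : u35s1 ∈ u35mK := Subgroup.subset_closure (by simp)
    rcases hu0 with h26 | h27
    · have ht : u35s1 (0 : Fin 252) = 26 := u35m_s1.1
      rcases u35m_conj_of_eq (u * h) u35s1 huh hs1 (h26.trans ht.symm) with e | e
      · rw [u35my_eq, ← e]; exact hc1
      · have e2 : u35my = ((u * h) * u35mz * (u * h)⁻¹)⁻¹ := by
          rw [e, u35m_conj_inv, inv_inv, u35my_eq]
        rw [e2]
        exact H'.inv_mem hc1
    · have hτ0 : u35nevP u35mWsw (0 : Fin 252) = 1 := by rw [u35nevP_apply]; exact u35m_sw.1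
      have hτz : u35nevP u35mWsw * u35mz * (u35nevP u35mWsw)⁻¹ = u35mz ^ 3 := by
        rw [mul_inv_eq_iff_eq_mul]
        refine Equiv.ext fun x => ?_
        rw [Equiv.Perm.mul_apply, Equiv.Perm.mul_apply, ← Equiv.Perm.iterate_eq_pow]
        have ez : ⇑u35mz = u35nev u35mWz := funext u35mz_apply
        rw [ez, u35nevP_apply, u35nevP_apply]
        exact u35m_sw.2 x
      have ht : (u35s1 * u35nevP u35mWsw) (0 : Fin 252) = 27 := by
        rw [Equiv.Perm.mul_apply, hτ0]; exact u35m_s1.2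
      have hy3 : u35s1 * u35nevP u35mWsw * u35mz * (u35s1 * u35nevP u35mWsw)⁻¹ =
          u35my ^ 3 := by
        have e : u35s1 * u35nevP u35mWsw * u35mz * (u35s1 * u35nevP u35mWsw)⁻¹ =
            u35s1 * (u35nevP u35mWsw * u35mz * (u35nevP u35mWsw)⁻¹) * u35s1⁻¹ := by group
        rw [e, hτz, u35my_eq, conj_pow]
      have hy3' : u35s1 * u35nevP u35mWsw * u35mz⁻¹ * (u35s1 * u35nevP u35mWsw)⁻¹ =
          (u35my ^ 3)⁻¹ := by rw [u35m_conj_inv, hy3]
      have hy3mem : u35my ^ 3 ∈ H' := by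
        rcases u35m_conj_of_eq (u * h) (u35s1 * u35nevP u35mWsw) huh
          (Subgroup.mul_mem _ hs1 (u35nevP_mem _)) (h27.trans ht.symm) with e | e
        · rw [← hy3, ← e]; exact hc1
        · have e2 : u35my ^ 3 = ((u * h) * u35mz * (u * h)⁻¹)⁻¹ := by rw [e, hy3', inv_inv]
          rw [e2]
          exact H'.inv_mem hc1
      have e : u35my = (u35my ^ 3) ^ 2 := by
        rw [← pow_mul]
        calc u35my = u35my ^ 5 * u35my := by rw [u35my_pow5, one_mul]
          _ = u35my ^ (3 * 2) := by rw [← pow_succ]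
      rw [e]
      exact H'.pow_mem hy3mem 2
  have hfin := u35m_rootD H' hH'K hzH' hyH' (by rw [hcard]; exact hc)
  intro x hx
  have hx' : u * x * u⁻¹ ∈ H' :=
    hfin (Subgroup.mul_mem _ (Subgroup.mul_mem _ huK hx) (Subgroup.inv_mem _ huK))
  obtain ⟨x', hx'H, e⟩ := hx'
  have e' : u * x' * u⁻¹ = u * x * u⁻¹ := by simpa [MulAut.conj_apply] using e
  have e2 : x' = x := mul_left_cancel (mul_right_cancel e')
  rw [← e2]
  exact hx'H


/-! ### The Sylow 5-subgroup -/

/-- the Sylow 5-subgroup fixing the point `0`. -/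
abbrev u35mQ : Subgroup (Equiv.Perm (Fin 252)) :=
  Subgroup.closure ({u35ma, u35mb} : Set (Equiv.Perm (Fin 252)))

theorem u35m_ba : u35mb * u35ma = u35ma * u35mb * u35mz ^ 4 := by
  have hza : Commute u35mz u35ma := u35m_za
  have hzb : Commute u35mz u35mb := u35m_zb
  have h4a : Commute (u35mz ^ 4) u35ma := hza.pow_left 4
  have h4b : Commute (u35mz ^ 4) u35mb := hzb.pow_left 4
  calc u35mb * u35ma = u35mz ^ 5 * (u35mb * u35ma) := by rw [u35mz_pow5, one_mul]
    _ = u35mz * u35mz ^ 4 * (u35mb * u35ma) := by rw [← pow_succ']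
    _ = u35mz * (u35mz ^ 4 * u35mb) * u35ma := by simp only [mul_assoc]
    _ = u35mz * (u35mb * u35mz ^ 4) * u35ma := by rw [h4b.eq]
    _ = u35mz * u35mb * (u35mz ^ 4 * u35ma) := by simp only [mul_assoc]
    _ = u35mz * u35mb * (u35ma * u35mz ^ 4) := by rw [h4a.eq]
    _ = (u35mz * u35mb * u35ma) * u35mz ^ 4 := by simp only [mul_assoc]
    _ = u35ma * u35mb * u35mz ^ 4 := by rw [← u35m_ab]

theorem u35m_ba_pow (i : ℕ) : u35mb * u35ma ^ i = u35ma ^ i * u35mb * u35mz ^ (4 * i) := by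
  have hza : Commute u35mz u35ma := u35m_za
  induction i with
  | zero => simp
  | succ i ih =>
    have hc : Commute (u35mz ^ (4 * i)) u35ma := hza.pow_left _
    calc u35mb * u35ma ^ (i + 1) = (u35mb * u35ma ^ i) * u35ma := by rw [pow_succ, mul_assoc]
      _ = u35ma ^ i * u35mb * (u35mz ^ (4 * i) * u35ma) := by rw [ih]; simp only [mul_assoc]
      _ = u35ma ^ i * u35mb * (u35ma * u35mz ^ (4 * i)) := by rw [hc.eq]
      _ = u35ma ^ i * (u35mb * u35ma) * u35mz ^ (4 * i) := by simp only [mul_assoc]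
      _ = u35ma ^ i * (u35ma * u35mb * u35mz ^ 4) * u35mz ^ (4 * i) := by rw [u35m_ba]
      _ = u35ma ^ (i + 1) * u35mb * (u35mz ^ 4 * u35mz ^ (4 * i)) := by
        rw [pow_succ u35ma i]; simp only [mul_assoc]
      _ = u35ma ^ (i + 1) * u35mb * u35mz ^ (4 * (i + 1)) := by
        rw [← pow_add]; congr 2; ring

theorem u35mQ_form : ∀ g ∈ u35mQ, ∃ i j k : ℕ, g = u35ma ^ i * u35mb ^ j * u35mz ^ k := by
  have hzb : Commute u35mz u35mb := u35m_zb
  have Ha : ∀ y : Equiv.Perm (Fin 252), (∃ i j k : ℕ, y = u35ma ^ i * u35mb ^ j * u35mz ^ k) →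
      ∃ i j k : ℕ, u35ma * y = u35ma ^ i * u35mb ^ j * u35mz ^ k := by
    rintro y ⟨i, j, k, rfl⟩
    exact ⟨i + 1, j, k, by rw [pow_succ']; simp only [mul_assoc]⟩
  have Hb : ∀ y : Equiv.Perm (Fin 252), (∃ i j k : ℕ, y = u35ma ^ i * u35mb ^ j * u35mz ^ k) →
      ∃ i j k : ℕ, u35mb * y = u35ma ^ i * u35mb ^ j * u35mz ^ k := by
    rintro y ⟨i, j, k, rfl⟩
    refine ⟨i, j + 1, 4 * i + k, ?_⟩
    have hc : Commute (u35mz ^ (4 * i)) (u35mb ^ j) := hzb.pow_pow _ _
    calc u35mb * (u35ma ^ i * u35mb ^ j * u35mz ^ k)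
        = (u35mb * u35ma ^ i) * u35mb ^ j * u35mz ^ k := by simp only [mul_assoc]
      _ = u35ma ^ i * u35mb * (u35mz ^ (4 * i) * u35mb ^ j) * u35mz ^ k := by
        rw [u35m_ba_pow]; simp only [mul_assoc]
      _ = u35ma ^ i * u35mb * (u35mb ^ j * u35mz ^ (4 * i)) * u35mz ^ k := by rw [hc.eq]
      _ = u35ma ^ i * (u35mb * u35mb ^ j) * (u35mz ^ (4 * i) * u35mz ^ k) := by
        simp only [mul_assoc]
      _ = u35ma ^ i * u35mb ^ (j + 1) * u35mz ^ (4 * i + k) := by rw [← pow_succ', ← pow_add]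
  have ha4 : u35ma⁻¹ = u35ma ^ 4 := by
    rw [inv_eq_iff_mul_eq_one, ← pow_succ']; exact u35ma_pow5
  have hb4 : u35mb⁻¹ = u35mb ^ 4 := by
    rw [inv_eq_iff_mul_eq_one, ← pow_succ']; exact u35mb_pow5
  intro g hg
  refine Subgroup.closure_induction_left
    (p := fun g _ => ∃ i j k : ℕ, g = u35ma ^ i * u35mb ^ j * u35mz ^ k) ?_ ?_ ?_ hg
  · exact ⟨0, 0, 0, by simp⟩
  · rintro x (rfl | rfl) y _ hy
    · exact Ha y hy
    · exact Hb y hy
  · rintro x (rfl | rfl) y _ hy
    · have e : u35ma⁻¹ * y = u35ma * (u35ma * (u35ma * (u35ma * y))) := by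
        rw [ha4]; simp only [pow_succ, pow_zero, one_mul, mul_assoc]
      rw [e]
      exact Ha _ (Ha _ (Ha _ (Ha _ hy)))
    · have e : u35mb⁻¹ * y = u35mb * (u35mb * (u35mb * (u35mb * y))) := by
        rw [hb4]; simp only [pow_succ, pow_zero, one_mul, mul_assoc]
      rw [e]
      exact Hb _ (Hb _ (Hb _ (Hb _ hy)))

theorem u35mz_memQ : u35mz ∈ u35mQ := by
  have ha : u35ma ∈ u35mQ := Subgroup.subset_closure (by simp)
  have hb : u35mb ∈ u35mQ := Subgroup.subset_closure (by simp)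
  have e : u35mz = u35ma * u35mb * u35ma⁻¹ * u35mb⁻¹ := by
    rw [u35m_ab]; group
  rw [e]
  exact Subgroup.mul_mem _ (Subgroup.mul_mem _ (Subgroup.mul_mem _ ha hb) (Subgroup.inv_mem _ ha))
    (Subgroup.inv_mem _ hb)

theorem u35mQ_central : ∀ q ∈ u35mQ, u35mz * q = q * u35mz := by
  have hle : u35mQ ≤ Subgroup.centralizer ({u35mz} : Set (Equiv.Perm (Fin 252))) := by
    refine (Subgroup.closure_le _).2 ?_
    rintro x (rfl | rfl)
    · exact Subgroup.mem_centralizer_iff.2 (fun y hy => by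
        rw [Set.mem_singleton_iff.1 hy]; exact u35m_za)
    · exact Subgroup.mem_centralizer_iff.2 (fun y hy => by
        rw [Set.mem_singleton_iff.1 hy]; exact u35m_zb)
  intro q hq
  exact Subgroup.mem_centralizer_iff.1 (hle hq) u35mz rfl

theorem u35mQ_eval (i j k : ℕ) : (u35ma ^ i * u35mb ^ j * u35mz ^ k) (26 : Fin 252) =
    (u35nev u35mWa)^[i] ((u35nev u35mWb)^[j] ((u35nev u35mWz)^[k] (26 : Fin 252))) := by
  have ea : ⇑u35ma = u35nev u35mWa := funext u35ma_apply
  have eb : ⇑u35mb = u35nev u35mWb := funext u35mb_apply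
  have ez : ⇑u35mz = u35nev u35mWz := funext u35mz_apply
  rw [Equiv.Perm.mul_apply, Equiv.Perm.mul_apply, ← Equiv.Perm.iterate_eq_pow,
    ← Equiv.Perm.iterate_eq_pow, ← Equiv.Perm.iterate_eq_pow, ea, eb, ez]

theorem u35mQ_card : Nat.card ↥u35mQ = 125 := by
  have ha : u35ma ∈ u35mQ := Subgroup.subset_closure (by simp)
  have hb : u35mb ∈ u35mQ := Subgroup.subset_closure (by simp)
  let φ : Fin 5 × Fin 5 × Fin 5 → ↥u35mQ := fun t =>
    ⟨u35ma ^ t.1.val * u35mb ^ t.2.1.val * u35mz ^ t.2.2.val,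
      Subgroup.mul_mem _ (Subgroup.mul_mem _ (Subgroup.pow_mem _ ha _) (Subgroup.pow_mem _ hb _))
        (Subgroup.pow_mem _ u35mz_memQ _)⟩
  have hinj : Function.Injective φ := by
    rintro ⟨i, j, k⟩ ⟨i', j', k'⟩ e
    have e1 : u35ma ^ i.val * u35mb ^ j.val * u35mz ^ k.val =
        u35ma ^ i'.val * u35mb ^ j'.val * u35mz ^ k'.val := congrArg Subtype.val e
    have e2 := congrArg (fun f : Equiv.Perm (Fin 252) => u35mdec (f 26)) e1
    simp only [u35mQ_eval, u35m_dec] at e2
    have hi := i.isLt; have hj := j.isLt; have hk := k.isLt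
    have hi' := i'.isLt; have hj' := j'.isLt; have hk' := k'.isLt
    have h1 : i.val = i'.val := by omega
    have h2 : j.val = j'.val := by omega
    have h3 : k.val = k'.val := by omega
    rw [Prod.mk.injEq, Prod.mk.injEq]
    exact ⟨Fin.ext h1, Fin.ext h2, Fin.ext h3⟩
  have hsurj : Function.Surjective φ := by
    rintro ⟨g, hg⟩
    obtain ⟨i, j, k, rfl⟩ := u35mQ_form g hg
    refine ⟨(⟨i % 5, Nat.mod_lt _ (by norm_num)⟩, ⟨j % 5, Nat.mod_lt _ (by norm_num)⟩,
      ⟨k % 5, Nat.mod_lt _ (by norm_num)⟩), Subtype.ext ?_⟩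
    show u35ma ^ (i % 5) * u35mb ^ (j % 5) * u35mz ^ (k % 5) = _
    rw [← pow_eq_pow_mod i u35ma_pow5, ← pow_eq_pow_mod j u35mb_pow5,
      ← pow_eq_pow_mod k u35mz_pow5]
  have := Nat.card_congr (Equiv.ofBijective φ ⟨hinj, hsurj⟩)
  rw [Nat.card_prod, Nat.card_prod, Nat.card_fin] at this
  omega

theorem u35m_pow_gen {G : Type*} [Group G] (z : G) (h5 : z ^ 5 = 1) (d : ℕ) (hd : d % 5 ≠ 0)
    (A : Subgroup G) (h : z ^ d ∈ A) : z ∈ A := by
  have hlt : d % 5 < 5 := Nat.mod_lt _ (by norm_num)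
  obtain ⟨m, hm⟩ : ∃ m, d % 5 * m % 5 = 1 := by
    have h4 : d % 5 = 1 ∨ d % 5 = 2 ∨ d % 5 = 3 ∨ d % 5 = 4 := by omega
    rcases h4 with e | e | e | e
    · exact ⟨1, by rw [e]⟩
    · exact ⟨3, by rw [e]⟩
    · exact ⟨2, by rw [e]⟩
    · exact ⟨4, by rw [e]⟩
  have e : z = (z ^ d) ^ m := by
    rw [pow_eq_pow_mod d h5, ← pow_mul, pow_eq_pow_mod (d % 5 * m) h5, hm, pow_one]
  rw [e]
  exact A.pow_mem h m

/-- a subgroup of order 25 of the Sylow 5-subgroup contains the root element. -/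
theorem u35mQ_order25 (A : Subgroup (Equiv.Perm (Fin 252))) (hA : A ≤ u35mQ)
    (hc : Nat.card A = 25) : u35mz ∈ A := by
  by_contra hzA
  have : Fact (Nat.Prime 5) := ⟨by norm_num⟩
  let ψ : ↥A × Fin 5 → ↥u35mQ := fun t =>
    ⟨t.1.1 * u35mz ^ t.2.val, Subgroup.mul_mem _ (hA t.1.2) (Subgroup.pow_mem _ u35mz_memQ _)⟩
  have hinj : Function.Injective ψ := by
    rintro ⟨x, k⟩ ⟨x', k'⟩ e
    have e1 : x.1 * u35mz ^ k.val = x'.1 * u35mz ^ k'.val := congrArg Subtype.val e
    have hkk : k = k' := by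
      by_contra hne
      have hk := k.isLt; have hk' := k'.isLt
      have hne' : k.val ≠ k'.val := fun h => hne (Fin.ext h)
      have e2 : u35mz ^ (k.val + (5 - k'.val)) = x.1⁻¹ * x'.1 := by
        have e3 : u35mz ^ (5 - k'.val) = (u35mz ^ k'.val)⁻¹ := by
          rw [eq_inv_iff_mul_eq_one, ← pow_add]
          have : 5 - k'.val + k'.val = 5 := by omega
          rw [this]; exact u35mz_pow5
        rw [pow_add, e3, eq_inv_mul_iff_mul_eq, ← mul_assoc, e1, mul_inv_cancel_right]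
      have hmem : u35mz ^ (k.val + (5 - k'.val)) ∈ A := by
        rw [e2]; exact A.mul_mem (A.inv_mem x.2) x'.2
      exact hzA (u35m_pow_gen u35mz u35mz_pow5 _ (by omega) A hmem)
    subst hkk
    have e4 : x.1 = x'.1 := mul_right_cancel e1
    rw [Prod.mk.injEq]
    exact ⟨Subtype.ext e4, rfl⟩
  have hsurj : Function.Surjective ψ :=
    (hinj.bijective_of_nat_card_le (by
      rw [Nat.card_prod, hc, Nat.card_fin, u35mQ_card])).2
  have ha : u35ma ∈ u35mQ := Subgroup.subset_closure (by simp)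
  have hb : u35mb ∈ u35mQ := Subgroup.subset_closure (by simp)
  obtain ⟨⟨x1, k1⟩, e1⟩ := hsurj ⟨u35ma, ha⟩
  obtain ⟨⟨x2, k2⟩, e2⟩ := hsurj ⟨u35mb, hb⟩
  have ea : x1.1 * u35mz ^ k1.val = u35ma := congrArg Subtype.val e1
  have eb : x2.1 * u35mz ^ k2.val = u35mb := congrArg Subtype.val e2
  have hcomm : x1.1 * x2.1 = x2.1 * x1.1 := by
    have := IsPGroup.commutative_of_card_eq_prime_sq (p := 5) (G := ↥A) (by rw [hc]; norm_num) x1 x2
    exact congrArg Subtype.val this
  have hz1 : Commute (u35mz ^ k1.val) x2.1 :=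
    (show Commute u35mz x2.1 from u35mQ_central _ (hA x2.2)).pow_left _
  have hz2 : Commute (u35mz ^ k2.val) x1.1 :=
    (show Commute u35mz x1.1 from u35mQ_central _ (hA x1.2)).pow_left _
  have hzz : Commute (u35mz ^ k1.val) (u35mz ^ k2.val) := (Commute.refl u35mz).pow_pow _ _
  have hab : u35ma * u35mb = u35mb * u35ma := by
    rw [← ea, ← eb]
    calc x1.1 * u35mz ^ k1.val * (x2.1 * u35mz ^ k2.val)
        = x1.1 * (u35mz ^ k1.val * x2.1) * u35mz ^ k2.val := by simp only [mul_assoc]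
      _ = x1.1 * (x2.1 * u35mz ^ k1.val) * u35mz ^ k2.val := by rw [hz1.eq]
      _ = (x1.1 * x2.1) * (u35mz ^ k1.val * u35mz ^ k2.val) := by simp only [mul_assoc]
      _ = (x2.1 * x1.1) * (u35mz ^ k2.val * u35mz ^ k1.val) := by rw [hcomm, hzz.eq]
      _ = x2.1 * (x1.1 * u35mz ^ k2.val) * u35mz ^ k1.val := by simp only [mul_assoc]
      _ = x2.1 * (u35mz ^ k2.val * x1.1) * u35mz ^ k1.val := by rw [hz2.eq]
      _ = x2.1 * u35mz ^ k2.val * (x1.1 * u35mz ^ k1.val) := by simp only [mul_assoc]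
  have h1 : u35mz = 1 := by
    have e := u35m_ab
    rw [hab] at e
    have e' : 1 * (u35mb * u35ma) = u35mz * (u35mb * u35ma) := by rw [one_mul, ← mul_assoc]; exact e
    exact (mul_right_cancel e').symm
  exact u35mz_ne h1


/-! ### Sylow arguments -/

theorem u35mQ_le : u35mQ ≤ u35mK := by
  refine (Subgroup.closure_le _).2 ?_
  rintro x (rfl | rfl)
  · exact u35ma_mem
  · exact u35mb_mem

open Pointwise in
/-- a subgroup of order divisible by 25 contains a conjugate of the root element. -/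
theorem u35m_sylow5 (H : Subgroup (Equiv.Perm (Fin 252))) (hH : H ≤ u35mK)
    (h25 : 25 ∣ Nat.card H) : ∃ g ∈ u35mK, g * u35mz * g⁻¹ ∈ H := by
  have : Fact (Nat.Prime 5) := ⟨by norm_num⟩
  obtain ⟨A, hA⟩ := Sylow.exists_subgroup_card_pow_prime (G := ↥H) 5 (n := 2)
    (by rw [show (5 : ℕ) ^ 2 = 25 from by norm_num]; exact h25)
  have hA1c : Nat.card (A.map H.subtype) = 25 := by
    rw [Subgroup.card_map_of_injective (Subgroup.subtype_injective H), hA]; norm_num
  have hA1H : A.map H.subtype ≤ H := by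
    rintro _ ⟨x, _, rfl⟩
    exact x.2
  have hA2c : Nat.card ((A.map H.subtype).subgroupOf u35mK) = 5 ^ 2 := by
    rw [Nat.card_congr (Subgroup.subgroupOfEquivOfLe (hA1H.trans hH)).toEquiv, hA1c]; norm_num
  obtain ⟨P, hP⟩ := (IsPGroup.of_card hA2c).exists_le_sylow
  have hfac : (Nat.card ↥u35mK).factorization 5 = 3 := by
    rw [u35_card_eq, show (126000 : ℕ) = 5 ^ 3 * 1008 from by norm_num,
      Nat.factorization_mul (by norm_num) (by norm_num), Finsupp.add_apply,
      Nat.Prime.factorization_pow (by norm_num), Finsupp.single_eq_same,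
      Nat.factorization_eq_zero_of_not_dvd (by norm_num)]
  let P0 : Sylow 5 ↥u35mK := Sylow.ofCard (u35mQ.subgroupOf u35mK) (by
    rw [Nat.card_congr (Subgroup.subgroupOfEquivOfLe u35mQ_le).toEquiv, u35mQ_card, hfac]
    norm_num)
  obtain ⟨g, hg⟩ := MulAction.exists_smul_eq ↥u35mK P0 P
  have hconj : ∀ x : ↥u35mK, x ∈ (A.map H.subtype).subgroupOf u35mK →
      g⁻¹ * x * g ∈ u35mQ.subgroupOf u35mK := by
    intro x hx
    have hxP : x ∈ (P : Subgroup ↥u35mK) := hP hx
    rw [← hg] at hxP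
    have h1 : x ∈ MulAut.conj g • (u35mQ.subgroupOf u35mK) := hxP
    rw [Subgroup.mem_pointwise_smul_iff_inv_smul_mem] at h1
    have e : (MulAut.conj g)⁻¹ • x = g⁻¹ * x * g := by
      rw [MulAut.smul_def, ← map_inv, MulAut.conj_apply, inv_inv]
    rwa [e] at h1
  have hA4c : Nat.card ((A.map H.subtype).map
      (MulAut.conj (g : Equiv.Perm (Fin 252))⁻¹).toMonoidHom) = 25 := by
    rw [← hA1c]
    exact (Nat.card_congr ((MulAut.conj (g : Equiv.Perm (Fin 252))⁻¹).subgroupMap
      (A.map H.subtype)).toEquiv).symm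
  have hA4Q : (A.map H.subtype).map
      (MulAut.conj (g : Equiv.Perm (Fin 252))⁻¹).toMonoidHom ≤ u35mQ := by
    rintro _ ⟨x, hx, rfl⟩
    have hxK : x ∈ u35mK := hH (hA1H hx)
    have h1 := hconj ⟨x, hxK⟩ (Subgroup.mem_subgroupOf.2 hx)
    have h2 : ((g⁻¹ * ⟨x, hxK⟩ * g : ↥u35mK) : Equiv.Perm (Fin 252)) ∈ u35mQ :=
      Subgroup.mem_subgroupOf.1 h1
    have e : (MulAut.conj (g : Equiv.Perm (Fin 252))⁻¹).toMonoidHom x =
        ((g⁻¹ * ⟨x, hxK⟩ * g : ↥u35mK) : Equiv.Perm (Fin 252)) := by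
      simp [MulAut.conj_apply]
    rw [e]
    exact h2
  obtain ⟨x, hx, e⟩ := u35mQ_order25 _ hA4Q hA4c
  refine ⟨g.1, g.2, ?_⟩
  have e' : (g : Equiv.Perm (Fin 252))⁻¹ * x * (g : Equiv.Perm (Fin 252)) = u35mz := by
    simpa [MulAut.conj_apply] using e
  have e2 : (g : Equiv.Perm (Fin 252)) * u35mz * (g : Equiv.Perm (Fin 252))⁻¹ = x := by
    rw [← e']; group
  rw [e2]
  exact hA1H hx

/-- there is no subgroup of order 5040. -/
theorem u35m_no5040 (H : Subgroup (Equiv.Perm (Fin 252))) (hH : H ≤ u35mK)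
    (hc : Nat.card H = 5040) : False := by
  have : Fact (Nat.Prime 7) := ⟨by norm_num⟩
  obtain ⟨P⟩ := (inferInstance : Nonempty (Sylow 7 ↥H))
  have hfac : (Nat.card ↥H).factorization 7 = 1 := by
    rw [hc, show (5040 : ℕ) = 7 * 720 from by norm_num,
      Nat.factorization_mul (by norm_num) (by norm_num), Finsupp.add_apply,
      Nat.Prime.factorization_self (by norm_num),
      Nat.factorization_eq_zero_of_not_dvd (by norm_num)]
  have hPc : Nat.card (P : Subgroup ↥H) = 7 := by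
    rw [Sylow.card_eq_multiplicity, hfac, pow_one]
  have hmod0 := card_sylow_modEq_one 7 ↥H
  rw [Sylow.card_eq_index_normalizer P] at hmod0
  have hmod : (Subgroup.normalizer ((P : Subgroup ↥H) : Set ↥H)).index ≡ 1 [MOD 7] := hmod0
  have hNi := Subgroup.card_mul_index (Subgroup.normalizer ((P : Subgroup ↥H) : Set ↥H))
  rw [hc] at hNi
  have hι : Function.Injective (Subgroup.inclusion hH) := Subgroup.inclusion_injective hH
  have hX : Nat.card ((P : Subgroup ↥H).map (Subgroup.inclusion hH)) = 7 := by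
    rw [Subgroup.card_map_of_injective hι, hPc]
  have h21 := (u35m_all_seven _ hX).1
  have hle := Subgroup.le_normalizer_map (H := (P : Subgroup ↥H)) (Subgroup.inclusion hH)
  have hd : Nat.card ↥(Subgroup.normalizer ((P : Subgroup ↥H) : Set ↥H)) ∣ 21 := by
    have h1 := Subgroup.card_dvd_of_le hle
    rwa [Subgroup.card_map_of_injective hι, h21] at h1
  have h7 : 7 ∣ Nat.card ↥(Subgroup.normalizer ((P : Subgroup ↥H) : Set ↥H)) := by
    have h1 := Subgroup.card_dvd_of_le (Subgroup.le_normalizer (H := (P : Subgroup ↥H)))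
    rwa [hPc] at h1
  have hN7 : Nat.card ↥(Subgroup.normalizer ((P : Subgroup ↥H) : Set ↥H)) = 7 ∨
      Nat.card ↥(Subgroup.normalizer ((P : Subgroup ↥H) : Set ↥H)) = 21 := by
    have hle21 := Nat.le_of_dvd (by norm_num) hd
    obtain ⟨m, hm⟩ := h7
    rw [hm] at hd hle21 ⊢
    have hm3 : m ≤ 3 := by omega
    interval_cases m
    · omega
    · left; rfl
    · exfalso; revert hd; decide
    · right; rfl
  rcases hN7 with h | h
  · rw [h] at hNi
    have hi : (Subgroup.normalizer ((P : Subgroup ↥H) : Set ↥H)).index = 720 := by omega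
    rw [hi] at hmod
    revert hmod; decide
  · rw [h] at hNi
    have hi : (Subgroup.normalizer ((P : Subgroup ↥H) : Set ↥H)).index = 240 := by omega
    rw [hi] at hmod
    revert hmod; decide

/-- **A subgroup of order greater than 2520 is the whole group.** -/
theorem u35m_main (H : Subgroup (Equiv.Perm (Fin 252))) (hH : H ≤ u35mK)
    (hc : 2520 < Nat.card H) : u35mK ≤ H := by
  have hdvd : Nat.card H ∣ 126000 := by
    rw [← u35_card_eq]; exact Subgroup.card_dvd_of_le hH
  by_cases h25 : 25 ∣ Nat.card H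
  · obtain ⟨g, hg, hgz⟩ := u35m_sylow5 H hH h25
    have hcard : Nat.card (H.map (MulAut.conj g⁻¹).toMonoidHom) = Nat.card H :=
      (Nat.card_congr ((MulAut.conj g⁻¹).subgroupMap H).toEquiv).symm
    have hH'K : H.map (MulAut.conj g⁻¹).toMonoidHom ≤ u35mK := by
      rintro _ ⟨x, hx, rfl⟩
      have e : (MulAut.conj g⁻¹).toMonoidHom x = g⁻¹ * x * g := by simp [MulAut.conj_apply]
      rw [e]
      exact Subgroup.mul_mem _ (Subgroup.mul_mem _ (Subgroup.inv_mem _ hg) (hH hx)) hg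
    have hz : u35mz ∈ H.map (MulAut.conj g⁻¹).toMonoidHom := by
      refine ⟨g * u35mz * g⁻¹, hgz, ?_⟩
      have e : (MulAut.conj g⁻¹).toMonoidHom (g * u35mz * g⁻¹) = g⁻¹ * (g * u35mz * g⁻¹) * g := by
        simp [MulAut.conj_apply]
      rw [e]; group
    have hfin := u35m_root _ hH'K hz (by rw [hcard]; exact hc)
    intro x hx
    have hx' : g⁻¹ * x * g ∈ H.map (MulAut.conj g⁻¹).toMonoidHom :=
      hfin (Subgroup.mul_mem _ (Subgroup.mul_mem _ (Subgroup.inv_mem _ hg) hx) hg)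
    obtain ⟨x', hx'H, e⟩ := hx'
    have e' : g⁻¹ * x' * g = g⁻¹ * x * g := by simpa [MulAut.conj_apply] using e
    have e2 : x' = x := mul_left_cancel (mul_right_cancel e')
    rw [← e2]
    exact hx'H
  · exfalso
    obtain ⟨n, hn⟩ := hdvd
    have hn50 : n < 50 := by
      by_contra h
      have h50 : 50 ≤ n := by omega
      have h1 := Nat.mul_le_mul (Nat.succ_le_of_lt hc) h50
      rw [← hn] at h1
      omega
    have hn0 : n ≠ 0 := by
      rintro rfl
      omega
    have hdiv : Nat.card H = 126000 / n := by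
      rw [hn, Nat.mul_div_cancel _ (Nat.pos_of_ne_zero hn0)]
    have key : ∀ n : Fin 50, n.val ∣ 126000 → 2520 < 126000 / n.val →
        ¬ 25 ∣ 126000 / n.val → 126000 / n.val = 5040 := by decide
    have h5040 := key ⟨n, hn50⟩ ⟨Nat.card H, by rw [hn, mul_comm]⟩ (by rw [← hdiv]; exact hc)
      (by rw [← hdiv]; exact h25)
    exact u35m_no5040 H hH (hdiv.trans h5040)


/-! ### The subgroup of index 50 -/

/-- the subgroup of index 50. -/
abbrev u35mA7 : Subgroup (Equiv.Perm (Fin 252)) :=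
  Subgroup.closure ({u35s1, u35nevP u35mWbeta} : Set (Equiv.Perm (Fin 252)))

theorem u35mA7_le : u35mA7 ≤ u35mK := by
  refine (Subgroup.closure_le _).2 ?_
  rintro x (rfl | rfl)
  · exact Subgroup.subset_closure (by simp)
  · exact u35nevP_mem _

theorem u35mA7_card : 2520 ≤ Nat.card ↥u35mA7 := by
  have hs1 : u35s1 ∈ u35mA7 := Subgroup.subset_closure (by simp)
  have hβ : u35nevP u35mWbeta ∈ u35mA7 := Subgroup.subset_closure (by simp)
  have hf : ∀ c, u35nevP (u35mkl c) ∈ u35mA7 := fun c => by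
    unfold u35mkl
    split_ifs
    · have e : u35nevP [0] = u35s1 := by
        show 1 * u35stpP 0 = u35s1
        rw [one_mul]; rfl
      rw [e]; exact hs1
    · exact hβ
    · have e : u35nevP [2] = u35s1⁻¹ := by
        show 1 * u35stpP 2 = u35s1⁻¹
        rw [one_mul]; rfl
      rw [e]; exact Subgroup.inv_mem _ hs1
    · rw [u35nevP_inv]; exact Subgroup.inv_mem _ hβ
  have h := u35m_chain_ge u35mA7 (u35mflat u35mkl)
    (fun w => u35mflat_mem u35mA7 u35mkl hf w) u35mChK [] u35mChK_chk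
  rwa [u35mStab_nil, u35mChK_prod] at h

theorem u35mA7_ne : ¬ u35mK ≤ u35mA7 := by
  intro hle
  have hs2 : u35s2 ∈ u35mA7 := hle (Subgroup.subset_closure (by simp))
  have hinv : ∀ g ∈ u35mA7, ∀ x : Fin 252, u35minK (g x) = u35minK x := by
    intro g hg
    refine Subgroup.closure_induction
      (p := fun g _ => ∀ x : Fin 252, u35minK (g x) = u35minK x) ?_ ?_ ?_ ?_ hg
    · rintro y (rfl | rfl) x
      · exact (u35m_Kinv x).1
      · rw [u35nevP_apply]; exact (u35m_Kinv x).2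
    · intro x; rfl
    · intro a b _ _ ha hb x
      rw [Equiv.Perm.mul_apply, ha, hb]
    · intro a _ ha x
      have h1 := ha (a⁻¹ x)
      have e : a (a⁻¹ x) = x := by rw [← Equiv.Perm.mul_apply, mul_inv_cancel]; rfl
      rw [e] at h1
      exact h1.symm
  exact u35m_Kbad (hinv u35s2 hs2 0)

/-- **The proper subgroups of the group have index at least 50, and 50 is attained.** -/
theorem u35m_index : (∀ H : Subgroup ↥u35mK, H ≠ ⊤ → 50 ≤ H.index) ∧
    (∃ H : Subgroup ↥u35mK, H.index = 50) := by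
  have part1 : ∀ H : Subgroup ↥u35mK, H ≠ ⊤ → 50 ≤ H.index := by
    intro H hH
    by_contra hlt
    have hci := Subgroup.card_mul_index H
    rw [u35_card_eq] at hci
    have hc : 2520 < Nat.card H := by
      by_contra hle
      have h1 := Nat.mul_le_mul (Nat.le_of_not_lt hle)
        (Nat.le_of_lt_succ (Nat.lt_of_not_le hlt) : H.index ≤ 49)
      rw [hci] at h1
      omega
    have hmap : Nat.card (H.map u35mK.subtype) = Nat.card H :=
      Subgroup.card_map_of_injective (Subgroup.subtype_injective _)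
    have hle : H.map u35mK.subtype ≤ u35mK := by
      rintro _ ⟨x, _, rfl⟩
      exact x.2
    have hfin := u35m_main _ hle (by rw [hmap]; exact hc)
    apply hH
    rw [eq_top_iff]
    intro x _
    obtain ⟨y, hy, e⟩ := hfin x.2
    have e2 : y = x := Subtype.ext e
    rw [← e2]
    exact hy
  refine ⟨part1, u35mA7.subgroupOf u35mK, ?_⟩
  have hne : u35mA7.subgroupOf u35mK ≠ ⊤ := fun h => u35mA7_ne (Subgroup.subgroupOf_eq_top.1 h)
  have h50 := part1 _ hne
  have hci := Subgroup.card_mul_index (u35mA7.subgroupOf u35mK)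
  rw [u35_card_eq, Nat.card_congr (Subgroup.subgroupOfEquivOfLe u35mA7_le).toEquiv] at hci
  have hc := u35mA7_card
  by_contra hne50
  have h51 : 51 ≤ (u35mA7.subgroupOf u35mK).index := by omega
  have h2 := Nat.mul_le_mul hc h51
  rw [hci] at h2
  omega

end Cfsg.Agent.Helper26
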