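import Cfsg.Agent.Helper28.U6.Main
import Cfsg.Agent.Helper26.Co2Count
import Cfsg.Agent.Helper26.McLTrans
import Cfsg.Agent.Helper92.LeechCo2Order
import Cfsg.Agent.Helper57.SUCongr

/-!
# The stabiliser of two minimal vectors with inner product `-2` is `PSU(6, 2)`

The joint stabiliser `u62H` of `U = (4, 4, 0^22)` and `X = -(4 e_∞ + 4 e_22)` in `Co0` has order
`9196830720` (orbit-stabiliser with `co2_trans16` and the census).  Eight explicit words of `Co0`
in this stabiliser satisfy the relators of helper28's presentation `P` of `2.U6(2)` and kill its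
central involution (checked on 24 vectors spanning the lattice rationally), so the simple group
`PSU(6, 2) = P / ⟨z⟩` embeds in `u62H`; the orders agree.
Words found by `scratch/u62/*.py`.
-/

set_option autoImplicit false

namespace Cfsg.Agent.Helper26

open Cfsg

/-- the words of the eight transvections. -/
noncomputable def u62V : Cfsg.Agent.Helper28.U6.P.Gen → List Ltr
  | .x => [Ltr.mono 0 4 8 12 16 20 24 28 32 36 40 44 48 52 56 60 64 68 72 76 80 84 88 92 309409469319277192891334640 20627297954618479526088976 3715070]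
  | .c => [Ltr.mono 0 4 8 12 16 20 24 28 32 36 40 44 48 52 56 60 64 68 72 76 80 84 88 92 309484991379088101952454640 20632332758605873463496976 4135902]
  | .d => [Ltr.mono 12 4 84 8 80 76 40 52 32 64 72 44 0 36 16 68 24 88 28 48 60 20 92 56 74567677939080319219720519695 4971178529272021281314701313 11046145, Ltr.xi, Ltr.mono 24 56 68 20 40 92 64 52 28 80 32 48 8 16 88 84 12 36 0 76 60 72 4 44 74584753704921495526253264880 4972316913661433035083550992 11946270, Ltr.xi, Ltr.mono 0 4 8 12 16 20 24 28 32 36 40 44 48 52 56 60 64 68 72 76 80 84 88 92 4933626269775508019180732415 328908417985033867945382161 7326111, Ltr.xi, Ltr.mono 72 88 48 64 52 12 0 32 40 68 16 92 44 28 4 80 24 8 84 76 36 60 56 20 79208819995217280844038148080 5280587999681152056269209872 14792230, Ltr.xi, Ltr.mono 48 4 12 0 56 84 64 72 32 52 24 44 76 28 92 80 36 60 40 20 16 8 68 88 4660409034618881540625534720 310693935641258769375035648 5249380]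
  | .e => [Ltr.mono 0 4 8 12 16 20 24 28 32 36 40 44 48 52 56 60 64 68 72 76 80 84 88 92 291280287029882586158595840 19418685801992172410573056 2883484]
  | .f => [Ltr.mono 52 36 68 32 72 40 28 60 92 8 56 0 88 20 48 84 24 16 80 76 44 64 4 12 290217754499179322215035120 19347850299945288147669008 2605066, Ltr.xi, Ltr.mono 48 84 40 52 36 32 20 44 0 4 64 56 76 80 60 68 8 24 28 92 16 72 12 88 78918682208434788846089994255 5261245480562319256405999617 12795441, Ltr.xi, Ltr.mono 0 4 8 12 16 20 24 28 32 36 40 44 48 52 56 60 64 68 72 76 80 84 88 92 74277611282942430088302493440 4951840752196162005886832896 9436524, Ltr.xi, Ltr.mono 32 36 64 88 80 24 68 72 20 16 8 28 0 12 44 56 40 60 84 48 52 4 92 76 74295669629666763776900202255 4953044641977784251793346817 9995741, Ltr.xi, Ltr.mono 44 88 36 92 68 52 64 24 12 4 20 80 56 0 40 28 84 8 16 76 72 60 48 32 79208819718444342592553291520 5280587981229622839503552768 14714004]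
  | .g => [Ltr.mono 0 4 8 12 16 20 24 28 32 36 40 44 48 52 56 60 64 68 72 76 80 84 88 92 309485009817121909239705840 20632333987808127282647056 4189530]
  | .h => [Ltr.mono 0 4 8 12 16 20 24 28 32 36 40 44 48 52 56 60 64 68 72 76 80 84 88 92 290217460576253237480390640 19347830705083549165359376 2523006]
  | .i => [Ltr.mono 40 24 84 4 44 76 36 0 12 8 48 52 80 60 32 28 72 56 68 88 20 92 16 64 79227029145223362775006310415 5281801943014890851667087361 16232025, Ltr.xi, Ltr.mono 92 24 48 4 32 44 16 60 52 68 76 36 80 56 28 72 84 12 40 64 8 88 0 20 4932421772398921249677377280 328828118159928083311825152 6452444, Ltr.xi, Ltr.mono 0 4 8 12 16 20 24 28 32 36 40 44 48 52 56 60 64 68 72 76 80 84 88 92 4950555952535732753337942015 330037063502382183555862801 7572223, Ltr.xi, Ltr.mono 88 12 80 68 24 92 4 56 16 44 72 20 8 32 52 28 76 36 60 40 48 64 84 0 308351624567131280611741680 20556774971142085374116112 3629894, Ltr.xi, Ltr.mono 28 12 36 32 88 80 4 60 56 24 0 16 40 44 68 52 92 72 64 20 48 8 76 84 79210024181376836462476988415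 5280668278758455764165132561 15546839]

/-- the packed vectors `4 e_∞ + 4 e_q` (`q ≠ ∞`) and `4 e_∞ - 4 e_0`. -/
def u62B : List ℕ := [62062060636173731114942761100, 62062060636173731114942761160, 62062060636173731114942762120, 62062060636173731114942777480, 62062060636173731114943023240, 62062060636173731114946955400, 62062060636173731115009869960, 62062060636173731116016502920, 62062060636173731132122630280, 62062060636173731389820668040, 62062060636173735512989272200, 62062060636173801483686938760, 62062060636174857014849603720, 62062060636191745513452243080, 62062060636461961491094472840, 62062060640785417133370149000, 62062060709960707409780967560, 62062061816765351832354064520, 62062079525639662593523615880, 62062362867628634772236437640, 62066896339452189631641585800, 62139431888629067382123956360, 63300000675459111389841885320, 62062060636173731114942761092]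

theorem u62_wordOK_append (a b : List Ltr) (ha : wordOK a = true) (hb : wordOK b = true) :
    wordOK (a ++ b) = true := by
  unfold wordOK at *
  rw [List.all_append, ha, hb]
  rfl

theorem u62_smul_eq (wd : List Ltr) (hwd : wordOK wd = true) (x y : leechLattice)
    (hx : sqNorm (x : GolayPt → ℤ) < 64) (hy : sqNorm (y : GolayPt → ℤ) < 64)
    (h : actW wd (pk (x : GolayPt → ℤ)) = pk (y : GolayPt → ℤ)) : semW wd • x = y := by
  apply Subtype.ext
  apply pk_injective (short_of_sqNorm (by rw [co0_norm]; exact hx)) (short_of_sqNorm hy)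
  rw [actW_sound wd hwd x hx]
  exact h

/-- a word in the generators of the presented group as a word of `Co0` (in reverse order). -/
noncomputable def u62sub (l : List ℕ) : List Ltr :=
  List.rec (motive := fun _ => List Ltr) []
    (fun k _ ih => ih ++ u62V (Cfsg.Agent.Helper28.U6T.gen k)) l

theorem u62sub_nil : u62sub [] = [] := rfl

theorem u62sub_cons (k : ℕ) (l : List ℕ) :
    u62sub (k :: l) = u62sub l ++ u62V (Cfsg.Agent.Helper28.U6T.gen k) := rfl

theorem u62V_ok (s : Cfsg.Agent.Helper28.U6.P.Gen) : wordOK (u62V s) = true := by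
  cases s <;> decide +kernel

theorem u62sub_ok (l : List ℕ) : wordOK (u62sub l) = true := by
  induction l with
  | nil => rfl
  | cons k l ih =>
    rw [u62sub_cons]
    exact u62_wordOK_append _ _ ih (u62V_ok _)

/-- the images of the generators. -/
noncomputable def u62v (s : Cfsg.Agent.Helper28.U6.P.Gen) : Co0 := semW (u62V s)

theorem u62_prod (l : List ℕ) :
    (l.map (fun k => u62v (Cfsg.Agent.Helper28.U6T.gen k))).prod = semW (u62sub l) := by
  induction l with
  | nil => simp [u62sub_nil, semW]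
  | cons k l ih =>
    rw [List.map_cons, List.prod_cons, ih, u62sub_cons, semW_append]
    rfl

/-- the word fixes the 24 packed vectors. -/
noncomputable def u62chk (l : List ℕ) : Bool :=
  Cfsg.Agent.Helper28.listAll u62B (fun b => Nat.beq (actW (u62sub l) b) b)

theorem u62B_mem : ∀ q : GolayPt, q ≠ none →
    pk ((Cfsg.Agent.Helper92.P none q : leechLattice) : GolayPt → ℤ) ∈ u62B := by
  decide +kernel

theorem u62B_mem' : pk (Spor.leechU' : GolayPt → ℤ) ∈ u62B := by decide +kernel

theorem u62_one_of_chk (l : List ℕ) (h : u62chk l = true) : semW (u62sub l) = 1 := by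
  have hall := (Cfsg.Agent.Helper28.listAll_iff _ _).mp h
  apply eq_one_of_fix
  · intro q hq
    have hn : sqNorm ((Cfsg.Agent.Helper92.P none q : leechLattice) : GolayPt → ℤ) < 64 := by
      rw [Cfsg.Agent.Helper92.sqNorm_P_of_ne (Ne.symm hq)]; norm_num
    apply u62_smul_eq _ (u62sub_ok l) _ _ hn hn
    exact Nat.eq_of_beq_eq_true (hall _ (u62B_mem q hq))
  · have hn : sqNorm (Spor.leechU' : GolayPt → ℤ) < 64 := by
      rw [sqNorm_leechU'32]; norm_num
    apply u62_smul_eq _ (u62sub_ok l) _ _ hn hn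
    exact Nat.eq_of_beq_eq_true (hall _ u62B_mem')

set_option maxRecDepth 100000 in
theorem u62_rel1 : Cfsg.Agent.Helper28.listAll (Cfsg.Agent.Helper28.U6T.pairs.map
    (fun p => Cfsg.Agent.Helper28.pairWord p.1 p.2.1 p.2.2)) u62chk = true := by decide +kernel

set_option maxRecDepth 100000 in
theorem u62_rel2 : Cfsg.Agent.Helper28.listAll Cfsg.Agent.Helper28.U6T.extraL u62chk = true := by
  decide +kernel

set_option maxRecDepth 100000 in
theorem u62_relz : u62chk Cfsg.Agent.Helper28.U6.zP = true := by decide +kernel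

set_option maxRecDepth 100000 in
theorem u62_sqchk : ∀ k : Fin 8, u62chk [k.val, k.val] = true := by decide +kernel

theorem u62v_sq (s : Cfsg.Agent.Helper28.U6.P.Gen) : u62v s * u62v s = 1 := by
  have h : ∀ k : Fin 8, u62v (Cfsg.Agent.Helper28.U6T.gen k.val) *
      u62v (Cfsg.Agent.Helper28.U6T.gen k.val) = 1 := by
    intro k
    have h1 := u62_prod [k.val, k.val]
    rw [u62_one_of_chk _ (u62_sqchk k)] at h1
    simpa using h1
  cases s
  · exact h 0
  · exact h 1
  · exact h 2
  · exact h 3
  · exact h 4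
  · exact h 5
  · exact h 6
  · exact h 7

/-- the homomorphism from the presented group `2.U6(2)` to `Co0`. -/
noncomputable def u62gamma : Cfsg.Agent.Helper28.U6.P →* Co0 :=
  PresentedGroup.toGroup (Cfsg.Agent.Helper28.U6T.cert.lift_rel u62v u62v_sq
    (fun l hl => by
      rw [u62_prod]
      rcases List.mem_append.mp hl with h | h
      · exact u62_one_of_chk l ((Cfsg.Agent.Helper28.listAll_iff _ _).mp u62_rel1 l h)
      · exact u62_one_of_chk l ((Cfsg.Agent.Helper28.listAll_iff _ _).mp u62_rel2 l h)))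

theorem u62gamma_of (s : Cfsg.Agent.Helper28.U6.P.Gen) :
    u62gamma (PresentedGroup.of s) = u62v s := PresentedGroup.toGroup.of _

theorem u62gamma_pv (l : List ℕ) (hl : ∀ a ∈ l, a < 8) :
    u62gamma (Cfsg.Agent.Helper28.U6.pv l) = semW (u62sub l) := by
  induction l with
  | nil => rw [u62sub_nil]; exact map_one u62gamma
  | cons a l ih =>
    show u62gamma (((a :: l).map (Cfsg.Agent.Helper28.coxVal Cfsg.Agent.Helper28.U6.P.edges
      Cfsg.Agent.Helper28.U6.P.extra Cfsg.Agent.Helper28.U6T.gen 8)).prod) = _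
    rw [List.map_cons, List.prod_cons, map_mul]
    have h1 := ih (fun b hb => hl b (List.mem_cons_of_mem _ hb))
    rw [u62sub_cons, semW_append, ← h1]
    congr 1
    unfold Cfsg.Agent.Helper28.coxVal
    rw [if_pos (hl a List.mem_cons_self), u62gamma_of]
    rfl

theorem u62gamma_z : u62gamma Cfsg.Agent.Helper28.U6.z = 1 := by
  have h := u62gamma_pv Cfsg.Agent.Helper28.U6.zP (by decide)
  rw [u62_one_of_chk _ u62_relz] at h
  exact h

theorem u62_ker : Cfsg.Agent.Helper28.U6.beta.ker ≤ u62gamma.ker := by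
  intro p hp
  rw [MonoidHom.mem_ker] at hp ⊢
  have h1 : Cfsg.Agent.Helper28.U6.isoH p ∈ Cfsg.Agent.Helper28.U6.piH.ker := by
    rw [MonoidHom.mem_ker]
    show Cfsg.Agent.Helper28.U6.beta
      (Cfsg.Agent.Helper28.U6.isoH.symm (Cfsg.Agent.Helper28.U6.isoH p)) = 1
    rw [MulEquiv.symm_apply_apply]
    exact hp
  rw [Cfsg.Agent.Helper28.U6.piH_ker, Subgroup.mem_zpowers_iff] at h1
  obtain ⟨k, hk⟩ := h1
  have h2 : p = Cfsg.Agent.Helper28.U6.z ^ k := by
    apply Cfsg.Agent.Helper28.U6.isoH.injective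
    rw [map_zpow, Cfsg.Agent.Helper28.U6.isoH_z, hk]
  rw [h2, map_zpow, u62gamma_z, one_zpow]

/-- the induced homomorphism from `PSU(6, 2)`. -/
noncomputable def u62delta : Cfsg.PSU 6 Cfsg.Agent.Helper28.GF4 2 →* Co0 :=
  Cfsg.Agent.Helper28.U6.beta.liftOfSurjective Cfsg.Agent.Helper28.U6.beta_surjective
    ⟨u62gamma, u62_ker⟩

theorem u62delta_beta (p : Cfsg.Agent.Helper28.U6.P) :
    u62delta (Cfsg.Agent.Helper28.U6.beta p) = u62gamma p :=
  MonoidHom.liftOfRightInverse_comp_apply _ _ _ ⟨u62gamma, u62_ker⟩ p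

/-- the joint stabiliser of `U` and `X`. -/
noncomputable def u62H : Subgroup Co0 :=
  Cfsg.Agent.Helper92.co2Sub ⊓ MulAction.stabilizer Co0 leechX

theorem mem_u62H (g : Co0) : g ∈ u62H ↔ g • Spor.leechU = Spor.leechU ∧ g • leechX = leechX := by
  unfold u62H
  rw [Subgroup.mem_inf, Cfsg.Agent.Helper92.mem_co2Sub, MulAction.mem_stabilizer_iff]

theorem u62_fix (s : Cfsg.Agent.Helper28.U6.P.Gen) :
    actW (u62V s) pvXU = pvXU ∧ actW (u62V s) pvXX = pvXX := by
  cases s <;> decide +kernel

theorem u62_sq_U : sqNorm (Spor.leechU : GolayPt → ℤ) < 64 := by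
  rw [sqNorm_leechU32]; norm_num

theorem u62_sq_X : sqNorm (leechX : GolayPt → ℤ) < 64 := by
  rw [sqNorm_leechX]; norm_num

theorem u62v_mem (s : Cfsg.Agent.Helper28.U6.P.Gen) : u62v s ∈ u62H := by
  rw [mem_u62H]
  exact ⟨u62_smul_eq _ (u62V_ok s) _ _ u62_sq_U u62_sq_U (by rw [pk_XU]; exact (u62_fix s).1),
    u62_smul_eq _ (u62V_ok s) _ _ u62_sq_X u62_sq_X (by rw [pk_XX]; exact (u62_fix s).2)⟩

theorem u62gamma_mem (p : Cfsg.Agent.Helper28.U6.P) : u62gamma p ∈ u62H := by
  have h : u62gamma.range ≤ u62H := by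
    unfold u62gamma
    rw [Cfsg.Agent.Helper28.toGroup_range, Subgroup.closure_le]
    rintro _ ⟨s, rfl⟩
    exact u62v_mem s
  exact h ⟨p, rfl⟩

theorem u62_dotUX :
    dotInt (Spor.leechU : GolayPt → ℤ) (leechX : GolayPt → ℤ) = -16 := by decide +kernel

theorem u62_orbit : MulAction.orbit ↥Cfsg.Agent.Helper92.co2Sub leechX =
    {x : leechLattice | sqNorm (x : GolayPt → ℤ) = 32 ∧
      dotInt (Spor.leechU : GolayPt → ℤ) (x : GolayPt → ℤ) = -16} := by
  ext x
  constructor
  · rintro ⟨k, rfl⟩
    have hk' := (Cfsg.Agent.Helper92.mem_co2Sub k.1).1 k.2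
    refine ⟨?_, ?_⟩
    · show sqNorm ((k.1 • leechX : leechLattice) : GolayPt → ℤ) = 32
      rw [co0_norm]; exact sqNorm_leechX
    · show dotInt (Spor.leechU : GolayPt → ℤ) ((k.1 • leechX : leechLattice) : GolayPt → ℤ) = -16
      have h2 := co0_dot k.1 Spor.leechU leechX
      rw [hk'] at h2
      rw [h2]; exact u62_dotUX
  · rintro ⟨h1, h2⟩
    obtain ⟨g, a, b⟩ := co2_trans16 leechX x sqNorm_leechX h1 u62_dotUX h2
    exact ⟨⟨g, (Cfsg.Agent.Helper92.mem_co2Sub g).2 a⟩, b⟩

theorem u62_ncard : {x : leechLattice | sqNorm (x : GolayPt → ℤ) = 32 ∧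
    dotInt (Spor.leechU : GolayPt → ℤ) (x : GolayPt → ℤ) = -16}.ncard = 4600 := by
  rw [← census_leechU.1]
  have e : {w : GolayPt → ℤ | w ∈ leechLattice ∧ sqNorm w = 32 ∧
      dotInt (Spor.leechU : GolayPt → ℤ) w = -16} =
      Subtype.val '' {x : leechLattice | sqNorm (x : GolayPt → ℤ) = 32 ∧
        dotInt (Spor.leechU : GolayPt → ℤ) (x : GolayPt → ℤ) = -16} := by
    ext w
    constructor
    · rintro ⟨h1, h2, h3⟩
      exact ⟨⟨w, h1⟩, ⟨h2, h3⟩, rfl⟩
    · rintro ⟨x, ⟨h2, h3⟩, rfl⟩
      exact ⟨x.2, h2, h3⟩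
  rw [e, Set.ncard_image_of_injective _ Subtype.val_injective]

/-- the joint stabiliser has order `9196830720`. -/
theorem u62_card : Nat.card ↥u62H = 9196830720 := by
  have h1 : (MulAction.stabilizer Co0 leechX).relIndex Cfsg.Agent.Helper92.co2Sub = 4600 := by
    rw [Cfsg.Agent.Helper92.relIndex_stabilizer, u62_orbit]
    exact u62_ncard
  have h2 := Subgroup.relIndex_mul_relIndex (⊥ : Subgroup Co0)
    (Cfsg.Agent.Helper92.co2Sub ⊓ MulAction.stabilizer Co0 leechX) Cfsg.Agent.Helper92.co2Sub
    bot_le inf_le_left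
  rw [Subgroup.relIndex_bot_left, Subgroup.relIndex_bot_left, Subgroup.inf_relIndex_left, h1,
    Cfsg.Agent.Helper92.card_co2Sub] at h2
  have h3 : u62H = Cfsg.Agent.Helper92.co2Sub ⊓ MulAction.stabilizer Co0 leechX := rfl
  rw [h3]
  exact Nat.eq_of_mul_eq_mul_right (by norm_num : 0 < 4600) (h2.trans (by norm_num))

theorem u62_moves : actW (u62V Cfsg.Agent.Helper28.U6.P.Gen.c)
    (pk ((Cfsg.Agent.Helper92.P none (some 1) : leechLattice) : GolayPt → ℤ)) ≠
    pk ((Cfsg.Agent.Helper92.P none (some 1) : leechLattice) : GolayPt → ℤ) := by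
  decide +kernel

theorem u62_ne : u62v Cfsg.Agent.Helper28.U6.P.Gen.c ≠ 1 := by
  intro h
  have hn : sqNorm ((Cfsg.Agent.Helper92.P none (some 1) : leechLattice) : GolayPt → ℤ) < 64 := by
    rw [Cfsg.Agent.Helper92.sqNorm_P_of_ne (by decide)]; norm_num
  have h1 := actW_sound (u62V Cfsg.Agent.Helper28.U6.P.Gen.c) (u62V_ok _)
    (Cfsg.Agent.Helper92.P none (some 1)) hn
  have h2 : semW (u62V Cfsg.Agent.Helper28.U6.P.Gen.c) = 1 := h
  rw [h2, one_smul] at h1
  exact u62_moves h1.symm

theorem u62delta_inj : Function.Injective u62delta := by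
  haveI : IsSimpleGroup (Cfsg.PSU 6 Cfsg.Agent.Helper28.GF4 2) :=
    Cfsg.Agent.S0283.result Cfsg.Agent.Helper28.U6.hF4 6 (by norm_num) (by decide)
  rw [← MonoidHom.ker_eq_bot_iff]
  rcases (MonoidHom.normal_ker u62delta).eq_bot_or_eq_top with h | h
  · exact h
  · exfalso
    have h1 : Cfsg.Agent.Helper28.U6.beta (PresentedGroup.of Cfsg.Agent.Helper28.U6.P.Gen.c) ∈
        u62delta.ker := by
      rw [h]; exact Subgroup.mem_top _
    rw [MonoidHom.mem_ker, u62delta_beta, u62gamma_of] at h1
    exact u62_ne h1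

/-- **`PSU(6, 2)` is the joint stabiliser.** -/
theorem u62_iso : Nonempty (Cfsg.PSU 6 Cfsg.Agent.Helper28.GF4 2 ≃* ↥u62H) := by
  haveI := Cfsg.Agent.Helper92.finite_co0
  have hle : u62delta.range ≤ u62H := by
    rintro _ ⟨x, rfl⟩
    obtain ⟨p, rfl⟩ := Cfsg.Agent.Helper28.U6.beta_surjective x
    rw [u62delta_beta]
    exact u62gamma_mem p
  have hc : Nat.card ↥u62delta.range = 9196830720 := by
    rw [← Nat.card_congr (MonoidHom.ofInjective u62delta_inj).toEquiv,
      Cfsg.Agent.Helper28.U6.card_PSU]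
  have heq : u62delta.range = u62H :=
    Subgroup.eq_of_le_of_card_ge hle (by rw [hc, u62_card])
  exact ⟨(MonoidHom.ofInjective u62delta_inj).trans (MulEquiv.subgroupCongr heq)⟩

/-- transport of the centre quotient along a group isomorphism. -/
def u62quotCenter {G H : Type*} [Group G] [Group H] (e : G ≃* H) :
    G ⧸ Subgroup.center G ≃* H ⧸ Subgroup.center H :=
  QuotientGroup.congr (Subgroup.center G) (Subgroup.center H) e (by
    ext x
    constructor
    · rintro ⟨y, hy, rfl⟩
      rw [SetLike.mem_coe, Subgroup.mem_center_iff] at hy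
      rw [Subgroup.mem_center_iff]
      intro g
      have h1 := hy (e.symm g)
      have h2 := congrArg e h1
      simpa using h2
    · intro h
      rw [Subgroup.mem_center_iff] at h
      refine ⟨e.symm x, ?_, by simp⟩
      rw [SetLike.mem_coe, Subgroup.mem_center_iff]
      intro g
      apply e.injective
      have h1 := h (e g)
      simpa using h1)

/-- **The joint stabiliser of two minimal vectors with inner product `-2` is `PSU(6, 2)`.** -/
theorem u62_stab_psu (F : Type) [Field F] [Fintype F] (hF : Fintype.card F = 4) :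
    Nonempty (↥u62H ≃* Cfsg.PSU 6 F 2) := by
  obtain ⟨e⟩ := u62_iso
  have r : Cfsg.Agent.Helper28.GF4 ≃+* F :=
    FiniteField.ringEquivOfCardEq (by rw [hF, Cfsg.Agent.Helper28.GF4.card_eq])
  exact ⟨e.symm.trans (u62quotCenter (Cfsg.Agent.Helper57.suCongr 6 r 2))⟩

end Cfsg.Agent.Helper26
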